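import Cfsg.Agent.DIM5.Defs2
import Mathlib.FieldTheory.IsAlgClosed.AlgebraicClosure

/-!
Passing to the algebraic closure and to the group extended by `-1`.
-/

set_option autoImplicit false

open Matrix

namespace Cfsg.Agent.D5

variable {K L : Type*} [Field K] [Field L] {Γ X : Type*} [Group Γ] [Group X] {ρ : Γ →* M5 K}
  {π : Γ →* X} {σ : K →+* L}

theorem lf_closure (K : Type*) [Field K] [Finite K] : LF (AlgebraicClosure K) := fun s => by
  let E := IntermediateField.adjoin K (s : Set (AlgebraicClosure K))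
  haveI : FiniteDimensional K E := IntermediateField.finiteDimensional_adjoin fun x _ =>
    Algebra.IsIntegral.isIntegral x
  exact ⟨E.toSubfield, Module.finite_of_finite K (M := E),
    fun x hx => IntermediateField.subset_adjoin K _ hx⟩

theorem map_dot (σ : K →+* L) (a b : V5 K) : (σ ∘ a) ⬝ᵥ (σ ∘ b) = σ (a ⬝ᵥ b) :=
  (RingHom.map_dotProduct σ a b).symm

theorem map_vv (σ : K →+* L) (a b : V5 K) : (vecMulVec a b).map σ = vecMulVec (σ ∘ a) (σ ∘ b) := by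
  ext i j; simp [vecMulVec_apply]

theorem rank_one_desc {M : M5 K} {v f : V5 L} (hv : v ≠ 0) (hf : f ≠ 0)
    (e : M.map σ = vecMulVec v f) : ∃ (a b : V5 K) (t : L), t ≠ 0 ∧ a ≠ 0 ∧ b ≠ 0 ∧
      M = vecMulVec a b ∧ v = t • (σ ∘ a) ∧ f = t⁻¹ • (σ ∘ b) := by
  obtain ⟨i, hi⟩ := Function.ne_iff.1 hv
  obtain ⟨j, hj⟩ := Function.ne_iff.1 hf
  simp only [Pi.zero_apply] at hi hj
  have k : ∀ a b, σ (M a b) = v a * f b := fun a b => congrFun (congrFun e a) b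
  have h1 : v = (f j)⁻¹ • (σ ∘ fun a => M a j) := by
    ext a; simp [k, hj]; field_simp
  have h2 : f = (f j)⁻¹⁻¹ • (σ ∘ fun b => M i b / M i j) := by
    ext a; simp [k]; field_simp
  refine ⟨fun a => M a j, fun b => M i b / M i j, (f j)⁻¹, inv_ne_zero hj, fun e => hv ?_,
    fun e => hf ?_, ?_, h1, h2⟩
  · rw [h1, e]; simp
  · rw [h2, e]; simp
  · ext a b
    apply σ.injective
    simp [vecMulVec_apply, k]; field_simp

theorem Fl.desc {v f : V5 L} (h : Fl (ext σ ρ) v f) :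
    ∃ (a b : V5 K) (t : L), t ≠ 0 ∧ Fl ρ a b ∧ v = t • (σ ∘ a) ∧ f = t⁻¹ • (σ ∘ b) := by
  obtain ⟨⟨h0, g, hg⟩, hv, hf⟩ := h
  obtain ⟨a, b, t, h1, h2, h3, h4, rfl, rfl⟩ := rank_one_desc (σ := σ) (M := ρ g - 1) hv hf (by
    rw [Matrix.map_sub _ (map_sub σ), ← ext_apply, hg]; simp)
  refine ⟨a, b, t, h1, ⟨⟨σ.injective ?_, g, by rw [← h4]; simp⟩, h2, h3⟩, rfl, rfl⟩
  simpa [map_dot, h1] using h0

theorem NoTv.ext (n : NoTv ρ) (σ : K →+* L) : NoTv (ext σ ρ) := fun _ _ h =>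
  let ⟨_, _, _, _, h, _⟩ := h.desc; n _ _ h

theorem two_ext (σ : K →+* L) : (2 : L) = 0 ↔ (2 : K) = 0 := by
  rw [← map_ofNat σ 2, map_eq_zero]

theorem Tame.ext (t : Tame ρ) (h2 : (2 : K) = 0) (σ : K →+* L) : Tame (ext σ ρ) := by
  have h3 := (two_ext σ).2 h2
  have k : ∀ {v f}, D (D5.ext σ ρ) v f → ∃ (a b : V5 K) (t : L), t ≠ 0 ∧ D ρ a b ∧
      v = t • (σ ∘ a) ∧ f = t⁻¹ • (σ ∘ b) := fun h => by
    simpa only [D_iff_fl h2] using ((D_iff_fl h3).1 h).desc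
  have c : ∀ {ρ : Γ →* M5 K} {a b a' b' : V5 K} {s s' : L}, Tame ρ → s ≠ 0 → s' ≠ 0 → D ρ a b →
      D ρ a' b' → s • (σ ∘ a) = s' • (σ ∘ a') → s⁻¹ • (σ ∘ b) = s'⁻¹ • (σ ∘ b') := by
    intro ρ a b a' b' s s' t hs hs' p q e
    obtain ⟨i, hi⟩ := Function.ne_iff.1 p.2.1
    simp only [Pi.zero_apply] at hi
    have e1 : ∀ j, s * σ (a j) = s' * σ (a' j) := congrFun e
    have hc : a' i / a i ≠ 0 := fun h => by
      have := e1 i
      rw [(div_eq_zero_iff.1 h).resolve_right hi] at this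
      simp [hs, hi] at this
    have e2 : s = s' * σ (a' i / a i) := by
      rw [map_div₀, ← mul_div_assoc, ← e1, mul_div_cancel_right₀ _ (by simpa using hi)]
    have e3 : a' = (a' i / a i) • a := funext fun j => σ.injective (mul_left_cancel₀ hs' (by
      rw [← e1, Pi.smul_apply, smul_eq_mul, map_mul, ← mul_assoc, ← e2]))
    rw [t.ctr q ((p.smul hc).of_eq e3 rfl)]
    nth_rw 1 [e2]
    ext j; simp [mul_comm, mul_left_comm]
  refine ⟨fun x y e => ?_, fun x y => ?_, fun x y => ?_, fun n => (n h3).elim⟩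
  · obtain ⟨a, b, s, hs, p, rfl, rfl⟩ := k x
    obtain ⟨a', b', s', hs', q, rfl, rfl⟩ := k y
    simpa [map_dot, hs, hs'] using t.zero p q (by simpa [map_dot, hs, hs'] using e)
  · obtain ⟨a, b, s, hs, p, rfl, rfl⟩ := k x
    obtain ⟨a', b', s', hs', q, e, rfl⟩ := k y
    exact c t hs hs' p q e
  · obtain ⟨a, b, s, hs, p, rfl, rfl⟩ := k x
    obtain ⟨a', b', s', hs', q, rfl, e⟩ := k y
    simpa using c t.dual (inv_ne_zero hs) (inv_ne_zero hs') (D.dual_iff.2 p) (D.dual_iff.2 q) e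

theorem D_sgn_two (h2 : (2 : K) = 0) {v f : V5 K} : D (sgn ρ) v f ↔ D ρ v f := by
  have : ∀ M : M5 K, -M = M := fun M =>
    neg_eq_iff_add_eq_zero.2 (by rw [← two_smul K, h2, zero_smul])
  simp only [D, in_sgn, this, or_self]

theorem Tame.sgn (t : Tame ρ) (h2 : (2 : K) = 0) : Tame (sgn ρ) :=
  ⟨fun a b => t.zero ((D_sgn_two h2).1 a) ((D_sgn_two h2).1 b),
    fun a b => t.ctr ((D_sgn_two h2).1 a) ((D_sgn_two h2).1 b),
    fun a b => t.axs ((D_sgn_two h2).1 a) ((D_sgn_two h2).1 b), fun n => (n h2).elim⟩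

theorem NoTv.ctr (n : NoTv ρ) {v f g : V5 K} (a : D ρ v f) (b : D ρ v g) : f = g := by
  obtain ⟨h0, h1, -, k, hk⟩ := a
  obtain ⟨h2, -, -, k', hk'⟩ := b
  refine by_contra fun e => n v (g - f) ⟨⟨by simp [h0, h2], k * k', ?_⟩, h1,
    sub_ne_zero.2 (Ne.symm e)⟩
  simp only [map_mul, hk, hk', mul_sub, sub_mul, one_mul, mul_one, vv_mul, h0, vecMulVec_sub]
  module

theorem NoTv.tame (n : NoTv ρ) : Tame ρ where
  zero {v f w g} a b e := by
    have c := a.act b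
    rw [e, zero_smul, sub_zero] at c
    simpa [a.2.2.1] using sub_eq_self.1 (n.ctr b c).symm
  ctr := n.ctr
  axs a b := NoTv.ctr (ρ := dual ρ) (fun _ _ h => n _ _ (Fl.dual_iff.1 h)) (D.dual_iff.2 a)
    (D.dual_iff.2 b)
  notv _ := n

theorem Hyp.noTv_sgn (h : Hyp ρ π) (h2 : (2 : K) ≠ 0) (n : NoTv ρ) : NoTv (sgn ρ) := by
  rintro v φ ⟨⟨h0, t⟩, h1⟩
  obtain ⟨g, e | e⟩ := in_sgn.1 t
  · exact n v φ ⟨⟨h0, g, e⟩, h1⟩
  have := h.det g
  rw [e, det_neg, det_one_add_vv, h0] at this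
  exact h2 (by norm_num at this; linear_combination -this)

theorem Hyp.rh [Finite Γ] (h : Hyp ρ π) (t : Tame (sgn ρ)) (lf : LF K) (n : ¬ NoRf ρ) :
    RH (sgn ρ) where
  toTame := t
  lf := lf
  irr W hW := by
    simp only [NoRf, not_forall, not_not] at n
    obtain ⟨v0, f0, a0⟩ := n
    let S : Set Γ := {g | ∃ v f, D (sgn ρ) v f ∧ (ρ g = 1 - vecMulVec v f ∨
      ρ g = -(1 - vecMulVec v f))}
    let M : Submonoid Γ :=
      { carrier := {g | ∀ y ∈ W, ρ g *ᵥ y ∈ W}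
        mul_mem' := fun {a b} ha hb y hy => by
          rw [map_mul, ← mulVec_mulVec]; exact ha _ (hb y hy)
        one_mem' := fun y hy => by simpa using hy }
    let H : Subgroup Γ := ⟨M, fun {g} hg => by
      rw [← mul_one g⁻¹, ← pow_orderOf_eq_one g, ← Nat.sub_add_cancel (orderOf_pos g), pow_succ',
        inv_mul_cancel_left]
      exact M.pow_mem hg _⟩
    obtain ⟨g0, hg0⟩ := in_sgn.1 a0.2.2.2
    refine h.irr W (h.induction (S := S) (fun g ⟨v, f, a, e⟩ k => ⟨_, _, a.conj (k, 1), ?_⟩)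
      ⟨v0, f0, a0, hg0⟩ (fun e => ?_) H ?_)
    · have : ρ k * (1 - vecMulVec v f) * ρ k⁻¹ = 1 - vecMulVec (sgn ρ (k, 1) *ᵥ v)
          (f ᵥ* sgn ρ (k, 1)⁻¹) := by
        simp [sgn_apply, mul_sub, sub_mul, mul_inv_rho, mul_vecMulVec, vecMulVec_mul]
      rw [← this, map_mul, map_mul]
      exact e.imp (fun e => by rw [e]) fun e => by rw [e, mul_neg, neg_mul]
    · obtain ⟨c, hc⟩ := (h.ker g0).1 e
      have k := one_add_vv_ne (neg_ne_zero.2 a0.2.1) a0.2.2.1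
      rw [neg_vecMulVec, ← sub_eq_add_neg] at k
      rcases hg0 with e | e
      · exact k c (e.symm.trans hc)
      · exact k (-c) (by rw [neg_smul, ← hc, e, neg_neg])
    · rintro g ⟨v, f, a, e⟩ y hy
      have : (1 - vecMulVec v f) *ᵥ y ∈ W := by
        rw [sub_mulVec, one_mulVec, vv_mulVec]
        by_cases h0 : f ⬝ᵥ y = 0
        · simpa [h0] using hy
        · exact W.sub_mem hy (W.smul_mem _ (hW v f a y hy h0))
      rcases e with e | e <;> rw [e]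
      · exact this
      · rw [neg_mulVec]; exact W.neg_mem this
  simp N hN := fun ⟨g, hg, h1⟩ k => by
    haveI := hN.map (MonoidHom.fst Γ ℤˣ) Prod.fst_surjective
    have := h.eq_top (N.map (MonoidHom.fst Γ ℤˣ)) ⟨g, hg, rfl⟩ fun e => by
      obtain ⟨c, hc⟩ := (h.ker _).1 e
      exact h1 (((g.2 : ℤ) : K) * c) (by rw [sgn_apply, mul_smul, ← hc]; rfl)
    obtain ⟨m, hm, e⟩ : k.1 ∈ N.map (MonoidHom.fst Γ ℤˣ) := this ▸ Subgroup.mem_top _
    refine ⟨m, hm, ((k.2 * m.2 : ℤˣ) : ℤ), ?_⟩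
    rw [sgn_apply, sgn_apply, smul_smul, ← Int.cast_mul, ← Units.val_mul, mul_assoc,
      Int.units_mul_self, mul_one, ← e]
    rfl

end Cfsg.Agent.D5
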