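import Cfsg.Agent.DIM5.Calc
import Cfsg.Agent.H98.FormTrace
import Cfsg.Agent.H3.SympBasis
import Mathlib.LinearAlgebra.Matrix.Charpoly.FiniteField
import Mathlib.FieldTheory.IsAlgClosed.AlgebraicClosure

set_option autoImplicit false

open Matrix
open scoped MatrixGroups

namespace Cfsg.Agent.D5

variable {K : Type*} [Field K] {Γ X : Type*} [Group Γ] [Group X] {ρ : Γ →* M5 K} {π : Γ →* X}

open Polynomial in
theorem trace_pow_p (ρ : Γ →* M5 K) (p : ℕ) [Fact p.Prime] [CharP K p] (g : Γ) :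
    (ρ g).trace ^ p = (ρ (g ^ p)).trace := by
  have hp : p.Prime := Fact.out
  rw [map_pow]
  generalize ρ g = M
  have e : (M ^ p).charpoly = M.charpoly.map (frobenius K p) := by
    apply expand_injective hp.pos
    rw [← map_expand, map_frobenius_expand]
    unfold charpoly
    rw [AlgHom.map_det, ← coe_detMonoidHom, ← (detMonoidHom : M5 K[X] →* K[X]).map_pow]
    apply congr_arg detMonoidHom
    refine matPolyEquiv.injective ?_
    rw [map_pow, matPolyEquiv_charmatrix, sub_pow_char_of_commute, ← C_pow]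
    · exact (id (matPolyEquiv_eq_X_pow_sub_C p M) :)
    · exact (C M).commute_X
  rw [trace_eq_neg_charpoly_coeff, trace_eq_neg_charpoly_coeff, e, coeff_map, ← map_neg, frobenius_def]

theorem trace_unip (ρ : Γ →* M5 K) (p : ℕ) [Fact p.Prime] [CharP K p] {g : Γ} {k : ℕ}
    (e : g ^ p ^ k = 1) : (ρ g).trace = 5 := by
  induction k generalizing g with
  | zero => rw [pow_zero, pow_one] at e; simp [e]
  | succ k ih =>
    rw [pow_succ', pow_mul] at e
    apply frobenius_inj K p
    rw [map_ofNat, frobenius_def, trace_pow_p, ih e]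

theorem Hyp.trace_isConj (h : Hyp ρ π) (hπ : Function.Injective π) {a b : Γ}
    (e : IsConj (π a) (π b)) : (ρ b).trace = (ρ a).trace := by
  obtain ⟨c, hc⟩ := isConj_iff.1 e
  obtain ⟨k, rfl⟩ := h.surj c
  rw [← map_inv, ← map_mul, ← map_mul] at hc
  rw [← hπ hc, trace_conj]

theorem Hyp.real_of (h : Hyp ρ π) (hπ : Function.Injective π) (p : ℕ) [Fact p.Prime] [CharP K p]
    (e : ∀ x : X, IsConj x x⁻¹ ∨ ∃ k : ℕ, x ^ p ^ k = 1) : Real ρ := fun g => by
  rcases e (π g) with e | ⟨k, e⟩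
  · exact h.trace_isConj hπ (by rwa [map_inv])
  · have e1 : g ^ p ^ k = 1 := hπ (by rw [map_pow, e, map_one])
    rw [trace_unip ρ p e1, trace_unip ρ p (g := g⁻¹) (k := k) (by rw [inv_pow, e1, inv_one])]

theorem Hyp.rk_not_triv (h : Hyp ρ π) : ¬ ∀ g (v : V5 K), ρ g *ᵥ v = v := fun e => by
  have e1 : ∀ g, ρ g = 1 := fun g => toLin'.injective (LinearMap.ext fun v => by simpa using e g v)
  obtain ⟨c, hc⟩ := h.scalar_of_comm (M := 1 + vecMulVec (Pi.single 0 1) (Pi.single 0 1)) fun g => by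
    rw [e1, one_mul, mul_one]
  exact one_add_vv_ne (by simp) (by simp) c hc

theorem Hyp.scott (h : Hyp ρ π) {a b c : Γ} (e : a * b * c = 1)
    (gen : ∀ H : Subgroup Γ, a ∈ H → b ∈ H → H = ⊤) :
    10 ≤ (ρ a - 1).rank + (ρ b - 1).rank + (ρ c - 1).rank := by
  let R : Γ → Submodule K (V5 K) := fun g => LinearMap.range (ρ g - 1).mulVecLin
  have hR : ∀ g v, ρ g *ᵥ v - v ∈ R g := fun g v => ⟨v, by simp [sub_mulVec]⟩
  let β : (R a × R b × R c) →ₗ[K] V5 K := (R a).subtype.coprod
    (((ρ a).mulVecLin.comp (R b).subtype).coprod ((ρ (a * b)).mulVecLin.comp (R c).subtype))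
  have hβ : ∀ x y z, β (x, y, z) = x + (ρ a *ᵥ y + ρ (a * b) *ᵥ z) := fun _ _ _ => rfl
  let δ : V5 K →ₗ[K] LinearMap.ker β := LinearMap.codRestrict _
    ((ρ a - 1).mulVecLin.rangeRestrict.prod ((ρ b - 1).mulVecLin.rangeRestrict.prod
      (ρ c - 1).mulVecLin.rangeRestrict)) fun v => by
    change (ρ a - 1) *ᵥ v + (ρ a *ᵥ (ρ b - 1) *ᵥ v + ρ (a * b) *ᵥ (ρ c - 1) *ᵥ v) = 0
    simp only [mulVec_mulVec, mul_sub, mul_one, ← map_mul, e, map_one, ← add_mulVec]
    simp
  have h1 : Function.Injective δ := by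
    refine (injective_iff_map_eq_zero δ).2 fun v hv => ?_
    have ea : (ρ a - 1) *ᵥ v = 0 := congrArg (fun z => (z.1.1 : V5 K)) hv
    have eb : (ρ b - 1) *ᵥ v = 0 := congrArg (fun z => (z.1.2.1 : V5 K)) hv
    rw [sub_mulVec, one_mulVec, sub_eq_zero] at ea eb
    let H : Subgroup Γ :=
      { carrier := {g | ρ g *ᵥ v = v}
        mul_mem' := fun {x y} (hx : _ = _) (hy : _ = _) => by
          change _ = _; rw [map_mul, ← mulVec_mulVec, hy, hx]
        one_mem' := by change _ = _; rw [map_one, one_mulVec]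
        inv_mem' := fun {x} (hx : _ = _) => by
          change _ = _; rw [← hx, mulVec_mulVec, inv_mul_rho, one_mulVec, hx] }
    have hH : ∀ g, ρ g *ᵥ v = v := fun g => (gen H ea eb ▸ Subgroup.mem_top g : g ∈ H)
    let W : Submodule K (V5 K) := ⨅ g, LinearMap.ker (ρ g - 1).mulVecLin
    have hW : ∀ x, x ∈ W ↔ ∀ g, ρ g *ᵥ x = x := fun x => by simp [W, sub_mulVec, sub_eq_zero]
    rcases h.irr W (fun g x hx => by rwa [(hW x).1 hx g]) with e | e
    · exact e.le ((hW v).2 hH)
    · exact absurd (fun g x => (hW x).1 (e ▸ Submodule.mem_top) g) h.rk_not_triv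
  have h2 : LinearMap.range β = ⊤ := by
    let H : Subgroup Γ :=
      { carrier := {g | ∀ v, ρ g *ᵥ v - v ∈ LinearMap.range β}
        mul_mem' := fun {x y} hx hy v => by
          rw [map_mul, ← mulVec_mulVec, ← sub_add_sub_cancel _ (ρ y *ᵥ v)]
          exact add_mem (hx _) (hy _)
        one_mem' := fun v => by rw [map_one, one_mulVec, sub_self]; exact zero_mem _
        inv_mem' := fun {x} hx v => by
          have := neg_mem (hx (ρ x⁻¹ *ᵥ v))
          rwa [mulVec_mulVec, mul_inv_rho, one_mulVec, neg_sub] at this }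
    have ha : a ∈ H := fun v => ⟨(⟨_, hR a v⟩, 0, 0), by simp [hβ]⟩
    have hb : b ∈ H := fun v => by
      have := sub_mem (show ρ a *ᵥ (ρ b *ᵥ v - v) ∈ LinearMap.range β from ⟨(0, ⟨_, hR b v⟩, 0), by simp [hβ]⟩)
        (ha (ρ b *ᵥ v - v))
      rwa [sub_sub_cancel] at this
    have hH : ∀ g v, ρ g *ᵥ v - v ∈ LinearMap.range β := fun g => (gen H ha hb ▸ Subgroup.mem_top g : g ∈ H)
    refine (h.irr _ fun g x hx => ?_).resolve_left fun e => h.rk_not_triv fun g v => ?_
    · simpa using add_mem (hH g x) hx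
    · simpa [e, sub_eq_zero] using hH g v
  have h3 := β.finrank_range_add_finrank_ker
  have h4 := LinearMap.finrank_le_finrank_of_injective h1
  rw [h2, finrank_top, Module.finrank_prod, Module.finrank_prod] at h3
  rw [Module.finrank_fin_fun] at h3 h4
  change 10 ≤ Module.finrank K (R a) + Module.finrank K (R b) + Module.finrank K (R c)
  omega

theorem rk_rank_add (M : M5 K) : M.rank + Module.finrank K (LinearMap.ker M.mulVecLin) = 5 :=
  M.mulVecLin.finrank_range_add_finrank_ker.trans (Module.finrank_fin_fun K)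

open Polynomial in
theorem Hyp.rank_real (h : Hyp ρ π) {g : Γ} (e : IsConj g g⁻¹) : (ρ g - 1).rank ≤ 4 := by
  obtain ⟨k, hk⟩ := isConj_iff.1 e
  have e1 : (ρ g⁻¹).charpoly = (ρ g).charpoly := by
    rw [← hk, map_mul, map_mul, charpoly_mul_comm, ← mul_assoc, inv_mul_rho, one_mul]
  have e2 := charpoly_inv (ρ g) (isUnit_rho ρ g)
  rw [inv_eq_right_inv (mul_inv_rho ρ g), e1, h.det, Ring.inverse_one, ← reverse_charpoly, Fintype.card_fin] at e2
  have hd : (ρ g).charpoly.natDegree = 5 := by rw [charpoly_natDegree_eq_dim, Fintype.card_fin]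
  have e3 : ∀ i ≤ 5, (ρ g).charpoly.coeff i = -(ρ g).charpoly.coeff (5 - i) := fun i hi => by
    conv_lhs => rw [e2]
    rw [show ((-1) ^ 5 * C 1 : K[X]) = -1 by simp; norm_num, neg_one_mul, coeff_neg, coeff_reverse, hd, revAt_le hi]
  have e4 : (ρ g).charpoly.eval 1 = 0 := by
    rw [eval_eq_sum_range, hd]
    simp only [Finset.sum_range_succ, Finset.sum_range_zero, one_pow, mul_one]
    rw [e3 0 (by norm_num), e3 1 (by norm_num), e3 2 (by norm_num)]
    ring
  rw [eval_charpoly, map_one] at e4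
  obtain ⟨v, hv, e5⟩ := exists_mulVec_eq_zero_iff.2 e4
  have e6 : LinearMap.ker (ρ g - 1).mulVecLin ≠ ⊥ := fun e => hv (e.le (show (ρ g - 1) *ᵥ v = 0 by
    rw [← neg_sub, neg_mulVec, e5, neg_zero]))
  have := rk_rank_add (ρ g - 1)
  have := mt Submodule.finrank_eq_zero.1 e6
  omega

theorem rk_ker_mul (M N : M5 K) : Module.finrank K (LinearMap.ker (M * N).mulVecLin) ≤
    Module.finrank K (LinearMap.ker M.mulVecLin) + Module.finrank K (LinearMap.ker N.mulVecLin) := by
  let f : LinearMap.ker (M * N).mulVecLin →ₗ[K] LinearMap.ker M.mulVecLin :=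
    N.mulVecLin.restrict fun v hv => by simpa using hv
  have h1 := f.finrank_range_add_finrank_ker
  have h2 := (LinearMap.range f).finrank_le
  have h3 : Module.finrank K (LinearMap.ker f) ≤ Module.finrank K (LinearMap.ker N.mulVecLin) :=
    LinearMap.finrank_le_finrank_of_injective
      (f := ((Submodule.subtype _).comp (LinearMap.ker f).subtype).codRestrict (LinearMap.ker N.mulVecLin)
        fun v => congrArg Subtype.val v.2)
      fun a b e => Subtype.ext (Subtype.ext (congrArg (fun z : LinearMap.ker N.mulVecLin => z.1) e))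
  omega

theorem rank_unip (ρ : Γ →* M5 K) {g : Γ} (e : (ρ g - 1) ^ 3 = 0) : (ρ g - 1).rank ≤ 3 := by
  generalize ρ g - 1 = N at e
  have h1 := rk_ker_mul N (N * N)
  have h2 := rk_ker_mul N N
  have h3 := rk_rank_add N
  have h4 := rk_rank_add (N * (N * N))
  rw [← pow_three, e] at h1 h4
  rw [rank_zero] at h4
  omega

theorem alt_false {S : M5 K} (h1 : Sᵀ = -S) (h2 : ∀ i, S i i = 0) : S.det = 0 := by
  by_contra h
  have k : ∀ i j, S i j = -S j i := fun i j => congrFun (congrFun h1 j) i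
  obtain ⟨m, hm⟩ := H3.even_finrank_of_isAlt S.toBilin' (fun v => by
    rw [toBilin'_apply]
    simp only [Fin.sum_univ_five, h2]
    rw [k 1 0, k 2 0, k 3 0, k 4 0, k 2 1, k 3 1, k 4 1, k 3 2, k 4 2, k 4 3]
    ring) (LinearMap.BilinForm.nondegenerate_toBilin'_of_det_ne_zero' S h)
  rw [Module.finrank_fin_fun] at hm
  omega

theorem rk_frame {ι : Type*} (x : ι → V5 K) (hx : ∀ η : V5 K, (∀ i, η ⬝ᵥ x i = 0) → η = 0) :
    ∃ (e : Fin 5 → ι) (P : (M5 K)ˣ), ∀ (η : V5 K) k, (η ᵥ* P.val) k = η ⬝ᵥ x (e k) := by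
  have hs : ⊤ ≤ Submodule.span K (Set.range x) := fun v _ => by
    by_contra hv
    obtain ⟨l, h1, h2⟩ := Submodule.exists_dual_map_eq_bot_of_notMem hv inferInstance
    have e : ∀ w, l w = (fun i => l (Pi.single i 1)) ⬝ᵥ w := fun w => by
      rw [LinearMap.pi_apply_eq_sum_univ]
      exact Finset.sum_congr rfl fun i _ => by
        rw [smul_eq_mul, mul_comm]; congr 2; ext j; simp [Pi.single_apply, eq_comm]
    refine h1 ?_
    rw [e, hx _ fun i => (e _).symm.trans ((Submodule.mem_bot K).1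
      (h2 ▸ Submodule.mem_map_of_mem (Submodule.subset_span ⟨i, rfl⟩))), zero_dotProduct]
  let b0 := Module.Basis.ofSpan hs
  let b := b0.reindex (b0.indexEquiv (Pi.basisFun K (Fin 5)))
  have hb : ∀ k, ∃ i, x i = b k := fun k => by
    rw [Module.Basis.reindex_apply]
    exact Module.Basis.ofSpan_subset hs ⟨_, rfl⟩
  choose e he using hb
  have hu : IsUnit (Matrix.of fun i j => b j i) := linearIndependent_cols_iff_isUnit.1 b.linearIndependent
  exact ⟨e, hu.unit, fun η k => by rw [he]; rfl⟩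

theorem exists_theta (σ : K →+* K) (ε : K) {ι : Type*} (x χ : ι → V5 K)
    (hx : ∀ η : V5 K, (∀ i, η ⬝ᵥ x i = 0) → η = 0)
    (h : ∀ i j, χ i ⬝ᵥ x j = ε * σ (χ j ⬝ᵥ x i)) :
    ∃ S : M5 K, ∀ i, χ i = (fun k => σ (x i k)) ᵥ* S := by
  obtain ⟨e, P, hP⟩ := rk_frame x hx
  refine ⟨(of fun l k => ε * σ (χ (e k) l)) * P⁻¹.val, fun i => vecMul_units_inj P ?_⟩
  rw [vecMul_vecMul, mul_assoc, Units.inv_mul, mul_one]
  ext k
  rw [hP, h]
  simp only [vecMul, dotProduct, map_sum, map_mul, Finset.mul_sum, of_apply]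
  exact Finset.sum_congr rfl fun l _ => by ring

theorem alt_family_false {ι : Type*} (x χ : ι → V5 K)
    (hx : ∀ η : V5 K, (∀ i, η ⬝ᵥ x i = 0) → η = 0) (hχ : ∀ y : V5 K, (∀ i, χ i ⬝ᵥ y = 0) → y = 0)
    (h : ∀ i j, χ i ⬝ᵥ x j = -(χ j ⬝ᵥ x i)) (h0 : ∀ i, χ i ⬝ᵥ x i = 0) : False := by
  obtain ⟨e, P, hP⟩ := rk_frame x hx
  have h1 := alt_false (S := of fun k l => χ (e k) ⬝ᵥ x (e l)) (by ext k l; exact h _ _) fun k => h0 _
  obtain ⟨v, hv, e1⟩ := exists_mulVec_eq_zero_iff.2 h1
  have e2 : ∀ η : V5 K, η ⬝ᵥ P.val *ᵥ v = ∑ l, η ⬝ᵥ x (e l) * v l := fun η => by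
    rw [dotProduct_mulVec]
    exact Finset.sum_congr rfl fun l _ => by rw [hP]
  have e3 : ∑ l, v l • χ (e l) = 0 := vecMul_units_inj P (by
    ext k
    rw [hP, zero_vecMul, sum_dotProduct, Pi.zero_apply, ← neg_eq_zero, ← Finset.sum_neg_distrib]
    refine Eq.trans ?_ (congrFun e1 k)
    rw [mulVec, dotProduct]
    exact Finset.sum_congr rfl fun l _ => by rw [smul_dotProduct, of_apply, h (e k), smul_eq_mul]; ring)
  refine hv (units_mulVec_inj P ((hχ _ fun i => ?_).trans (mulVec_zero _).symm))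
  have := congrArg (· ⬝ᵥ x i) e3
  simp only [sum_dotProduct, smul_dotProduct, zero_dotProduct, smul_eq_mul] at this
  rw [e2, ← neg_eq_zero, ← Finset.sum_neg_distrib, ← this]
  exact Finset.sum_congr rfl fun l _ => by rw [h i]; ring

theorem Hyp.rk_not_real [IsAlgClosed K] (h : Hyp ρ π) (h2 : (2 : K) = 0) : ¬ Real ρ := fun hr => by
  obtain ⟨ε, f, hf, hL, -⟩ := H98.exists_form_of_trace (σ := RingEquiv.refl K) (fun _ => rfl)
    (L := ρ.toHomUnits.range) (eq_top_iff.2 fun M _ => H98.mem_grpAlg_iff.2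
      (h.span_ind _ (fun g => Submodule.subset_span (H98.coe_mem_matrixSet (N := ρ.toHomUnits.range) (g := ρ.toHomUnits g) ⟨g, rfl⟩)) M)) (by
      rintro _ ⟨g, rfl⟩
      rw [← map_inv]; exact hr g)
  have n1 : ∀ a : K, -a = a := fun a => by linear_combination -a * h2
  have sy : ∀ u v, f u v = f v u := fun u v => by
    rw [hf.herm u v]
    rcases hf.eps with e | e <;> simp [e, n1]
  have sr : ∀ (c : K) u v, f u (c • v) = c * f u v := hf.smul_right
  let W : Submodule K (V5 K) :=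
    { carrier := {v | f v v = 0}
      add_mem' := fun {u v} (hu : _ = _) (hv : _ = _) => by
        change _ = _
        rw [hf.add_left, hf.add_right, hf.add_right, hu, hv, sy v u]
        linear_combination f u v * h2
      zero_mem' := hf.zero_left 0
      smul_mem' := fun c v (hv : _ = _) => by change _ = _; rw [hf.smul_left, sr, hv, mul_zero, mul_zero] }
  rcases h.irr W (fun g v hv => (H98.fixes_iff.1 hL _ ⟨g, rfl⟩ v v).trans hv) with e | e
  · have k : ∀ v : V5 K, f v v = 0 → v = 0 := fun v hv => e.le hv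
    have a0 : f (Pi.single 0 1) (Pi.single 0 1) ≠ 0 := fun e => by simpa using k _ e
    obtain ⟨t, ht⟩ := IsAlgClosed.exists_eq_mul_self
      (f (Pi.single 1 1) (Pi.single 1 1) / f (Pi.single 0 1) (Pi.single 0 1))
    have := congrFun (k (t • Pi.single 0 1 + Pi.single 1 1) (by
      rw [hf.add_left, hf.add_right, hf.add_right, hf.smul_left, hf.smul_left, sr, sr, sy (Pi.single 1 1),
        ← mul_assoc, ← ht, div_mul_cancel₀ _ a0]
      linear_combination (f (Pi.single 1 1) (Pi.single 1 1) + t * f (Pi.single 0 1) (Pi.single 1 1)) * h2)) 1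
    simp at this
  · exact hf.isUnit_det_gram.ne_zero (alt_false (by ext i j; exact (sy _ _).trans (n1 _).symm)
      fun i => (e ▸ Submodule.mem_top : Pi.single i 1 ∈ W))

theorem Hyp.not_real_two (h : Hyp ρ π) (h2 : (2 : K) = 0) : ¬ Real ρ := fun hr =>
  (h.ext (algebraMap K (AlgebraicClosure K))).rk_not_real (by
    rw [← map_ofNat (algebraMap K (AlgebraicClosure K)), h2, map_zero]) fun g => by
    rw [trace_ext, trace_ext, hr g]

theorem Hyp.real_of_isO (h : Hyp ρ π) (e : IsO (sgn ρ)) : Real ρ := by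
  obtain ⟨-, S, hS, -, hc⟩ := e
  have hc' : ∀ g, ∃ c : K, (ρ g)ᵀ * S * ρ g = c • S := fun g => by simpa [sgn_apply] using hc (g, 1)
  choose c hc using hc'
  have S0 : S ≠ 0 := by rintro rfl; exact hS det_zero
  let f : Γ →* K :=
    { toFun := c
      map_one' := smul_left_injective K S0 (by simpa using (hc 1).symm)
      map_mul' := fun a b => smul_left_injective K S0 (by
        change c (a * b) • S = (c a * c b) • S
        rw [← hc, map_mul, transpose_mul, mul_smul, ← hc b, ← smul_mul_assoc, ← mul_smul_comm, ← hc a]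
        simp only [mul_assoc]) }
  intro g
  have e1 : c g = 1 := congrArg Units.val (hom_eq_one h.perfect f.toHomUnits g)
  have e2 := hc g
  rw [e1, one_smul] at e2
  have hu : IsUnit S.det := isUnit_iff_ne_zero.2 hS
  have e3 : ρ g⁻¹ = S⁻¹ * (ρ g)ᵀ * S := by
    rw [← one_mul (ρ g⁻¹), ← nonsing_inv_mul S hu, mul_assoc, mul_assoc]
    congr 1
    conv_lhs => rw [← e2]
    rw [mul_assoc, mul_inv_rho, mul_one]
  rw [e3, trace_mul_cycle, mul_nonsing_inv S hu, one_mul, trace_transpose]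

end Cfsg.Agent.D5
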