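import Cfsg.Agent.DIM5.Small
import Cfsg.Agent.DIM5.Rk
import Cfsg.Agent.H10.P3Alt
import Cfsg.Agent.H14.MClasses
import Cfsg.Agent.S2116
import Cfsg.Agent.S2034

set_option autoImplicit false

open Matrix
open scoped MatrixGroups

namespace Cfsg.Agent.D5

section perm

open H10.P3 H56 H56.Alt H14 Subgroup

theorem am_real7 (x : alternatingGroup (Fin 7)) : IsConj x x⁻¹ ∨ x ^ 7 = 1 := by
  obtain ⟨c, hc, r, h1, h2, -⟩ := exists_cls a7_classes x
  obtain ⟨k, rfl⟩ := isConj_iff.1 h2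
  have s : ∀ y k' : alternatingGroup (Fin 7), a7E.pk y = c.X → (k' * y * k'⁻¹ = y⁻¹ ∨ y ^ 7 = 1) →
      IsConj (k * r * k⁻¹) (k * r * k⁻¹)⁻¹ ∨ (k * r * k⁻¹) ^ 7 = 1 := fun y k' e h => by
    obtain rfl : r = y := Subtype.ext (a7E.pk_injective (h1.trans e.symm))
    refine h.imp (fun h => isConj_iff.2 ⟨k * k' * k⁻¹, ?_⟩) fun h => by rw [conj_pow, h]; simp
    calc _ = k * (k' * r * k'⁻¹) * k⁻¹ := by group
      _ = _ := by rw [h]; group
  simp only [a7Cl, List.mem_cons, List.not_mem_nil, or_false] at hc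
  rcases hc with rfl | rfl | rfl | rfl | rfl | rfl | rfl | rfl | rfl
  · exact s 1 1 (by decide +kernel) (by decide +kernel)
  · exact s (al [[0, 1], [2, 3]]) 1 (by decide +kernel) (by decide +kernel)
  · exact s (al [[0, 1, 2]]) (al [[0, 1], [5, 6]]) (by decide +kernel) (by decide +kernel)
  · exact s (al [[1, 2, 3], [4, 5, 6]]) (al [[2, 3], [4, 5]]) (by decide +kernel) (by decide +kernel)
  · exact s (al [[0, 1, 2, 3], [5, 6]]) (al [[0, 1], [2, 3]]) (by decide +kernel) (by decide +kernel)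
  · exact s (al [[0, 1, 2, 3, 4]]) (al [[0, 3], [1, 2]]) (by decide +kernel) (by decide +kernel)
  · exact s (al [[0, 1], [2, 3, 4], [5, 6]]) (al [[3, 4], [5, 6]]) (by decide +kernel)
      (by decide +kernel)
  · exact s (al [[0, 1, 2, 3, 4, 6, 5]]) 1 (by decide +kernel) (by decide +kernel)
  · exact s (al [[0, 1, 2, 3, 4, 5, 6]]) 1 (by decide +kernel) (by decide +kernel)

theorem am_gen7 {H : Subgroup (alternatingGroup (Fin 7))} (ha : al [[2, 6], [3, 5]] ∈ H)
    (hb : al [[0, 2, 1], [3, 6], [4, 5]] ∈ H) : H = ⊤ := by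
  have h := a7_chain.eq_grp (cs := a7C) (gens := a7G)
    (inG_of_memOK a7_chain (by decide +kernel)) (by decide +kernel)
  have : a7E.grp a7G ≤ H.map (alternatingGroup (Fin 7)).subtype := by
    refine (closure_le _).2 fun g hg => ?_
    simp only [a7G, List.mem_cons, List.not_mem_nil, or_false, Set.mem_ofPred_eq] at hg
    rcases hg with hg | hg
    · exact ⟨_, wd_mem ha hb [false, false], a7E.pk_injective (Eq.trans (by decide +kernel) hg.symm)⟩
    · exact ⟨_, wd_mem ha hb [false, false, false, false, false, true],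
        a7E.pk_injective (Eq.trans (by decide +kernel) hg.symm)⟩
  rw [eq_top_iff]
  intro g _
  obtain ⟨g', h1, h2⟩ := this (h.le g.2)
  rwa [← show g' = g from Subtype.ext h2]

theorem am_trip7 : ∃ a b c : alternatingGroup (Fin 7), a * b * c = 1 ∧ a * a = 1 ∧ c ^ 7 = 1 ∧
    IsConj b b⁻¹ ∧ IsConj c (c ^ 2) ∧ ∀ H : Subgroup (alternatingGroup (Fin 7)), a ∈ H → b ∈ H → H = ⊤ :=
  ⟨al [[2, 6], [3, 5]], al [[0, 2, 1], [3, 6], [4, 5]], al [[0, 1, 2, 3, 4, 5, 6]], by decide +kernel,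
    by decide +kernel, by decide +kernel, isConj_iff.2 ⟨al [[0, 1], [4, 5]], by decide +kernel⟩,
    isConj_iff.2 ⟨al [[0, 1, 3], [2, 5, 4]], by decide +kernel⟩, fun _ => am_gen7⟩

theorem am_cube11 (x : Spor.M11) : IsConj (x ^ 3) (x ^ 9) := by
  obtain ⟨c, hc, r, h1, h2, -⟩ := exists_cls m11_classes x
  have hm := inG_of_memOK m11_chain (l := [0xbdab49ca307b9ac5a928398a418820,
    0x515738c9c23d06cb5c8179ab0425a0, 0xad2eb3b0ad8da5073c899994340820,
    0xaba65548f05d0467dda888ecc20520, 0xa3ed78b54c2cc233b92859ab214080,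
    0x8dab37b14371506b9e0958a9269020, 0xad0e59a22175c505592c7916d30e40]) (by decide +kernel)
  have key : ∀ c ∈ m11Cl, ∃ P ∈ [0xbdab49ca307b9ac5a928398a418820,
    0x515738c9c23d06cb5c8179ab0425a0, 0xad2eb3b0ad8da5073c899994340820,
    0xaba65548f05d0467dda888ecc20520, 0xa3ed78b54c2cc233b92859ab214080,
    0x8dab37b14371506b9e0958a9269020, 0xad0e59a22175c505592c7916d30e40],
      comp 5 32 24 P (powP 5 32 24 c.X 3) = comp 5 32 24 (powP 5 32 24 c.X 9) P := by
    decide +kernel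
  obtain ⟨P, hP, e⟩ := key c hc
  obtain ⟨g, hg, rfl⟩ := hm P hP
  rw [← h1, ← GE.pk_pow, ← GE.pk_pow, ← GE.pk_mul, ← GE.pk_mul, GE.pk_inj] at e
  simpa [zpow_ofNat] using isConj_map_of h2 (m := 3) (n := 9) (isConj_iff.2 ⟨⟨g, hg⟩, by
    rw [mul_inv_eq_iff_eq_mul]; exact Subtype.ext (by simpa [zpow_ofNat] using e)⟩)

theorem am_nine11 : ∃ a b n m : Spor.M11, a ≠ 1 ∧ a ^ 3 = 1 ∧ b ^ 3 = 1 ∧ a * b = b * a ∧
    n * a = b * n ∧ a * (n * b) = n ∧ m * a = a * b * m ∧ b * (m * b) = a * m := by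
  have hm := inG_of_memOK m11_chain (l := [0x7b8f4aa2212a9ac5d8469cae981060,
    0x7aab19c1622d9aca38c138ee84c880, 0x516955867075dac3bcc48a2c990c40,
    0x9d2ee78ac1ac5ac52c8828cf091920]) (by decide +kernel)
  simp only [List.mem_cons, List.not_mem_nil, or_false, forall_eq_or_imp, forall_eq] at hm
  obtain ⟨⟨a, ha, ea⟩, ⟨b, hb, eb⟩, ⟨n, hn, en⟩, m, hm, em⟩ := hm
  refine ⟨⟨a, ha⟩, ⟨b, hb⟩, ⟨n, hn⟩, ⟨m, hm⟩, ?_⟩
  simp only [Ne, Subtype.ext_iff, coe_mul, coe_pow, coe_one, ← GE.pk_inj, GE.pk_mul, GE.pk_pow,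
    GE.pk_one, ea, eb, en, em]
  decide +kernel

end perm

variable {K : Type*} [Field K] {Γ X : Type*} [Group Γ] [Group X] {ρ : Γ →* M5 K} {π : Γ →* X}
variable [IsAlgClosed K] [Finite Γ] (p : ℕ) [Fact p.Prime] [CharP K p]

theorem Hyp.a7 (h : Hyp ρ π) (n : NoRf ρ) (e : Nonempty (X ≃* alternatingGroup (Fin 7))) :
    Real ρ := by
  obtain ⟨e⟩ := e
  have hπ := h.ker_of_mult e (S2116.result 7 (.inr rfl)) (n := 6) (by norm_num) (by decide)
  by_cases h7 : (7 : K) = 0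
  · have : Fact (Nat.Prime 7) := ⟨by norm_num⟩
    have : CharP K 7 := (CharP.charP_iff_prime_eq_zero this.out).2 h7
    refine h.real_of hπ 7 fun x => (am_real7 (e x)).imp (fun a => ?_) fun a => ⟨1, e.injective ?_⟩
    · simpa using e.symm.toMonoidHom.map_isConj a
    · rw [pow_one, map_pow, a, map_one]
  obtain ⟨a, b, c, h1, h2, h3, h4, h5, h6⟩ := am_trip7
  let f := ((MulEquiv.ofBijective π ⟨hπ, h.surj⟩).trans e).symm
  have s := h.scott (a := f a) (b := f b) (c := f c) (by rw [← map_mul, ← map_mul, h1, map_one])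
    fun H ha hb => eq_top_iff.2 fun g _ => by
      obtain ⟨x, rfl⟩ := f.surjective g
      exact (h6 (H.comap f.toMonoidHom) ha hb).ge (Subgroup.mem_top x)
  have r1 := h.rank_inv n (g := f a) (by rw [← map_mul, h2, map_one])
  have r2 := h.rank_real (g := f b) (by simpa using f.toMonoidHom.map_isConj h4)
  have r3 := rank_three (ρ := ρ) (g := f c) (.inl ⟨rfl, rfl⟩) h7 (by rw [← map_pow, h3, map_one])
    (by simpa using f.toMonoidHom.map_isConj h5)
  omega

theorem Hyp.m11 (h : Hyp ρ π) (e : Spor.IsoM11 X) : p = 3 ∧ FrobFix ρ 3 := by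
  obtain ⟨e⟩ := e
  have h3 : (3 : K) = 0 := by
    by_contra h3
    obtain ⟨a, b, n, m, h1, h2, h4, h5, h6, h7, h8, h9⟩ := am_nine11
    refine h.e9_false h3 (a := e.symm a) (b := e.symm b) (n := e.symm n) (m := e.symm m)
      (by simpa using h1) ?_ ?_ ?_ ?_ ?_ ?_ ?_ <;> apply e.injective <;>
      simp only [map_mul, map_pow, map_inv, map_one, e.apply_symm_apply, h2, h4]
    · exact h5
    · rw [h6, mul_inv_cancel_right]
    · rw [eq_inv_iff_mul_eq_one, mul_eq_one_comm, ← mul_assoc, h7, mul_inv_cancel]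
    · rw [h8, mul_inv_cancel_right]
    · calc _ = b⁻¹ * (b * (m * b)) * m⁻¹ := by group
        _ = b⁻¹ * (a * b) * b⁻¹ := by rw [h9]; group
        _ = _ := by rw [h5]; group
  have hp : p = 3 := ((Nat.prime_dvd_prime_iff_eq Fact.out Nat.prime_three).1
    ((CharP.cast_eq_zero_iff K p 3).1 h3))
  subst hp
  have hπ := h.ker_of_mult e S2034.result (n := 1) (by norm_num) (by decide)
  refine ⟨rfl, fun g => frobenius_inj K 3 ?_⟩
  rw [frobenius_def, frobenius_def, trace_pow_p, trace_pow_p, ← pow_mul]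
  exact h.trace_isConj hπ (by simpa using e.symm.toMonoidHom.map_isConj (am_cube11 (e (π g))))

end Cfsg.Agent.D5
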