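import Cfsg.Agent.DIM5.Defs

/-!
Five-dimensional projective representations: basic facts.
-/

set_option autoImplicit false

open Matrix

namespace Cfsg.Agent.D5

variable {K : Type*} [Field K] {Γ X : Type*} [Group Γ] [Group X] {ρ : Γ →* M5 K} {π : Γ →* X}

theorem exists_dot_ne_zero {v : V5 K} (hv : v ≠ 0) : ∃ φ : V5 K, φ ⬝ᵥ v ≠ 0 := by
  by_contra h
  push Not at h
  exact hv (funext fun i => by simpa using h (Pi.single i 1))

theorem exists_dot_ne_zero' {φ : V5 K} (hv : φ ≠ 0) : ∃ v : V5 K, φ ⬝ᵥ v ≠ 0 :=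
  (exists_dot_ne_zero hv).imp fun _ h => by rwa [dotProduct_comm]

theorem vv_mul (a b c d : V5 K) : vecMulVec a b * vecMulVec c d = (b ⬝ᵥ c) • vecMulVec a d := by
  rw [vecMulVec_mul_vecMulVec, vecMulVec_smul]

theorem vv_mulVec (a b c : V5 K) : vecMulVec a b *ᵥ c = (b ⬝ᵥ c) • a := by
  rw [vecMulVec_mulVec, dotProduct_comm]; simp

theorem vecMul_vv (a b c : V5 K) : c ᵥ* vecMulVec a b = (c ⬝ᵥ a) • b := by
  ext i; simp [vecMul, dotProduct, vecMulVec, Finset.sum_mul, mul_assoc]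

theorem vv_eq_zero {a b : V5 K} (h : vecMulVec a b = 0) : a = 0 ∨ b = 0 := by
  by_contra hc
  push Not at hc
  obtain ⟨φ, hφ⟩ := exists_dot_ne_zero hc.2
  have := congrArg (· *ᵥ φ) h
  simp only [vv_mulVec, zero_mulVec, smul_eq_zero] at this
  exact this.elim (fun e => hφ (by rw [dotProduct_comm, e])) hc.1

theorem vv_eq_vv {a b c d : V5 K} (ha : a ≠ 0) (hb : b ≠ 0) (h : vecMulVec a b = vecMulVec c d) :
    ∃ t : K, t ≠ 0 ∧ c = t • a ∧ d = t⁻¹ • b := by
  obtain ⟨y, hy⟩ := exists_dot_ne_zero' hb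
  have e := congrArg (· *ᵥ y) h
  simp only [vv_mulVec] at e
  have hd : d ⬝ᵥ y ≠ 0 := fun e' => by
    rw [e', zero_smul, smul_eq_zero] at e
    exact e.elim hy ha
  have hc : c = (b ⬝ᵥ y / d ⬝ᵥ y) • a := by
    rw [div_eq_inv_mul, mul_smul, e, inv_smul_smul₀ hd]
  have ht : b ⬝ᵥ y / d ⬝ᵥ y ≠ 0 := div_ne_zero hy hd
  refine ⟨_, ht, hc, ?_⟩
  generalize b ⬝ᵥ y / d ⬝ᵥ y = t at hc ht
  rw [hc, smul_vecMulVec, ← vecMulVec_smul, ← sub_eq_zero, ← vecMulVec_sub] at h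
  rw [sub_eq_zero.1 ((vv_eq_zero h).resolve_left ha), inv_smul_smul₀ ht]

theorem trace_vv (a b : V5 K) : (vecMulVec a b).trace = b ⬝ᵥ a := by
  rw [trace_vecMulVec, dotProduct_comm]

theorem det_one_add_vv (a b : V5 K) : (1 + vecMulVec a b).det = 1 + b ⬝ᵥ a := by
  rw [vecMulVec_eq Unit, det_one_add_replicateCol_mul_replicateRow]

theorem smul_one_inj {a b : K} (h : a • (1 : M5 K) = b • 1) : a = b := by
  simpa using congrFun (congrFun h 0) 0

theorem one_add_vv_ne {v φ : V5 K} (hv : v ≠ 0) (hφ : φ ≠ 0) (c : K) :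
    1 + vecMulVec v φ ≠ c • 1 := fun e => by
  have e1 : vecMulVec v φ = (c - 1) • 1 := by rw [sub_smul, ← e]; simp
  by_cases hc : c - 1 = 0
  · rw [hc, zero_smul] at e1
    exact (vv_eq_zero e1).elim hv hφ
  · have := congrArg det e1
    rw [det_vecMulVec] at this
    simp only [det_smul, det_one, mul_one] at this
    exact pow_ne_zero _ hc this.symm

theorem mul_inv_rho (ρ : Γ →* M5 K) (g : Γ) : ρ g * ρ g⁻¹ = 1 := by rw [← map_mul]; simp
theorem inv_mul_rho (ρ : Γ →* M5 K) (g : Γ) : ρ g⁻¹ * ρ g = 1 := by rw [← map_mul]; simp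

theorem isUnit_rho (ρ : Γ →* M5 K) (g : Γ) : IsUnit (ρ g) := (ρ.toHomUnits g).isUnit

theorem rho_inv_eq {g : Γ} {M : M5 K} (h : ρ g * M = 1) : ρ g⁻¹ = M := by
  rw [← mul_one (ρ g⁻¹), ← h, ← mul_assoc, inv_mul_rho, one_mul]

theorem rho_mulVec_ne (ρ : Γ →* M5 K) (g : Γ) {v : V5 K} (hv : v ≠ 0) : ρ g *ᵥ v ≠ 0 := fun e =>
  hv (by rw [← one_mulVec v, ← inv_mul_rho ρ g, ← mulVec_mulVec, e, mulVec_zero])

theorem vecMul_rho_ne (ρ : Γ →* M5 K) (g : Γ) {v : V5 K} (hv : v ≠ 0) : v ᵥ* ρ g ≠ 0 := fun e =>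
  hv (by rw [← vecMul_one v, ← mul_inv_rho ρ g, ← vecMul_vecMul, e, zero_vecMul])

theorem dot_rho (ρ : Γ →* M5 K) (g : Γ) (φ v : V5 K) : (φ ᵥ* ρ g⁻¹) ⬝ᵥ (ρ g *ᵥ v) = φ ⬝ᵥ v := by
  rw [← dotProduct_mulVec, mulVec_mulVec, inv_mul_rho, one_mulVec]

theorem hom_eq_one (hp : commutator Γ = ⊤) {A : Type*} [CommGroup A] (f : Γ →* A) (g : Γ) :
    f g = 1 := by
  have : commutator Γ ≤ f.ker := Abelianization.commutator_subset_ker f
  exact this (hp ▸ Subgroup.mem_top g)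

theorem dual_apply (ρ : Γ →* M5 K) (g : Γ) : dual ρ g = (ρ g⁻¹)ᵀ := rfl

theorem dual_dual (ρ : Γ →* M5 K) : dual (dual ρ) = ρ := by
  ext1 g; simp [dual_apply]

theorem cnj_apply (ρ : Γ →* M5 K) (B : (M5 K)ˣ) (g : Γ) : cnj ρ B g = B⁻¹.val * ρ g * B.val := rfl

theorem cnj_cnj_inv (ρ : Γ →* M5 K) (B : (M5 K)ˣ) : cnj (cnj ρ B) B⁻¹ = ρ := by
  ext1 g; simp [cnj_apply, mul_assoc]

theorem cnj_mul (ρ : Γ →* M5 K) (B C : (M5 K)ˣ) : cnj ρ (B * C) = cnj (cnj ρ B) C := by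
  ext1 g; simp [cnj_apply, mul_assoc]

theorem ext_apply {L : Type*} [Field L] (f : K →+* L) (ρ : Γ →* M5 K) (g : Γ) :
    ext f ρ g = (ρ g).map f := rfl

theorem sgn_apply (ρ : Γ →* M5 K) (g : Γ × ℤˣ) : sgn ρ g = ((g.2 : ℤ) : K) • ρ g.1 := rfl

theorem in_sgn {M : M5 K} : (∃ g, sgn ρ g = M) ↔ ∃ g, ρ g = M ∨ ρ g = -M := by
  refine ⟨fun ⟨⟨g, ε⟩, e⟩ => ⟨g, ?_⟩, fun ⟨g, e⟩ => ?_⟩
  · rcases Int.units_eq_one_or ε with rfl | rfl
    · exact Or.inl (by simpa [sgn_apply] using e)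
    · exact Or.inr (by rw [← e]; simp [sgn_apply])
  · rcases e with e | e
    · exact ⟨(g, 1), by simp [sgn_apply, e]⟩
    · exact ⟨(g, -1), by simp [sgn_apply, e]⟩

theorem trace_ext {L : Type*} [Field L] (f : K →+* L) (g : Γ) :
    (ext f ρ g).trace = f (ρ g).trace := by
  rw [ext_apply, ← AddMonoidHom.map_trace]

theorem trace_cnj (B : (M5 K)ˣ) (g : Γ) : (cnj ρ B g).trace = (ρ g).trace := by
  rw [cnj_apply, trace_mul_cycle, Units.mul_inv, one_mul]

theorem trace_dual (g : Γ) : (dual ρ g).trace = (ρ g⁻¹).trace := trace_transpose _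

theorem trace_conj (ρ : Γ →* M5 K) (g k : Γ) : (ρ (k * g * k⁻¹)).trace = (ρ g).trace := by
  rw [map_mul, map_mul, trace_mul_cycle, inv_mul_rho, one_mul]

theorem map_eq_smul_one {L : Type*} [Field L] (f : K →+* L) {M : M5 K} {c : L}
    (e : M.map f = c • 1) : M = M 0 0 • 1 := by
  ext i j
  apply f.injective
  have h1 := congrFun (congrFun e i) j
  have h2 := congrFun (congrFun e 0) 0
  simp only [map_apply, Matrix.smul_apply, one_apply_eq, smul_eq_mul, mul_one] at h1 h2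
  rw [h1, ← h2]
  by_cases hij : i = j <;> simp [hij, one_apply]

theorem units_mulVec_inj (B : (M5 K)ˣ) {a b : V5 K} (h : B.val *ᵥ a = B.val *ᵥ b) : a = b := by
  simpa using congrArg (B⁻¹.val *ᵥ ·) h

theorem vecMul_units_inj (B : (M5 K)ˣ) {a b : V5 K} (h : a ᵥ* B.val = b ᵥ* B.val) : a = b := by
  simpa using congrArg (· ᵥ* B⁻¹.val) h

theorem dot_cnj (B : (M5 K)ˣ) (φ v : V5 K) : (φ ᵥ* B.val) ⬝ᵥ (B⁻¹.val *ᵥ v) = φ ⬝ᵥ v := by
  rw [← dotProduct_mulVec, mulVec_mulVec, Units.mul_inv, one_mulVec]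

namespace Hyp

theorem fifth (h : Hyp ρ π) {g : Γ} {c : K} (e : ρ g = c • 1) : c ^ 5 = 1 := by
  have := h.det g
  rwa [e, det_smul, det_one, mul_one, Fintype.card_fin] at this

theorem ker_comm (h : Hyp ρ π) {z : Γ} (hz : π z = 1) (g : Γ) : z * g = g * z := by
  obtain ⟨c, hc⟩ := (h.ker z).1 hz
  apply h.inj
  simp [hc]

theorem ker_fifth (h : Hyp ρ π) {z : Γ} (hz : π z = 1) : z ^ 5 = 1 := by
  obtain ⟨c, hc⟩ := (h.ker z).1 hz
  apply h.inj
  rw [map_pow, hc, smul_pow, h.fifth hc, one_pow, one_smul, map_one]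

theorem ker_eq_one (h : Hyp ρ π) {z : Γ} (hz : π z = 1) {n : ℕ} (hn : Nat.Coprime n 5)
    (e : z ^ n = 1) : z = 1 := by
  have := Nat.dvd_gcd (orderOf_dvd_of_pow_eq_one e) (orderOf_dvd_of_pow_eq_one (h.ker_fifth hz))
  rw [hn] at this
  exact orderOf_eq_one_iff.1 (Nat.dvd_one.1 this)

theorem exists_ker_of_eq (_h : Hyp ρ π) {a b : Γ} (e : π a = π b) :
    ∃ z, π z = 1 ∧ a = z * b := ⟨a * b⁻¹, by simp [e], by simp⟩

theorem eq_top (h : Hyp ρ π) (N : Subgroup Γ) [hN : N.Normal] {g : Γ} (hg : g ∈ N)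
    (h1 : π g ≠ 1) : N = ⊤ := by
  have := h.simple
  have h2 : N.map π = ⊤ := ((hN.map π h.surj).eq_bot_or_eq_top).resolve_left fun e =>
    h1 (Subgroup.mem_bot.1 (e ▸ Subgroup.mem_map_of_mem π hg))
  rw [eq_top_iff, ← h.perfect, commutator_def, Subgroup.commutator_le]
  intro a _ b _
  obtain ⟨a', ha', ea⟩ : π a ∈ N.map π := h2 ▸ Subgroup.mem_top _
  obtain ⟨b', hb', eb⟩ : π b ∈ N.map π := h2 ▸ Subgroup.mem_top _
  obtain ⟨z, hz, rfl⟩ := h.exists_ker_of_eq ea.symm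
  obtain ⟨w, hw, rfl⟩ := h.exists_ker_of_eq eb.symm
  have e : z * a' * (w * b') * (z * a')⁻¹ * (w * b')⁻¹ = a' * b' * a'⁻¹ * b'⁻¹ := by
    simp only [_root_.mul_inv_rev]
    calc z * a' * (w * b') * (a'⁻¹ * z⁻¹) * (b'⁻¹ * w⁻¹)
        = z * (a' * (w * b') * a'⁻¹) * z⁻¹ * (b'⁻¹ * w⁻¹) := by group
      _ = a' * (w * b') * a'⁻¹ * (b'⁻¹ * w⁻¹) := by rw [h.ker_comm hz]; group
      _ = a' * (w * (b' * a'⁻¹ * b'⁻¹) * w⁻¹) := by group
      _ = a' * b' * a'⁻¹ * b'⁻¹ := by rw [h.ker_comm hw]; group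
  rw [commutatorElement_def, e]
  exact N.mul_mem (N.mul_mem (N.mul_mem ha' hb') (N.inv_mem ha')) (N.inv_mem hb')

/-- Induction over a conjugation invariant set containing a non-scalar element. -/
theorem induction (h : Hyp ρ π) {S : Set Γ} (hS : ∀ g ∈ S, ∀ k, k * g * k⁻¹ ∈ S) {g0 : Γ}
    (h0 : g0 ∈ S) (h1 : π g0 ≠ 1) (H : Subgroup Γ) (hH : ∀ g ∈ S, g ∈ H) (g : Γ) : g ∈ H := by
  have : (Subgroup.closure S).Normal := ⟨fun n hn k => by
    have : (Subgroup.closure S).map (MulAut.conj k).toMonoidHom ≤ Subgroup.closure S := by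
      rw [MonoidHom.map_closure]
      exact Subgroup.closure_mono (by rintro _ ⟨a, ha, rfl⟩; exact hS a ha k)
    exact this ⟨n, hn, rfl⟩⟩
  exact (Subgroup.closure_le H).2 hH
    (h.eq_top _ (Subgroup.subset_closure h0) h1 ▸ Subgroup.mem_top g)

theorem span_ind (h : Hyp ρ π) (P : Submodule K (M5 K)) (hP : ∀ g, ρ g ∈ P) (M : M5 K) : M ∈ P :=
  (Submodule.span_le.2 (by rintro _ ⟨g, rfl⟩; exact hP g) : _ ≤ P) (h.span ▸ Submodule.mem_top)

theorem irr (h : Hyp ρ π) (W : Submodule K (V5 K)) (hW : ∀ g, ∀ v ∈ W, ρ g *ᵥ v ∈ W) :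
    W = ⊥ ∨ W = ⊤ := by
  refine or_iff_not_imp_left.2 fun h0 => eq_top_iff.2 fun x _ => ?_
  obtain ⟨v, hv, v0⟩ := W.ne_bot_iff.1 h0
  obtain ⟨φ, hφ⟩ := exists_dot_ne_zero v0
  have := h.span_ind (W.comap ((mulVecBilin K K).flip v)) (fun g => hW g v hv) (vecMulVec x φ)
  rw [Submodule.mem_comap] at this
  have e : ((mulVecBilin K K).flip v) (vecMulVec x φ) = (φ ⬝ᵥ v) • x := vv_mulVec _ _ _
  exact (W.smul_mem_iff hφ).1 (e ▸ this)

theorem scalar_of_comm (h : Hyp ρ π) {M : M5 K} (hM : ∀ g, M * ρ g = ρ g * M) :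
    ∃ c : K, M = c • 1 := by
  have : ∀ N, M * N = N * M := fun N => by
    have := h.span_ind (LinearMap.eqLocus (LinearMap.mulLeft K M) (LinearMap.mulRight K M)) hM N
    exact this
  obtain ⟨c, hc⟩ := mem_range_scalar_of_commute_single (M := M) fun i j _ => (this _).symm
  exact ⟨c, by rw [← hc, scalar_apply, smul_one_eq_diagonal]⟩

theorem dual (h : Hyp ρ π) : Hyp (dual ρ) π where
  inj a b e := inv_injective (h.inj (transpose_injective e))
  det g := by rw [dual_apply, det_transpose, h.det]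
  surj := h.surj
  ker g := by
    rw [← inv_eq_one, ← map_inv, h.ker, dual_apply]
    refine exists_congr fun c => ⟨fun e => by simp [e], fun e => ?_⟩
    rw [← transpose_transpose (ρ g⁻¹), e]; simp
  simple := h.simple
  nonab := h.nonab
  perfect := h.perfect
  span := eq_top_iff.2 fun M _ => h.span_ind
    (Submodule.comap (transposeLinearEquiv _ _ K K).toLinearMap
      (Submodule.span K (Set.range (D5.dual ρ))))
    (fun g => Submodule.subset_span ⟨g⁻¹, by simp [dual_apply]⟩) Mᵀ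

theorem cnj (h : Hyp ρ π) (B : (M5 K)ˣ) : Hyp (cnj ρ B) π where
  inj a b e := h.inj (by
    have := congrArg (fun M => B.val * M * B⁻¹.val) e
    simpa [cnj_apply, mul_assoc] using this)
  det g := by
    rw [cnj_apply, det_mul, det_mul, h.det, mul_one, ← det_mul, Units.inv_mul, det_one]
  surj := h.surj
  ker g := by
    rw [h.ker, cnj_apply]
    refine exists_congr fun c => ⟨fun e => by simp [e], fun e => ?_⟩
    have := congrArg (fun M => B.val * M * B⁻¹.val) e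
    simpa [mul_assoc] using this
  simple := h.simple
  nonab := h.nonab
  perfect := h.perfect
  span := eq_top_iff.2 fun M _ => by
    have := h.span_ind (Submodule.comap (LinearMap.mulLeftRight K (B⁻¹.val, B.val))
      (Submodule.span K (Set.range (D5.cnj ρ B))))
      (fun g => Submodule.subset_span ⟨g, rfl⟩) (B.val * M * B⁻¹.val)
    simpa [mul_assoc] using this

theorem ext (h : Hyp ρ π) {L : Type*} [Field L] (f : K →+* L) : Hyp (ext f ρ) π where
  inj a b e := h.inj (Matrix.map_injective f.injective e)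
  det g := by rw [ext_apply, ← RingHom.mapMatrix_apply, ← RingHom.map_det, h.det, map_one]
  surj := h.surj
  ker g := by
    rw [h.ker, ext_apply]
    refine ⟨fun ⟨c, e⟩ => ⟨f c, ?_⟩, fun ⟨c, e⟩ => ⟨_, map_eq_smul_one f e⟩⟩
    ext i j
    by_cases hij : i = j <;> simp [e, hij, one_apply]
  simple := h.simple
  nonab := h.nonab
  perfect := h.perfect
  span := by
    have key : ∀ M : M5 K, M.map f ∈ Submodule.span L (Set.range (D5.ext f ρ)) := fun M => by
      have hM : M ∈ Submodule.span K (Set.range ρ) := h.span ▸ Submodule.mem_top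
      induction hM using Submodule.span_induction with
      | mem x hx => obtain ⟨g, rfl⟩ := hx; exact Submodule.subset_span ⟨g, rfl⟩
      | zero => simp
      | add a b _ _ ha hb => rw [Matrix.map_add _ (map_add f)]; exact add_mem ha hb
      | smul c a _ ha =>
        rw [show (c • a).map f = f c • a.map f by ext; simp]; exact Submodule.smul_mem _ _ ha
    refine eq_top_iff.2 fun M _ => ?_
    rw [matrix_eq_sum_single M]
    refine sum_mem fun i _ => sum_mem fun j _ => ?_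
    rw [show single i j (M i j) = M i j • (single i j (1 : K)).map f by
      rw [Matrix.map_single]; simp]
    exact Submodule.smul_mem _ _ (key _)

theorem exists_lift (h : Hyp ρ π) {x : X} {n : ℕ} (hn : Nat.Coprime n 5) (hx : x ^ n = 1) :
    ∃ g, π g = x ∧ g ^ n = 1 := by
  obtain ⟨g, rfl⟩ := h.surj x
  have hz : π (g ^ n) = 1 := by rw [map_pow, hx]
  obtain ⟨k, m, hm⟩ : ∃ k, 5 ∣ 1 + k * n := by
    have : ¬ 5 ∣ n := fun e => by simpa using Nat.Coprime.eq_one_of_dvd hn.symm e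
    rcases (by omega : n % 5 = 1 ∨ n % 5 = 2 ∨ n % 5 = 3 ∨ n % 5 = 4) with e | e | e | e
    exacts [⟨4, by omega⟩, ⟨2, by omega⟩, ⟨3, by omega⟩, ⟨1, by omega⟩]
  refine ⟨g * (g ^ n) ^ k, by rw [map_mul, map_pow, hz, one_pow, mul_one], ?_⟩
  rw [← pow_mul, ← pow_succ', ← pow_mul, show (n * k + 1) * n = n * 5 * m by
    rw [mul_assoc, ← hm]; ring, pow_mul, pow_mul, h.ker_fifth hz, one_pow]

theorem lift_unique (h : Hyp ρ π) {a b : Γ} (e : π a = π b) {n : ℕ} (hn : Nat.Coprime n 5)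
    (ha : a ^ n = 1) (hb : b ^ n = 1) : a = b := by
  obtain ⟨z, hz, rfl⟩ := h.exists_ker_of_eq e
  rw [Commute.mul_pow (h.ker_comm hz b), hb, mul_one] at ha
  rw [h.ker_eq_one hz hn ha, one_mul]

theorem comm_of_lift (h : Hyp ρ π) {a g : Γ} {n : ℕ} (hn : Nat.Coprime n 5) (ha : a ^ n = 1)
    (e : π g * π a = π a * π g) : g * a = a * g := by
  rw [← mul_inv_eq_iff_eq_mul]
  exact h.lift_unique (by simp [e]) hn (by rw [conj_pow, ha]; simp) ha

theorem conj_lift (h : Hyp ρ π) {a b k : Γ} {n : ℕ} (hn : Nat.Coprime n 5) (ha : a ^ n = 1)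
    (hb : b ^ n = 1) (e : π k * π a * (π k)⁻¹ = π b) : k * a * k⁻¹ = b :=
  h.lift_unique (by simpa using e) hn (by rw [conj_pow, ha]; simp) hb

theorem finite [Finite K] (h : Hyp ρ π) : Finite Γ := Finite.of_injective _ h.inj

theorem finiteX [Finite Γ] (h : Hyp ρ π) : Finite X := Finite.of_surjective _ h.surj

theorem ker_of_mult [Finite Γ] (h : Hyp ρ π) {Y : Type} [Group Y] (e : X ≃* Y) {A : Type}
    [CommGroup A] (hm : HasSchurMultiplier Y A) {n : ℕ} (hn : Nat.Coprime n 5)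
    (hA : ∀ a : A, a ^ n = 1) : Function.Injective π := by
  refine (injective_iff_map_eq_one π).2 fun z hz => ?_
  let s : Shrink.{0} Γ ≃* Γ := Shrink.mulEquiv
  have : Finite (Shrink.{0} Γ) := Finite.of_equiv _ s.toEquiv.symm
  obtain ⟨f, hf⟩ := hm.2 (Shrink.{0} Γ) (e.toMonoidHom.comp (π.comp s.toMonoidHom))
    ⟨e.surjective.comp (h.surj.comp s.surjective), fun x hx => Subgroup.mem_center_iff.2 fun y =>
      s.injective (by
        rw [map_mul, map_mul, h.ker_comm (z := s x) (e.map_eq_one_iff.1 hx)]), fun x _ => by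
      have := map_commutator_eq _ s.symm.toMonoidHom
      rw [h.perfect, MonoidHom.range_eq_top.2 s.symm.surjective, ← MonoidHom.range_eq_map,
        MonoidHom.range_eq_top.2 s.symm.surjective] at this
      exact this.le (Subgroup.mem_top x)⟩
  obtain ⟨a, ha⟩ := hf ⟨s.symm z, by simp [hz]⟩
  refine h.ker_eq_one hz hn (s.symm.injective ?_)
  have e2 := congrArg f (hA a)
  rw [map_pow, ha, map_one] at e2
  rw [map_pow, map_one]
  exact congrArg Subtype.val e2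

end Hyp

end Cfsg.Agent.D5
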