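import Cfsg.Agent.DIM5.Basic

/-!
The calculus of transvections and reflections.
-/

set_option autoImplicit false

open Matrix

namespace Cfsg.Agent.D5

variable {K : Type*} [Field K] {Γ X : Type*} [Group Γ] [Group X] {ρ : Γ →* M5 K} {π : Γ →* X}
variable {u v w φ ψ χ f g h : V5 K}

theorem rho_inv_tv {g : Γ} (h0 : φ ⬝ᵥ v = 0) (h : ρ g = 1 + vecMulVec v φ) :
    ρ g⁻¹ = 1 - vecMulVec v φ :=
  rho_inv_eq (by rw [h, mul_sub, add_mul, add_mul, vv_mul, h0]; simp)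

namespace T

theorem zero (ρ : Γ →* M5 K) (v : V5 K) : T ρ v 0 := ⟨by simp, 1, by simp⟩

theorem zero' (ρ : Γ →* M5 K) (φ : V5 K) : T ρ 0 φ := ⟨by simp, 1, by simp⟩

theorem smul_iff (a : K) : T ρ (a • v) φ ↔ T ρ v (a • φ) := by
  simp only [T, smul_vecMulVec, vecMulVec_smul, dotProduct_smul, smul_dotProduct]

theorem add (h : T ρ v φ) (h' : T ρ v ψ) : T ρ v (φ + ψ) := by
  obtain ⟨h0, g, hg⟩ := h
  obtain ⟨h0', g', hg'⟩ := h'
  refine ⟨by rw [add_dotProduct, h0, h0', add_zero], g * g', ?_⟩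
  rw [map_mul, hg, hg', mul_add, add_mul, add_mul, vv_mul, h0, vecMulVec_add]
  simp [add_assoc]

theorem neg (h : T ρ v φ) : T ρ v (-φ) := by
  obtain ⟨h0, g, hg⟩ := h
  exact ⟨by simp [h0], g⁻¹, by rw [rho_inv_tv h0 hg, vecMulVec_neg, sub_eq_add_neg]⟩

theorem sub (h : T ρ v φ) (h' : T ρ v ψ) : T ρ v (φ - ψ) := sub_eq_add_neg φ ψ ▸ h.add h'.neg

theorem neg_left (h : T ρ (-v) φ) : T ρ v φ := by
  rw [← neg_one_smul K, smul_iff, neg_one_smul] at h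
  simpa using h.neg

theorem nsmul (h : T ρ v φ) (n : ℕ) : T ρ v ((n : K) • φ) := by
  induction n with
  | zero => simpa using zero ρ v
  | succ n ih => rw [Nat.cast_succ, add_smul, one_smul]; exact ih.add h

theorem dual_iff : T (dual ρ) φ v ↔ T ρ v φ := by
  simp only [T, dual_apply, dotProduct_comm v φ]
  refine and_congr_right fun _ => ⟨fun ⟨g, hg⟩ => ⟨g⁻¹, ?_⟩, fun ⟨g, hg⟩ => ⟨g⁻¹, ?_⟩⟩
  · rw [← transpose_transpose (ρ g⁻¹), hg]; simp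
  · rw [inv_inv, hg]; simp

theorem add' (h : T ρ v φ) (h' : T ρ w φ) : T ρ (v + w) φ :=
  dual_iff.1 ((dual_iff.2 h).add (dual_iff.2 h'))

theorem sub' (h : T ρ v φ) (h' : T ρ w φ) : T ρ (v - w) φ :=
  dual_iff.1 ((dual_iff.2 h).sub (dual_iff.2 h'))

theorem conj (h : T ρ v φ) (k : Γ) : T ρ (ρ k *ᵥ v) (φ ᵥ* ρ k⁻¹) := by
  obtain ⟨h0, g, hg⟩ := h
  refine ⟨by rw [dot_rho, h0], k * g * k⁻¹, ?_⟩
  rw [map_mul, map_mul, hg, mul_add, add_mul, mul_one, mul_inv_rho, mul_vecMulVec, vecMulVec_mul]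

theorem act (h : T ρ v φ) (h' : T ρ w ψ) : T ρ (w + (φ ⬝ᵥ w) • v) (ψ - (ψ ⬝ᵥ v) • φ) := by
  obtain ⟨h0, g, hg⟩ := h
  have := h'.conj g
  rwa [rho_inv_tv h0 hg, hg, add_mulVec, one_mulVec, vv_mulVec, vecMul_sub, vecMul_one,
    vecMul_vv] at this

theorem comm (h : T ρ v φ) (h' : T ρ w ψ) (h0 : φ ⬝ᵥ w = 0) : T ρ w ((ψ ⬝ᵥ v) • φ) := by
  have := h.act h'
  rw [h0, zero_smul, add_zero] at this
  simpa using h'.sub this

theorem comm' (h : T ρ v φ) (h' : T ρ w ψ) (h0 : ψ ⬝ᵥ v = 0) : T ρ ((φ ⬝ᵥ w) • v) ψ := by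
  have := h.act h'
  rw [h0, zero_smul, sub_zero] at this
  simpa using this.sub' h'

theorem cnj (h : T ρ v φ) (B : (M5 K)ˣ) : T (cnj ρ B) (B⁻¹.val *ᵥ v) (φ ᵥ* B.val) := by
  obtain ⟨h0, g, hg⟩ := h
  refine ⟨by rw [dot_cnj, h0], g, ?_⟩
  rw [cnj_apply, hg, mul_add, add_mul, mul_one, Units.inv_mul, mul_vecMulVec, vecMulVec_mul]

end T

namespace Fl

theorem conj (h : Fl ρ v φ) (k : Γ) : Fl ρ (ρ k *ᵥ v) (φ ᵥ* ρ k⁻¹) :=
  ⟨h.1.conj k, rho_mulVec_ne ρ k h.2.1, vecMul_rho_ne ρ _ h.2.2⟩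

theorem act (h : T ρ v φ) (h' : Fl ρ w ψ) : Fl ρ (w + (φ ⬝ᵥ w) • v) (ψ - (ψ ⬝ᵥ v) • φ) := by
  obtain ⟨h0, g, hg⟩ := h
  have := h'.conj g
  rwa [rho_inv_tv h0 hg, hg, add_mulVec, one_mulVec, vv_mulVec, vecMul_sub, vecMul_one,
    vecMul_vv] at this

theorem dual_iff : Fl (dual ρ) φ v ↔ Fl ρ v φ := by
  simp only [Fl, T.dual_iff]; tauto

theorem smul (h : Fl ρ v φ) {c : K} (hc : c ≠ 0) : Fl ρ (c • v) (c⁻¹ • φ) :=
  ⟨by rw [T.smul_iff, smul_inv_smul₀ hc]; exact h.1, smul_ne_zero hc h.2.1,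
    smul_ne_zero (inv_ne_zero hc) h.2.2⟩

theorem of_dot (h : T ρ v φ) (h1 : ψ ⬝ᵥ v ≠ 0) (h2 : φ ⬝ᵥ w ≠ 0) : Fl ρ v φ :=
  ⟨h, by rintro rfl; simp at h1, by rintro rfl; simp at h2⟩

end Fl

theorem refl_sq (h : f ⬝ᵥ v = 2) : (1 - vecMulVec v f) * (1 - vecMulVec v f) = 1 := by
  rw [mul_sub, sub_mul, sub_mul, vv_mul, h, two_smul]; simp

namespace D

theorem conj (h : D ρ v f) (k : Γ) : D ρ (ρ k *ᵥ v) (f ᵥ* ρ k⁻¹) := by
  obtain ⟨h0, h1, h2, g, hg⟩ := h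
  refine ⟨by rw [dot_rho, h0], rho_mulVec_ne ρ k h1, vecMul_rho_ne ρ _ h2, k * g * k⁻¹, ?_⟩
  rw [map_mul, map_mul, hg, mul_sub, sub_mul, mul_one, mul_inv_rho, mul_vecMulVec, vecMulVec_mul]

/-- A group element acting as the reflection. -/
theorem elt (h : D ρ v f) : ∃ k, ρ k = 1 - vecMulVec v f ∧ ρ k⁻¹ = 1 - vecMulVec v f :=
  let ⟨h0, _, _, k, hk⟩ := h; ⟨k, hk, rho_inv_eq (by rw [hk, refl_sq h0])⟩

theorem act (h : D ρ v f) (h' : D ρ w g) : D ρ (w - (f ⬝ᵥ w) • v) (g - (g ⬝ᵥ v) • f) := by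
  obtain ⟨k, h1, h2⟩ := h.elt
  have := h'.conj k
  rwa [h1, h2, sub_mulVec, one_mulVec, vv_mulVec, vecMul_sub, vecMul_one, vecMul_vv] at this

theorem smul (h : D ρ v f) {c : K} (hc : c ≠ 0) : D ρ (c • v) (c⁻¹ • f) := by
  obtain ⟨h0, h1, h2, g, hg⟩ := h
  refine ⟨by simp [h0, hc], smul_ne_zero hc h1, smul_ne_zero (inv_ne_zero hc) h2, g, ?_⟩
  rw [hg, smul_vecMulVec, vecMulVec_smul, smul_inv_smul₀ hc]

theorem smul' (h : D ρ v f) {c d : K} (hc : c * d = 1) : D ρ (c • v) (d • f) := by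
  rw [eq_inv_of_mul_eq_one_right hc]; exact h.smul (left_ne_zero_of_mul_eq_one hc)

theorem neg (h : D ρ v f) : D ρ (-v) (-f) := by
  simpa using h.smul' (c := -1) (d := -1) (by simp)

theorem of_eq (h : D ρ v f) (h1 : w = v) (h2 : g = f) : D ρ w g := h1 ▸ h2 ▸ h

theorem dual_iff : D (dual ρ) f v ↔ D ρ v f := by
  simp only [D, dual_apply, dotProduct_comm v f]
  refine and_congr_right fun _ => ⟨fun ⟨a, b, g, hg⟩ => ⟨b, a, g⁻¹, ?_⟩,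
    fun ⟨a, b, g, hg⟩ => ⟨b, a, g⁻¹, ?_⟩⟩
  · rw [← transpose_transpose (ρ g⁻¹), hg]; simp
  · rw [inv_inv, hg]; simp

theorem cnj (h : D ρ v f) (B : (M5 K)ˣ) : D (cnj ρ B) (B⁻¹.val *ᵥ v) (f ᵥ* B.val) := by
  obtain ⟨h0, h1, h2, g, hg⟩ := h
  refine ⟨by rw [dot_cnj, h0], fun e => h1 (units_mulVec_inj B⁻¹ (by simpa using e)),
    fun e => h2 (vecMul_units_inj B (by simpa using e)), g, ?_⟩
  rw [cnj_apply, hg, mul_sub, sub_mul, mul_one, Units.inv_mul, mul_vecMulVec, vecMulVec_mul]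

theorem cnj_iff (B : (M5 K)ˣ) : D (D5.cnj ρ B) v f ↔ D ρ (B.val *ᵥ v) (f ᵥ* B⁻¹.val) :=
  ⟨fun h => by simpa [cnj_cnj_inv] using h.cnj B⁻¹, fun h => by simpa using h.cnj B⟩

end D

theorem D_iff_fl (h2 : (2 : K) = 0) : D ρ v f ↔ Fl ρ v f := by
  have : (1 : M5 K) - vecMulVec v f = 1 + vecMulVec v f := by
    rw [sub_eq_add_neg, neg_eq_iff_add_eq_zero.2 (by rw [← two_smul K, h2, zero_smul])]
  simp only [D, Fl, T, h2, this]; tauto

/-- The commutator in a Heisenberg group. -/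
theorem hs_comm {d y y' χ' : V5 K} {a a' : K} {k k' : Γ} (h0 : h ⬝ᵥ d = 0) (h1 : χ ⬝ᵥ d = 0)
    (h2 : h ⬝ᵥ y = 0) (h3 : χ' ⬝ᵥ d = 0) (h4 : h ⬝ᵥ y' = 0)
    (e : ρ k = 1 + vecMulVec d χ + vecMulVec y h + a • vecMulVec d h)
    (e' : ρ k' = 1 + vecMulVec d χ' + vecMulVec y' h + a' • vecMulVec d h) :
    T ρ d ((χ ⬝ᵥ y' - χ' ⬝ᵥ y) • h) := by
  refine ⟨by simp [h0], k * k' * (k' * k)⁻¹, ?_⟩
  have : ρ (k * k') = (1 + vecMulVec d ((χ ⬝ᵥ y' - χ' ⬝ᵥ y) • h)) * ρ (k' * k) := by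
    simp only [map_mul, e, e', mul_add, add_mul, one_mul, mul_one, vv_mul, smul_mul_assoc,
      mul_smul_comm, h0, h1, h2, h3, h4, vecMulVec_smul, zero_smul, smul_zero, add_zero]
    module
  rw [map_mul, this, mul_assoc, mul_inv_rho, mul_one]

/-- A Heisenberg element and its conjugate by an element fixing `d` and `h`. -/
theorem hs_kill {d y : V5 K} {a : K} {k x : Γ} (h0 : h ⬝ᵥ d = 0) (h1 : χ ⬝ᵥ d = 0)
    (h2 : h ⬝ᵥ y = 0) (e : ρ k = 1 + vecMulVec d χ + vecMulVec y h + a • vecMulVec d h)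
    (x1 : ρ x *ᵥ d = d) (x2 : h ᵥ* ρ x = h) :
    T ρ d ((χ ⬝ᵥ (ρ x *ᵥ y) - χ ⬝ᵥ (ρ x⁻¹ *ᵥ y)) • h) := by
  have x3 : h ᵥ* ρ x⁻¹ = h := by
    conv_lhs => rw [← x2, vecMul_vecMul, mul_inv_rho, vecMul_one]
  have x4 : ρ x⁻¹ *ᵥ d = d := by
    conv_lhs => rw [← x1, mulVec_mulVec, inv_mul_rho, one_mulVec]
  have := hs_comm (χ' := χ ᵥ* ρ x⁻¹) (y' := ρ x *ᵥ y) (a' := a) (k' := x * k * x⁻¹) h0 h1 h2
    (by rw [← dotProduct_mulVec, x4, h1]) (by rw [dotProduct_mulVec, x2, h2]) e (by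
      simp only [map_mul, e, mul_add, add_mul, mul_one, mul_inv_rho, mul_smul_comm,
        smul_mul_assoc, mul_vecMulVec, vecMulVec_mul, x1, x3])
  rwa [← dotProduct_mulVec] at this

/-- Without transvections a Heisenberg element with a transvection commutator degenerates. -/
theorem NoTv.kill (n : NoTv ρ) {d y : V5 K} {a c : K} {k : Γ} (h0 : h ⬝ᵥ d = 0) (h1 : χ ⬝ᵥ d = 0)
    (h2 : h ⬝ᵥ y = 0) (e : ρ k = 1 + vecMulVec d χ + vecMulVec y h + a • vecMulVec d h)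
    (hc : c ≠ 0) (t : T ρ d (c • h)) (hχ : χ ≠ 0) (hy : y ≠ 0) : d = 0 ∧ h = 0 := by
  by_cases hd : d = 0
  · subst hd
    exact ⟨rfl, by_contra fun hh => n y h ⟨⟨h2, k, by simpa using e⟩, hy, hh⟩⟩
  · have hh : h = 0 := by_contra fun hh => n _ _ ⟨t, hd, smul_ne_zero hc hh⟩
    subst hh
    exact (n d χ ⟨⟨h1, k, by simpa using e⟩, hd, hχ⟩).elim

/-- The product of an inner reflection and a reflection with the same inner part. -/
theorem D.mul_inner {a b α β : V5 K} (h1 : D ρ (a + b) (α + β)) (h2 : D ρ a α) (e1 : α ⬝ᵥ b = 0)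
    (e2 : β ⬝ᵥ a = 0) : ∃ k, ρ k = 1 + vecMulVec b α + vecMulVec (-a) β +
      (-1 : K) • vecMulVec b β := by
  obtain ⟨-, -, -, k, hk⟩ := h1
  obtain ⟨h0, -, -, k', hk'⟩ := h2
  refine ⟨k * k', ?_⟩
  simp only [map_mul, hk, hk', mul_sub, sub_mul, one_mul, mul_one, vv_mul, add_dotProduct, h0, e2]
  simp only [add_vecMulVec, vecMulVec_add, neg_vecMulVec]
  module

/-- The product of a reflection and its conjugate by an element scaling the inner part. -/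
theorem D.mul_scale {a b α β : V5 K} {θ : K} (hθ : θ ≠ 0) (h1 : D ρ (a + b) (α + β))
    (h2 : D ρ (θ • a + b) (θ⁻¹ • α + β)) (e0 : β ⬝ᵥ b = 0) (e1 : α ⬝ᵥ b = 0) (e2 : β ⬝ᵥ a = 0) :
    ∃ k, ρ k = 1 + vecMulVec b ((θ⁻¹ - 1) • α) + vecMulVec ((1 - θ) • a) β +
      (2 * θ⁻¹ - 2) • vecMulVec b β := by
  obtain ⟨h0, -, -, k, hk⟩ := h1
  obtain ⟨-, -, -, k', hk'⟩ := h2
  have h3 : α ⬝ᵥ a = 2 := by simpa [e0, e1, e2] using h0
  refine ⟨k' * k, ?_⟩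
  simp only [map_mul, hk, hk', mul_sub, sub_mul, one_mul, mul_one, vv_mul, add_dotProduct, h3, e2,
    dotProduct_add, smul_dotProduct, e0, e1, smul_eq_mul]
  simp only [add_vecMulVec, vecMulVec_add, smul_vecMulVec, vecMulVec_smul]
  match_scalars <;> field_simp <;> ring

theorem Tame.dual (t : Tame ρ) : Tame (dual ρ) where
  zero a b e := by
    rw [dotProduct_comm] at e ⊢
    exact t.zero (D.dual_iff.1 b) (D.dual_iff.1 a) e
  ctr a b := t.axs (D.dual_iff.1 a) (D.dual_iff.1 b)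
  axs a b := t.ctr (D.dual_iff.1 a) (D.dual_iff.1 b)
  notv h2 _ _ h := t.notv h2 _ _ (Fl.dual_iff.1 h)

theorem Tame.ne (t : Tame ρ) (a : D ρ v f) (b : D ρ w g) (e : f ⬝ᵥ w ≠ 0) : g ⬝ᵥ v ≠ 0 :=
  fun e' => e (t.zero b a e')

/-- No non-zero vector is killed by all the covectors. -/
theorem RH.vec (r : RH ρ) (hv : ∀ w g, D ρ w g → g ⬝ᵥ v = 0) : v = 0 := by
  rcases r.irr (Submodule.span K {v}) (fun w g a x hx e => by
    obtain ⟨c, rfl⟩ := Submodule.mem_span_singleton.1 hx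
    simp [hv w g a] at e) with e | e
  · exact Submodule.span_singleton_eq_bot.1 e
  · have := finrank_span_le_card (R := K) ({v} : Set (V5 K))
    rw [e] at this
    simp at this

/-- No non-zero covector kills all the centres. -/
theorem RH.covec (r : RH ρ) (hv : ∀ w g, D ρ w g → φ ⬝ᵥ w = 0) : φ = 0 := by
  rcases r.irr (LinearMap.ker (dotProductBilin K K φ)) (fun w g a _ _ _ => hv w g a) with e | e
  · have := LinearMap.finrank_le_finrank_of_injective (LinearMap.ker_eq_bot.1 e)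
    simp at this
  · funext i
    simpa using (e ▸ Submodule.mem_top : Pi.single i 1 ∈ LinearMap.ker (dotProductBilin K K φ))

theorem NS.rot (n : NS v f w g u h) : NS w g u h v f := fun e => n (by linear_combination e)

theorem NS.swap (n : NS v f w g u h) : NS w g v f u h := fun e => n (by linear_combination -e)

theorem lam_comm : lam v f w g = lam w g v f := mul_comm _ _

theorem NS.ne (t : Tame ρ) (a : D ρ v f) (b : D ρ w g) (n : NS v f w g u h) :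
    f ⬝ᵥ w ≠ 0 ∧ g ⬝ᵥ v ≠ 0 := by
  have : f ⬝ᵥ w ≠ 0 := fun e => n (by rw [e, t.zero a b e]; ring)
  exact ⟨this, t.ne a b this⟩

end Cfsg.Agent.D5
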