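import Cfsg.Agent.DIM5.Defs2
import Cfsg.Agent.H28.Pgl2
import Cfsg.Agent.H28.MobClass
import Cfsg.Agent.H51.GL2Odd

/-!
Two lemmas on finite groups generated by reflections in dimension two.
-/

set_option autoImplicit false

open Matrix
open scoped MatrixGroups commutatorElement Cfsg.Agent.H28

namespace Cfsg.Agent.D5

variable {K : Type*} [Field K]

theorem LF.char (lf : LF K) : ∃ p : ℕ, p.Prime ∧ CharP K p := by
  obtain ⟨K0, h0, -⟩ := lf ∅
  obtain ⟨p, hp⟩ := CharP.exists K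
  exact ⟨p, (CharP.char_is_prime_or_zero K p).resolve_right (CharP.char_ne_zero_of_finite K0 p), hp⟩

theorem fin_mat (K0 : Subfield K) [Finite K0] {S : Submonoid (Matrix (Fin 2) (Fin 2) K)}
    {s : Set (Matrix (Fin 2) (Fin 2) K)} (hS : S = Submonoid.closure s)
    (hs : ∀ M ∈ s, ∀ i j, M i j ∈ K0) : Finite S.units := by
  have h1 : ∀ M ∈ S, ∀ i j, M i j ∈ K0 := fun M hM => by
    rw [hS] at hM
    induction hM using Submonoid.closure_induction with
    | mem x hx => exact hs x hx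
    | one => intro i j; rw [one_apply]; split_ifs; exacts [K0.one_mem, K0.zero_mem]
    | mul a b _ _ ha hb =>
      intro i j; rw [mul_apply]; exact K0.sum_mem fun k _ => K0.mul_mem (ha i k) (hb k j)
  exact Finite.of_injective (fun u : S.units => fun i j => (⟨_, h1 _ u.2.1 i j⟩ : K0))
    fun a b e => Subtype.ext (Units.ext (by
      ext i j; exact congrArg Subtype.val (congrFun (congrFun e i) j)))

theorem rf2_sq {v f : Fin 2 → K} (h : f ⬝ᵥ v = 2) :
    (1 - vecMulVec v f) * (1 - vecMulVec v f) = 1 := by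
  rw [mul_sub, sub_mul, sub_mul, vecMulVec_mul_vecMulVec, h, vecMulVec_smul, two_smul]; simp

theorem rf2_det {v f : Fin 2 → K} (h : f ⬝ᵥ v = 2) : (1 - vecMulVec v f).det = -1 := by
  simp only [dotProduct, Fin.sum_univ_two] at h
  simp [det_fin_two, vecMulVec_apply]
  linear_combination -h

theorem trace_of_pow {p k : ℕ} [Fact p.Prime] [CharP K p] {M : Matrix (Fin 2) (Fin 2) K}
    (h : M ^ p ^ k = 1) : M.trace = 2 := by
  have : IsNilpotent (M - 1) := ⟨p ^ k, by
    rw [sub_pow_char_pow_of_commute _ _ (Commute.one_right M), h, one_pow, sub_self]⟩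
  have h2 := (isNilpotent_trace_of_isNilpotent this).eq_zero
  rw [trace_sub, trace_one, sub_eq_zero] at h2
  simpa using h2

theorem dk1_aux {a : Matrix (Fin 2) (Fin 2) K} {v f w g : Fin 2 → K} (hv : f ⬝ᵥ v = 2)
    (hw : g ⬝ᵥ w = 2) (h1 : f ⬝ᵥ w ≠ 0) (h2 : g ⬝ᵥ v ≠ 0) (h4 : (f ⬝ᵥ w) * (g ⬝ᵥ v) ≠ 4)
    (t : a.trace = 2) (d : a.det = 1)
    (t1 : (a * ((1 - vecMulVec v f) * a * (1 - vecMulVec v f))).trace = 2)
    (t2 : (a * ((1 - vecMulVec w g) * a * (1 - vecMulVec w g))).trace = 2) : a = 1 := by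
  obtain ⟨n, rfl⟩ : ∃ n, a = 1 + n := ⟨a - 1, by simp⟩
  have e1 : n 1 1 = -n 0 0 := by
    simp [trace_fin_two] at t; linear_combination t
  have e2 : n 0 0 ^ 2 + n 0 1 * n 1 0 = 0 := by
    simp [det_fin_two, e1] at d; linear_combination -d
  have key : ∀ v f : Fin 2 → K, f ⬝ᵥ v = 2 →
      ((1 + n) * ((1 - vecMulVec v f) * (1 + n) * (1 - vecMulVec v f))).trace = 2 →
      f 0 * (n 0 0 * v 0 + n 0 1 * v 1) + f 1 * (n 1 0 * v 0 - n 0 0 * v 1) = 0 := by
    intro v f hv t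
    simp only [dotProduct, Fin.sum_univ_two] at hv
    simp [trace_fin_two, mul_apply, Fin.sum_univ_two, vecMulVec_apply, e1] at t
    apply pow_eq_zero_iff (two_ne_zero) |>.1
    grind
  have k1 := key v f hv t1
  have k2 := key w g hw t2
  simp only [dotProduct, Fin.sum_univ_two] at hv hw h1 h2 h4
  have fin : ∀ a b : K, (f 0 * a + f 1 * b) * (a * v 1 - b * v 0) = 0 →
      (g 0 * a + g 1 * b) * (a * w 1 - b * w 0) = 0 → a = 0 ∧ b = 0 := by
    intro a b k1 k2
    rcases mul_eq_zero.1 k1 with k1 | k1 <;> rcases mul_eq_zero.1 k2 with k2 | k2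
    · constructor <;> refine (mul_eq_zero.1 ?_).resolve_left (sub_ne_zero.2 h4) <;> grind
    · constructor <;> refine (mul_eq_zero.1 ?_).resolve_left h1 <;> grind
    · constructor <;> refine (mul_eq_zero.1 ?_).resolve_left h2 <;> grind
    · constructor <;> refine (mul_eq_zero.1 ?_).resolve_left (sub_ne_zero.2 h4) <;> grind
  obtain ⟨q0, p0⟩ := fin (n 0 1) (-n 0 0) (by grind) (by grind)
  have p1 : n 0 0 = 0 := neg_eq_zero.1 p0
  have r0 := (fin 0 (n 1 0) (by grind) (by grind)).2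
  ext i j
  fin_cases i <;> fin_cases j <;> simp [q0, p1, r0, e1]

theorem dk1 [IsAlgClosed K] (lf : LF K) (h2 : (2 : K) ≠ 0) {v f : Fin 3 → Fin 2 → K} (h : ∀ i, f i ⬝ᵥ v i = 2)
    (hne : ∀ i j, f i ⬝ᵥ v j ≠ 0) (h4 : (f 0 ⬝ᵥ v 1) * (f 1 ⬝ᵥ v 0) ≠ 4)
    (ns : (f 0 ⬝ᵥ v 1) * (f 1 ⬝ᵥ v 2) * (f 2 ⬝ᵥ v 0) ≠ (f 1 ⬝ᵥ v 0) * (f 2 ⬝ᵥ v 1) * (f 0 ⬝ᵥ v 2)) :
    (-1 : Matrix (Fin 2) (Fin 2) K) ∈
      Submonoid.closure (Set.range fun i => 1 - vecMulVec (v i) (f i)) := by
  classical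
  obtain ⟨p, hp, _⟩ := lf.char
  have := Fact.mk hp
  obtain ⟨K0, _, hK⟩ := lf (Finset.univ.image fun t : Fin 3 × Fin 2 × Fin 2 =>
    (1 - vecMulVec (v t.1) (f t.1)) t.2.1 t.2.2)
  generalize hS : Submonoid.closure (Set.range fun i => 1 - vecMulVec (v i) (f i)) = S
  have : Finite S.units := fin_mat K0 hS.symm (by
    rintro _ ⟨i, rfl⟩ j k; exact hK _ (Finset.mem_image.2 ⟨(i, j, k), Finset.mem_univ _, rfl⟩))
  let H : Subgroup (Matrix (Fin 2) (Fin 2) K)ˣ := S.units ⊓ (Units.map detMonoidHom).ker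
  have : Finite H := Finite.of_injective _ (Subgroup.inclusion_injective (inf_le_left : H ≤ _))
  have hd : ∀ u : H, (u.1.1).det = 1 := fun u => congrArg Units.val u.2.2
  by_cases ho : Odd (Nat.card H)
  · exfalso
    let U : Fin 3 → (Matrix (Fin 2) (Fin 2) K)ˣ := fun i =>
      ⟨1 - vecMulVec (v i) (f i), 1 - vecMulVec (v i) (f i), rf2_sq (h i), rf2_sq (h i)⟩
    have hU : ∀ i, U i ∈ S.units := fun i =>
      ⟨hS ▸ Submonoid.subset_closure ⟨i, rfl⟩, hS ▸ Submonoid.subset_closure ⟨i, rfl⟩⟩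
    have hUU : ∀ i, U i * U i = 1 := fun i => Units.ext (rf2_sq (h i))
    have hUi : ∀ i, (U i)⁻¹ = U i := fun i => inv_eq_of_mul_eq_one_left (hUU i)
    let W : Fin 3 → Fin 3 → H := fun i j => ⟨U i * U j, mul_mem (hU i) (hU j), Units.ext (by
      simp [U, rf2_det (h _)])⟩
    obtain ⟨k, hk⟩ := H51.gl_le_two_commutator_pow ho le_rfl
      ((Units.coeHom _).comp H.subtype) p
    have tr2 : ∀ c ∈ commutator H, (c.1.1).trace = 2 := fun c hc => trace_of_pow (hk c hc)
    obtain ⟨A, c0, e0, c1⟩ : ∃ A ∈ commutator H,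
        A.1 = U 2 * U 0 * (U 1 * U 2) * (U 0 * U 2) * (U 2 * U 1) ∧
        ∀ i, ∃ B ∈ commutator H, B.1 = U i * A.1 * U i := by
      refine ⟨⁅W 2 0, W 1 2⁆, Subgroup.commutator_mem_commutator (Subgroup.mem_top _)
        (Subgroup.mem_top _), ?_, fun i => ⟨⁅W i 2 * W 0 i, W i 1 * W 2 i⁆,
        Subgroup.commutator_mem_commutator (Subgroup.mem_top _) (Subgroup.mem_top _), ?_⟩⟩
      · simp only [commutatorElement_def, Subgroup.coe_mul, Subgroup.coe_inv, W,
          _root_.mul_inv_rev, hUi]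
      · simp only [commutatorElement_def, Subgroup.coe_mul, Subgroup.coe_inv, W,
          _root_.mul_inv_rev, hUi, mul_assoc]
        simp only [← mul_assoc (U i) (U i), hUU, one_mul]
    have t1 : ∀ i, (A.1.1 * ((1 - vecMulVec (v i) (f i)) * A.1.1 *
        (1 - vecMulVec (v i) (f i)))).trace = 2 := fun i => by
      obtain ⟨B, hB, e⟩ := c1 i
      have := tr2 _ (mul_mem c0 hB)
      rwa [Subgroup.coe_mul, e] at this
    have e3 : A.1 = 1 := Units.ext (dk1_aux (h 0) (h 1) (hne 0 1) (hne 1 0) h4 (tr2 _ c0) (hd _)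
      (t1 0) (t1 1))
    rw [e0] at e3
    have e4 : U 0 * U 1 * U 2 = U 2 * U 1 * U 0 := by
      calc U 0 * U 1 * U 2 = U 2 * (U 2 * U 0 * (U 1 * U 2) * (U 0 * U 2) * (U 2 * U 1)) *
            U 1 * U 0 := by
            simp only [mul_assoc]
            simp only [← mul_assoc (U 2) (U 2), ← mul_assoc (U 1) (U 1), hUU, one_mul, mul_one]
        _ = _ := by rw [e3, mul_one]
    have e5 := congrArg (fun u : (Matrix (Fin 2) (Fin 2) K)ˣ => u.1.trace) e4
    apply ns
    simp [U, trace_fin_two, mul_apply, Fin.sum_univ_two, vecMulVec_apply] at e5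
    simp only [dotProduct, Fin.sum_univ_two]
    linear_combination -e5
  · obtain ⟨g, hg⟩ := exists_prime_orderOf_dvd_card' (G := H) 2
      (even_iff_two_dvd.1 (Nat.not_odd_iff_even.1 ho))
    have g2 : g.1.1 * g.1.1 = 1 := by
      have := pow_orderOf_eq_one g
      rw [hg, pow_two] at this
      exact congrArg (fun u : H => u.1.1) this
    have g1 : g.1.1 ≠ 1 := fun e => by
      rw [show g = 1 from Subtype.ext (Units.ext e), orderOf_one] at hg
      omega
    have gd := hd g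
    have gS : g.1.1 ∈ S := g.2.1.1
    generalize g.1.1 = M at g2 g1 gd gS
    convert gS
    have a := congrFun (congrFun g2 0) 0
    have b := congrFun (congrFun g2 0) 1
    have c := congrFun (congrFun g2 1) 0
    have d := congrFun (congrFun g2 1) 1
    simp [mul_apply, Fin.sum_univ_two, det_fin_two] at a b c d gd
    have t : M 0 0 + M 1 1 ≠ 0 := fun e => h2 (by grind)
    have b0 : M 0 1 = 0 := (mul_eq_zero.1 (by linear_combination b)).resolve_left t
    have c0 : M 1 0 = 0 := (mul_eq_zero.1 (by linear_combination c)).resolve_left t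
    have e : M 1 1 = M 0 0 := by grind
    have e' : M 0 0 = -1 := by
      by_contra hh
      have : M 0 0 = 1 := by grind
      exact g1 (by ext i j; fin_cases i <;> fin_cases j <;> simp [b0, c0, e, this])
    ext i j; fin_cases i <;> fin_cases j <;> simp [b0, c0, e, e']

theorem small_pow {G : Type*} [Group G] (h : Nonempty (G ≃* alternatingGroup (Fin 4)) ∨
    Nonempty (G ≃* Equiv.Perm (Fin 4)) ∨ Nonempty (G ≃* alternatingGroup (Fin 5))) (g : G) :
    g ^ 3 = 1 ∨ g ^ 4 = 1 ∨ g ^ 5 = 1 := by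
  have h4 : ∀ g : Equiv.Perm (Fin 4), g ^ 3 = 1 ∨ g ^ 4 = 1 ∨ g ^ 5 = 1 := by decide +kernel
  have h5 : ∀ g : alternatingGroup (Fin 5), g ^ 3 = 1 ∨ g ^ 4 = 1 ∨ g ^ 5 = 1 := by decide +kernel
  rcases h with ⟨⟨e⟩⟩ | ⟨⟨e⟩⟩ | ⟨⟨e⟩⟩
  · simpa only [← Subgroup.coe_pow, OneMemClass.coe_eq_one, ← map_pow, map_eq_one_iff _ e.injective]
      using h4 (e g).1
  · simpa only [← map_pow, map_eq_one_iff _ e.injective] using h4 (e g)
  · simpa only [← map_pow, map_eq_one_iff _ e.injective] using h5 (e g)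

variable [IsAlgClosed K]

theorem unip_of_scalar {p : ℕ} [Fact p.Prime] [CharP K p] {M : Matrix (Fin 2) (Fin 2) K} {c : K}
    (h : M ^ p = c • 1) : ∃ (d : K) (n : Matrix (Fin 2) (Fin 2) K), M = d • 1 + n ∧ n * n = 0 ∧
      M.det = d ^ 2 := by
  obtain ⟨d, rfl⟩ := IsAlgClosed.exists_pow_nat_eq c (Fact.out : p.Prime).pos
  have h1 : IsNilpotent (M - d • 1) := ⟨p, by
    rw [sub_pow_char_of_commute _ ((Commute.one_right M).smul_right d), h, smul_pow, one_pow,
      sub_self]⟩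
  have t := (isNilpotent_trace_of_isNilpotent h1).eq_zero
  have e : (M - d • 1).det = 0 := by
    obtain ⟨k, hk⟩ := h1
    have := congrArg det hk
    rw [det_pow, det_zero] at this
    exact pow_eq_zero_iff (by rintro rfl; simp at this) |>.1 this
  refine ⟨d, M - d • 1, by simp, by rw [H51.mat2_sq, t, e]; simp, ?_⟩
  simp [trace_fin_two, det_fin_two] at t e ⊢
  linear_combination e + d * t

theorem dk2 (lf : LF K) (h2 : (2 : K) ≠ 0) (h3 : (3 : K) ≠ 0) {ζ σ : K} (hζ : ζ ^ 2 - ζ + 1 = 0)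
    (s0 : σ ≠ 0) (s1 : σ ≠ 1) (s2 : σ ≠ 2) : ∃ M ∈ Submonoid.closure (Set.range fun k : ℕ =>
      (1 : Matrix (Fin 2) (Fin 2) K) - vecMulVec ![ζ ^ k, 1] ![ζ⁻¹ ^ k * σ, 2 - σ]),
      M ≠ 1 ∧ (M - 1) * (M - 1) = 0 := by
  classical
  obtain ⟨p, hp, _⟩ := lf.char
  have := Fact.mk hp
  have z0 : ζ ≠ 0 := by rintro rfl; simp at hζ
  have z3 : ζ ^ 3 = -1 := by linear_combination (ζ + 1) * hζ
  have z6 : ζ ^ 6 = 1 := by linear_combination (ζ ^ 3 - 1) * z3
  obtain ⟨K0, _, hK⟩ := lf {ζ, σ}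
  have kζ : ζ ∈ K0 := hK _ (by simp)
  have kσ : σ ∈ K0 := hK _ (by simp)
  set r : ℕ → Matrix (Fin 2) (Fin 2) K := fun k =>
    1 - vecMulVec ![ζ ^ k, 1] ![ζ⁻¹ ^ k * σ, 2 - σ] with hr
  have rd : ∀ k : ℕ, ![ζ⁻¹ ^ k * σ, 2 - σ] ⬝ᵥ ![ζ ^ k, 1] = 2 := fun k => by
    simp; field_simp; ring
  generalize hS : Submonoid.closure (Set.range r) = S
  by_contra hc
  push Not at hc
  let t : Matrix (Fin 2) (Fin 2) K := !![ζ, 0; 0, 1]
  have tr : ∀ k, t * r k = r (k + 1) * t := fun k => by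
    ext i j
    fin_cases i <;> fin_cases j <;> simp [t, hr, mul_apply, vecMulVec_apply, pow_succ] <;>
      field_simp
  have t6 : ∀ n : ℕ, t ^ n = !![ζ ^ n, 0; 0, 1] := fun n => by
    induction n with
    | zero => ext i j; fin_cases i <;> fin_cases j <;> simp
    | succ n ih => rw [pow_succ, ih]; simp [t, pow_succ]
  have t1 : t ^ 6 = 1 := by rw [t6, z6]; ext i j; fin_cases i <;> fin_cases j <;> simp
  have n1 : ∀ s ∈ S, ∃ s' ∈ S, t * s = s' * t := fun s hs => by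
    subst hS
    induction hs using Submonoid.closure_induction with
    | mem x hx => obtain ⟨k, rfl⟩ := hx; exact ⟨_, Submonoid.subset_closure ⟨k + 1, rfl⟩, tr k⟩
    | one => exact ⟨1, one_mem _, by simp⟩
    | mul a b _ _ ha hb =>
      obtain ⟨a', ha', ea⟩ := ha
      obtain ⟨b', hb', eb⟩ := hb
      exact ⟨a' * b', mul_mem ha' hb', by rw [← mul_assoc, ea, mul_assoc, eb, mul_assoc]⟩
  have n2 : ∀ (j : ℕ), ∀ s ∈ S, ∃ s' ∈ S, t ^ j * s = s' * t ^ j := fun j => by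
    induction j with
    | zero => exact fun s hs => ⟨s, hs, by simp⟩
    | succ j ih =>
      intro s hs
      obtain ⟨a, ha, ea⟩ := n1 s hs
      obtain ⟨b, hb, eb⟩ := ih a ha
      exact ⟨b, hb, by rw [pow_succ, mul_assoc, ea, ← mul_assoc, eb, mul_assoc]⟩
  generalize hT : Submonoid.closure {t, r 0} = T
  have n3 : ∀ u ∈ T, u.det ^ 6 = 1 ∧ ∃ s ∈ S, ∃ j : ℕ, u = s * t ^ j := fun u hu => by
    subst hT
    induction hu using Submonoid.closure_induction with
    | mem x hx =>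
      rcases hx with rfl | rfl
      · exact ⟨by simp [t, det_fin_two, z6], 1, one_mem _, 1, by simp⟩
      · exact ⟨by rw [hr, rf2_det (rd 0)]; norm_num, r 0,
          hS ▸ Submonoid.subset_closure ⟨0, rfl⟩, 0, by simp⟩
    | one => exact ⟨by simp, 1, one_mem _, 0, by simp⟩
    | mul a b _ _ ha hb =>
      obtain ⟨da, a', ha', i, rfl⟩ := ha
      obtain ⟨db, b', hb', j, rfl⟩ := hb
      obtain ⟨c, hc, ec⟩ := n2 i b' hb'
      refine ⟨by rw [det_mul, mul_pow, da, db, one_mul], a' * c, mul_mem ha' hc, i + j, ?_⟩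
      rw [pow_add, mul_assoc, ← mul_assoc (t ^ i), ec]; simp only [mul_assoc]
  have n4 : ∀ u ∈ T, u ^ 12 ∈ S := fun u hu => by
    obtain ⟨-, s, hs, j, rfl⟩ := n3 u hu
    have : ∀ n : ℕ, ∃ s' ∈ S, (s * t ^ j) ^ n = s' * t ^ (j * n) := fun n => by
      induction n with
      | zero => exact ⟨1, one_mem _, by simp⟩
      | succ n ih =>
        obtain ⟨a, ha, ea⟩ := ih
        obtain ⟨c, hc, ec⟩ := n2 (j * n) s hs
        refine ⟨a * c, mul_mem ha hc, ?_⟩
        rw [pow_succ, ea, Nat.mul_succ, pow_add, mul_assoc, ← mul_assoc (t ^ (j * n)), ec]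
        simp only [mul_assoc]
    obtain ⟨a, ha, ea⟩ := this 12
    rwa [ea, show j * 12 = 6 * (2 * j) by ring, pow_mul, t1, one_pow, mul_one]
  have : Finite T.units := fin_mat K0 hT.symm (by
    have k2 : (2 : K) ∈ K0 := by simpa using K0.natCast_mem 2
    rintro _ (rfl | rfl) i j <;> fin_cases i <;> fin_cases j <;>
      simp [t, hr, vecMulVec_apply, kζ, kσ, k2, sub_mem, one_mem, zero_mem, neg_mem])
  let G : Subgroup PGL(2, K) := T.units.map ProjGenLinGroup.mk
  have : Finite G := Finite.of_surjective _ (ProjGenLinGroup.mk.subgroupMap_surjective T.units)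
  have mob : H28.Mob p K G (OnePoint K) :=
    (H28.mob_pgl p).of_hom G.subtype Subtype.val_injective fun _ _ => rfl
  have hQ : ∀ x, mob.Q x = ⊥ := fun x => eq_bot_iff.2 fun ⟨_, u, hu, rfl⟩ hg => by
    have hu1 : u.1 ∈ T := hu.1
    have e1 : ProjGenLinGroup.mk (u ^ p) = 1 := by
      rw [map_pow]; exact congrArg Subtype.val hg.2
    obtain ⟨c, e2⟩ := ProjGenLinGroup.mk_eq_mk_iff.1 (ProjGenLinGroup.mk_one.trans e1.symm)
    obtain ⟨d, n, e3, e4, e5⟩ := unip_of_scalar (p := p) (M := u.1) (c := c) (by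
      rw [← Units.val_pow_eq_pow_val, ← e2]; ext i j; simp [one_apply, diagonal_apply])
    have d12 : d ^ 12 = 1 := by rw [← (n3 _ hu1).1, e5]; ring
    have e6 : ∀ m : ℕ, u.1 ^ (m + 1) = d ^ (m + 1) • 1 + ((m + 1 : ℕ) * d ^ m) • n := fun m => by
      induction m with
      | zero => simp [e3]
      | succ m ih =>
        rw [pow_succ, ih, e3]
        simp only [mul_add, add_mul, smul_mul_assoc, mul_smul_comm, one_mul, mul_one, e4]
        push_cast
        module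
    have d0 : d ≠ 0 := by rintro rfl; simp at d12
    have e7 : u.1 ^ 12 = 1 := by
      by_contra hh
      refine hc _ (n4 _ hu1) hh ?_
      rw [e6 11, d12]; simp [e4]
    have n0 : n = 0 := by
      rw [e6 11, d12, one_smul, add_eq_left, smul_eq_zero] at e7
      refine e7.resolve_left (mul_ne_zero ?_ (pow_ne_zero _ d0))
      rw [show ((11 + 1 : ℕ) : K) = 2 * 2 * 3 by norm_num]
      exact mul_ne_zero (mul_ne_zero h2 h2) h3
    refine Subtype.ext (ProjGenLinGroup.mk_eq_one.2 (Subgroup.mem_center_iff.2 fun g =>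
      Units.ext ?_))
    simp [e3, n0]
  have tT : t ∈ T := hT ▸ Submonoid.subset_closure (Or.inl rfl)
  have rT : r 0 ∈ T := hT ▸ Submonoid.subset_closure (Or.inr rfl)
  let tu : GL (Fin 2) K := ⟨t, t ^ 5, by rw [← pow_succ', t1], by rw [← pow_succ, t1]⟩
  let ru : GL (Fin 2) K := ⟨r 0, r 0, rf2_sq (rd 0), rf2_sq (rd 0)⟩
  let tg : G := ⟨_, tu, ⟨tT, pow_mem tT 5⟩, rfl⟩
  let rg : G := ⟨_, ru, ⟨rT, rT⟩, rfl⟩
  have tp : ∀ (n : ℕ) (z : K), tg ^ n • (z : OnePoint K) = ((ζ ^ n * z : K) : OnePoint K) := by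
    intro n z
    change ProjGenLinGroup.mk tu ^ n • (z : OnePoint K) = _
    rw [← map_pow, H28.mk_smul_pt, OnePoint.smul_some_eq_ite]
    have : (tu ^ n).1 = !![ζ ^ n, 0; 0, 1] := by rw [Units.val_pow_eq_pow_val, ← t6]
    simp [this]
  have z2 : ζ ^ 2 ≠ 1 := fun e => h3 (by grind)
  have fx : ∀ x : OnePoint K, tg ^ 2 • x = x → x = OnePoint.infty ∨ x = ((0 : K) : OnePoint K) := by
    intro x hx
    cases x with
    | infty => exact Or.inl rfl
    | coe z =>
      rw [tp, OnePoint.coe_eq_coe] at hx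
      exact Or.inr (congrArg _ ((mul_eq_zero.1 (by linear_combination hx)).resolve_left
        (sub_ne_zero.2 z2)))
  have r1 : rg • (OnePoint.infty : OnePoint K) = (((1 - σ) / -σ : K) : OnePoint K) := by
    change ru • (OnePoint.infty : OnePoint K) = _
    rw [OnePoint.smul_infty_eq_ite]
    simp [ru, hr, vecMulVec_apply, s0]
  have r2 : rg • ((0 : K) : OnePoint K) = (((σ - 2) / (σ - 1) : K) : OnePoint K) := by
    change ru • ((0 : K) : OnePoint K) = _
    rw [OnePoint.smul_some_eq_ite]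
    have : 1 - (2 - σ) = σ - 1 := by ring
    simp [ru, hr, vecMulVec_apply, this, sub_ne_zero.2 s1]
  have r3 : (1 - σ) / -σ ≠ 0 := div_ne_zero (sub_ne_zero.2 s1.symm) (neg_ne_zero.2 s0)
  have r4 : (σ - 2) / (σ - 1) ≠ 0 := div_ne_zero (sub_ne_zero.2 s2) (sub_ne_zero.2 s1)
  rcases mob.classify_tame hQ with ⟨x, e⟩ | ⟨x, e⟩ | e
  · have e1 := e rg
    rcases fx x (e _) with rfl | rfl
    · simp [r1] at e1
    · exact r4 (OnePoint.coe_eq_coe.1 (r2.symm.trans e1))
  · obtain ⟨y, hxy, h, -⟩ := H28.Mob.pair_of_index_two e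
    have hx : tg ^ 2 • x = x ∧ tg ^ 2 • y = y := by
      rcases h tg with ⟨a, b⟩ | ⟨a, b⟩ <;> simp only [pow_two, mul_smul, a, b, and_self]
    have e1 := h rg
    rcases fx x hx.1 with rfl | rfl <;> rcases fx y hx.2 with rfl | rfl
    · exact hxy rfl
    · simp [r1, r3] at e1
    · simp [r1, r3] at e1
    · exact hxy rfl
  · have key : ∀ n : ℕ, tg ^ n = 1 → ζ ^ n = 1 := fun n hn => by
      have := tp n 1
      rw [hn, one_smul, OnePoint.coe_eq_coe] at this
      linear_combination -this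
    rcases small_pow e tg with e | e | e <;> have := key _ e
    · exact h2 (by grind)
    · exact h3 (by grind)
    · exact z0 (by grind)

end Cfsg.Agent.D5
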