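import Cfsg.Agent.H10.UBase
import Cfsg.Prelude.Def_Spor_Mathieu
import Cfsg.Prelude.Def_Spor_J1
import Cfsg.Prelude.Def_Sz
import Cfsg.Prelude.Def_LieTwisted
import Cfsg.Prelude.Def_KGroupFacts

/-!
Five-dimensional projective representations of finite simple groups: definitions.
-/

set_option autoImplicit false

open Matrix
open scoped MatrixGroups

namespace Cfsg.Agent.D5

/-- `5 × 5` matrices. -/
abbrev M5 (K : Type*) := Matrix (Fin 5) (Fin 5) K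

/-- Vectors (and covectors) of length five. -/
abbrev V5 (K : Type*) := Fin 5 → K

variable {K : Type*} [Field K] {Γ X : Type*} [Group Γ] [Group X]

/-- `Γ` is a perfect absolutely irreducible subgroup of `SL₅(K)` whose quotient by the scalars is
the non-abelian simple group `X`. -/
structure Hyp (ρ : Γ →* M5 K) (π : Γ →* X) : Prop where
  inj : Function.Injective ρ
  det : ∀ g, (ρ g).det = 1
  surj : Function.Surjective π
  ker : ∀ g, π g = 1 ↔ ∃ c : K, ρ g = c • 1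
  simple : IsSimpleGroup X
  nonab : ¬ IsMulCommutative X
  perfect : commutator Γ = ⊤
  span : Submodule.span K (Set.range ρ) = ⊤

/-- The dual representation. -/
def dual (ρ : Γ →* M5 K) : Γ →* M5 K where
  toFun g := (ρ g⁻¹)ᵀ
  map_one' := by simp
  map_mul' a b := by simp

/-- The representation in a new basis. -/
def cnj (ρ : Γ →* M5 K) (B : (M5 K)ˣ) : Γ →* M5 K where
  toFun g := B⁻¹.val * ρ g * B.val
  map_one' := by simp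
  map_mul' a b := by simp [mul_assoc]

/-- Extension of scalars. -/
def ext {L : Type*} [Field L] (f : K →+* L) (ρ : Γ →* M5 K) : Γ →* M5 L :=
  (f.mapMatrix : M5 K →+* M5 L).toMonoidHom.comp ρ

/-- The group extended by `-1`. -/
def sgn (ρ : Γ →* M5 K) : Γ × ℤˣ →* M5 K where
  toFun g := ((g.2 : ℤ) : K) • ρ g.1
  map_one' := by simp
  map_mul' a b := by simp [smul_smul, mul_comm]

/-- The matrix lies in the group. -/
def In (ρ : Γ →* M5 K) (M : M5 K) : Prop := ∃ g, ρ g = M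

/-- The transvection with centre `v` and axis `φ` lies in the group. -/
def T (ρ : Γ →* M5 K) (v φ : V5 K) : Prop := φ ⬝ᵥ v = 0 ∧ ∃ g, ρ g = 1 + vecMulVec v φ

/-- A non-trivial transvection of the group. -/
def Fl (ρ : Γ →* M5 K) (v φ : V5 K) : Prop := T ρ v φ ∧ v ≠ 0 ∧ φ ≠ 0

/-- No transvections. -/
def NoTv (ρ : Γ →* M5 K) : Prop := ∀ v φ, ¬ Fl ρ v φ

/-- The reflection `x ↦ x - f(x) v` (a transvection in characteristic two) lies in the group. -/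
def D (ρ : Γ →* M5 K) (v f : V5 K) : Prop :=
  f ⬝ᵥ v = 2 ∧ v ≠ 0 ∧ f ≠ 0 ∧ ∃ g, ρ g = 1 - vecMulVec v f

/-- No element is plus or minus a reflection (a transvection in characteristic two). -/
def NoRf (ρ : Γ →* M5 K) : Prop := ∀ v f, ¬ D (sgn ρ) v f

/-- The traces generate the field. -/
def TrTop (ρ : Γ →* M5 K) : Prop := ∀ K0 : Subfield K, (∀ g, (ρ g).trace ∈ K0) → K0 = ⊤

/-- The character is self-dual. -/
def Real (ρ : Γ →* M5 K) : Prop := ∀ g, (ρ g⁻¹).trace = (ρ g).trace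

/-- The group is `SL₅(K)`. -/
def IsSL (ρ : Γ →* M5 K) : Prop := ∀ M : M5 K, M.det = 1 → In ρ M

/-- The group is as large as `SU₅(q)` and has unitary traces. -/
def IsSU (ρ : Γ →* M5 K) : Prop := ∃ q : ℕ, Nat.card K = q ^ 2 ∧
  (∀ g, (ρ g⁻¹).trace = (ρ g).trace ^ q) ∧ Nat.card (H10.SUG 5 K q) ≤ Nat.card Γ

/-! ### Transvection groups -/

/-- The centre `v` has two independent axes. -/
def Multi (ρ : Γ →* M5 K) (v : V5 K) : Prop :=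
  v ≠ 0 ∧ ∃ φ ψ, T ρ v φ ∧ T ρ v ψ ∧ φ ≠ 0 ∧ ∀ c : K, ψ ≠ c • φ

/-- No axis with centre `v` contains `w`. -/
def NA (ρ : Γ →* M5 K) (v w : V5 K) : Prop := ∀ χ, T ρ v χ → χ ⬝ᵥ w = 0 → χ = 0

/-- Opposite centres are adjacent. -/
def AdjA (ρ : Γ →* M5 K) : Prop := ∀ v φ w ψ, Multi ρ v → T ρ v φ → T ρ w ψ → φ ⬝ᵥ w ≠ 0 →
  ψ ⬝ᵥ v ≠ 0 → ¬ NA ρ v w

/-- All root groups are lines over the subfield `K0`. -/
def Rt (ρ : Γ →* M5 K) (K0 : Subfield K) : Prop :=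
  ∀ v φ, Fl ρ v φ → ∀ a : K, T ρ v (a • φ) ↔ a ∈ K0

/-- Normalised roots opposite to the root `(v0, φ0)`. -/
def Nb (ρ : Γ →* M5 K) (v0 φ0 x χ : V5 K) : Prop :=
  φ0 ⬝ᵥ x = 1 ∧ χ ⬝ᵥ v0 = -1 ∧ ∃ c : K, c ≠ 0 ∧ T ρ x (c • χ)

/-! ### Reflection groups -/

/-- The reflections behave well. -/
structure Tame (ρ : Γ →* M5 K) : Prop where
  zero : ∀ {v f w g}, D ρ v f → D ρ w g → f ⬝ᵥ w = 0 → g ⬝ᵥ v = 0
  ctr : ∀ {v f g}, D ρ v f → D ρ v g → f = g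
  axs : ∀ {v w f}, D ρ v f → D ρ w f → v = w
  notv : (2 : K) ≠ 0 → NoTv ρ

/-- Finite subsets lie in finite subfields. -/
def LF (K : Type*) [Field K] : Prop :=
  ∀ s : Finset K, ∃ K0 : Subfield K, Finite K0 ∧ ∀ x ∈ s, x ∈ K0

/-- The hypotheses of the theorem on reflection groups. -/
structure RH (ρ : Γ →* M5 K) : Prop extends Tame ρ where
  lf : LF K
  irr : ∀ W : Submodule K (V5 K), (∀ v f, D ρ v f → ∀ x ∈ W, f ⬝ᵥ x ≠ 0 → v ∈ W) → W = ⊥ ∨ W = ⊤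
  simp : ∀ N : Subgroup Γ, N.Normal → (∃ g ∈ N, ∀ c : K, ρ g ≠ c • 1) →
    ∀ g, ∃ n ∈ N, ∃ c : K, ρ g = c • ρ n

/-- The invariant of two reflections. -/
def lam (v f w g : V5 K) : K := (f ⬝ᵥ w) * (g ⬝ᵥ v)

/-- A non-symmetric triangle. -/
def NS (v f w g u h : V5 K) : Prop :=
  (f ⬝ᵥ w) * (g ⬝ᵥ u) * (h ⬝ᵥ v) ≠ (g ⬝ᵥ v) * (h ⬝ᵥ w) * (f ⬝ᵥ u)

/-- Sides of non-symmetric triangles have order three or four. -/
def Lam (ρ : Γ →* M5 K) : Prop := ∀ v f w g u h, D ρ v f → D ρ w g → D ρ u h → NS v f w g u h →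
  lam v f w g = 1 ∨ lam v f w g = 2

/-- Sides of non-symmetric triangles have order three. -/
def Lam1 (ρ : Γ →* M5 K) : Prop := ∀ v f w g u h, D ρ v f → D ρ w g → D ρ u h → NS v f w g u h →
  lam v f w g = 1

/-- Dual families of vectors and covectors. -/
def Du {ι : Type*} [DecidableEq ι] (e x : ι → V5 K) : Prop :=
  ∀ i j, x i ⬝ᵥ e j = if i = j then 1 else 0

/-- The reflection swapping two frame vectors. -/
def Sw (ρ : Γ →* M5 K) {ι : Type*} (e x : ι → V5 K) (i j : ι) (φ : K) : Prop :=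
  φ ≠ 0 ∧ D ρ (e i - φ • e j) (x i - φ⁻¹ • x j)

/-- The group contains `G(m, m, k)`, where `θ` is an `m`-th root of unity. -/
structure Fr (ρ : Γ →* M5 K) {k : ℕ} (e x : Fin k → V5 K) (θ : K) : Prop where
  du : Du e x
  one : ∀ i j, i ≠ j → Sw ρ e x i j 1
  th : ∀ i j, i ≠ j → Sw ρ e x i j θ

/-- A monomial reflection. -/
def Mon {ι : Type*} (e x : ι → V5 K) (v f : V5 K) : Prop :=
  (∃ (i j : ι) (a b : K), i ≠ j ∧ a ≠ 0 ∧ b ≠ 0 ∧ v = a • e i + b • e j ∧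
    f = a⁻¹ • x i + b⁻¹ • x j) ∨ ∃ (i : ι) (a : K), a ≠ 0 ∧ v = a • e i ∧ f = (2 * a⁻¹) • x i

/-- A reflection of the block spanned by the frame. -/
def Inn {ι : Type*} (e x : ι → V5 K) (v f : V5 K) : Prop :=
  v ∈ Submodule.span K (Set.range e) ∧ f ∈ Submodule.span K (Set.range x)

/-- The block is a connected monomial group. -/
def MonB (ρ : Γ →* M5 K) (e x : Fin 3 → V5 K) : Prop := ∃ e' x' : Fin 3 → V5 K, Du e' x' ∧
  (∀ i j, i ≠ j → ∃ φ, Sw ρ e' x' i j φ) ∧ ∀ v f, D ρ v f → Inn e x v f → Mon e' x' v f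

/-- A plane on which the group induces the dihedral group of order eight. -/
structure Pl (ρ : Γ →* M5 K) (e x : Fin 2 → V5 K) : Prop where
  du : Du e x
  d0 : D ρ (e 0) ((2 : K) • x 0)
  d1 : D ρ (e 1) ((2 : K) • x 1)
  n1 : D ρ (e 0 - e 1) (x 0 - x 1)

/-- The reflection does not preserve the form of the plane. -/
def NSP (e x : Fin 2 → V5 K) (v f : V5 K) : Prop :=
  (x 0 ⬝ᵥ v) * (f ⬝ᵥ e 1) ≠ (x 1 ⬝ᵥ v) * (f ⬝ᵥ e 0)

/-- The diagonal entry of a reflection with respect to a frame. -/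
def pp {ι : Type*} (e x : ι → V5 K) (v f : V5 K) (i : ι) : K := (x i ⬝ᵥ v) * (f ⬝ᵥ e i)

/-- The reflection is orthogonal to a frame vector. -/
def Zr {ι : Type*} (e x : ι → V5 K) (v f : V5 K) (i : ι) : Prop := x i ⬝ᵥ v = 0 ∧ f ⬝ᵥ e i = 0

/-- The normalised roots of the reflection group `G₃₃`. -/
def G33R (v f : V5 K) : Prop :=
  (∃ (i j : Fin 5) (a : K), i ≠ j ∧ i ≠ 4 ∧ j ≠ 4 ∧ a ^ 3 = 1 ∧
    v = Pi.single i 1 - a • Pi.single j 1 ∧ f = Pi.single i 1 - a ^ 2 • Pi.single j 1) ∨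
  ∃ a b c d : K, a ^ 3 = 1 ∧ b ^ 3 = 1 ∧ c ^ 3 = 1 ∧ d ^ 3 = 1 ∧ a * b * c * d = 1 ∧
    v = ![a, b, c, d, 1] ∧ f = (3 : K)⁻¹ • ![a ^ 2, b ^ 2, c ^ 2, d ^ 2, 2]

/-- The reflections are those of `G₃₃`. -/
def IsG33 (ρ : Γ →* M5 K) : Prop := (2 : K) ≠ 0 ∧ (3 : K) ≠ 0 ∧ (∃ ω : K, ω ^ 2 + ω + 1 = 0) ∧
  ∃ B : (M5 K)ˣ, ∀ v f, D (cnj ρ B) v f ↔
    ∃ (c : K) (v' f' : V5 K), c ≠ 0 ∧ G33R v' f' ∧ v = c • v' ∧ f = c⁻¹ • f'

/-- The reflections are the transvections of `SU₅(2)`. -/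
def IsU52 (ρ : Γ →* M5 K) : Prop := (2 : K) = 0 ∧ (∃ ω : K, ω ^ 2 + ω + 1 = 0) ∧
  ∃ B : (M5 K)ˣ, ∀ v f, D (cnj ρ B) v f ↔ ∃ (c : K) (z : V5 K), c ≠ 0 ∧ z ≠ 0 ∧
    (∀ i, z i ^ 4 = z i) ∧ ∑ i, z i ^ 3 = 0 ∧ v = c • z ∧ f = c⁻¹ • fun i => z i ^ 2

/-- The group consists of similarities of a non-degenerate symmetric form. -/
def IsO (ρ : Γ →* M5 K) : Prop := (2 : K) ≠ 0 ∧ ∃ S : M5 K, S.det ≠ 0 ∧ Sᵀ = S ∧
  ∀ g, ∃ c : K, (ρ g)ᵀ * S * ρ g = c • S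

/-! ### Characteristic two without transvections -/

/-- The structure of a Sylow `2`-subgroup. -/
structure NE (ρ : Γ →* M5 K) (S : Sylow 2 Γ) (z : Γ) (A B : Subgroup Γ) : Prop where
  z1 : z ≠ 1
  zA : z ∈ A
  zB : z ∈ B
  leA : A ≤ S
  leB : B ≤ S
  sqA : ∀ a ∈ A, a * a = 1
  sqB : ∀ b ∈ B, b * b = 1
  inv : ∀ t ∈ S, t * t = 1 → t ∈ A ∨ t ∈ B
  cen : ∀ a ∈ A, a ∈ B → ∀ s ∈ S, s * a = a * s
  cB : ∀ t ∈ B, t ∉ A → ∀ s ∈ S, s * t = t * s → s ∈ B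
  nB : ∀ t ∈ B, ∀ s ∈ S, s * t * s⁻¹ ∈ B ∧ s * t * s⁻¹ * t ∈ A
  fix : ∀ t ∈ S, t ≠ 1 → (t ∈ A ↔ ∀ v, ρ t *ᵥ v = v ↔ ρ z *ᵥ v = v)
  img : ∀ v, ρ z *ᵥ (ρ z *ᵥ v - v) = ρ z *ᵥ v - v

/-! ### The candidates -/

/-- `X` is `PSL₂(F)` with `|F| = r`. -/
def IsL2 (X : Type*) [Group X] (r : ℕ) : Prop :=
  ∃ (F : Type) (_ : Field F) (_ : Fintype F), Fintype.card F = r ∧ Nonempty (X ≃* PSL(2, F))

/-- `X` is `PSL₃(F)` with `|F| = r`. -/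
def IsL3 (X : Type*) [Group X] (r : ℕ) : Prop :=
  ∃ (F : Type) (_ : Field F) (_ : Fintype F), Fintype.card F = r ∧ Nonempty (X ≃* PSL(3, F))

/-- `X` is `PSU₃(r)`. -/
def IsU3 (X : Type*) [Group X] (r : ℕ) : Prop :=
  ∃ (F : Type) (_ : Field F) (_ : Fintype F), Fintype.card F = r ^ 2 ∧ Nonempty (X ≃* PSU 3 F r)

/-- `X` is `PSU₄(2)`. -/
def IsU42 (X : Type*) [Group X] : Prop :=
  ∃ (F : Type) (_ : Field F) (_ : Fintype F), Fintype.card F = 4 ∧ Nonempty (X ≃* PSU 4 F 2)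

/-- The list in odd characteristic. -/
def LstO (X : Type*) [Group X] : Prop := (∃ r, IsL2 X r) ∨ (∃ r, Odd r ∧ IsL3 X r) ∨
  (∃ r, (Odd r ∨ r = 4) ∧ IsU3 X r) ∨ Nonempty (X ≃* alternatingGroup (Fin 7)) ∨ Spor.IsoM11 X

/-- The list in characteristic two. -/
def LstE (X : Type*) [Group X] : Prop := (∃ r, IsL2 X r) ∨ (∃ r, Even r ∧ IsL3 X r) ∨
  (∃ r, Even r ∧ 4 ≤ r ∧ IsU3 X r) ∨ Nonempty (X ≃* alternatingGroup (Fin 7)) ∨
  Lie.IsoSuzuki X ∨ Lie.IsoRee X ∨ Spor.IsoJ1 X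

/-- The Frobenius map fixes the traces. -/
def FrobFix (ρ : Γ →* M5 K) (p : ℕ) : Prop := ∀ g, (ρ g).trace ^ p = (ρ g).trace

/-- The Frobenius map conjugates the traces. -/
def FrobInv (ρ : Γ →* M5 K) (p : ℕ) : Prop := ∀ g, (ρ g).trace ^ p = (ρ g⁻¹).trace

end Cfsg.Agent.D5
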