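import Cfsg.Agent.DIM5.Calc

/-!
Traces of the reflection group `G₃₃` and of the transvection group `SU₅(2)`.
-/

set_option autoImplicit false

open Matrix
open scoped MatrixGroups

namespace Cfsg.Agent.D5

variable {K : Type*} [Field K] {Γ X : Type*} [Group Γ] [Group X] {ρ : Γ →* M5 K} {π : Γ →* X}

namespace G33

theorem cnj_sgn (B : (M5 K)ˣ) : cnj (sgn ρ) B = sgn (cnj ρ B) := by
  ext1 g; simp [cnj_apply, sgn_apply]

/-- Induction over the elements which are plus or minus a reflection. -/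
theorem ind (h : Hyp ρ π) {v0 f0 : V5 K} (h0 : D (sgn ρ) v0 f0) (H : Subgroup Γ)
    (hH : ∀ g v f, D (sgn ρ) v f → (ρ g = 1 - vecMulVec v f ∨ ρ g = -(1 - vecMulVec v f)) → g ∈ H)
    (g : Γ) : g ∈ H := by
  obtain ⟨g0, e0⟩ := in_sgn.1 h0.2.2.2
  refine h.induction (S := {g | ∃ v f, D (sgn ρ) v f ∧
    (ρ g = 1 - vecMulVec v f ∨ ρ g = -(1 - vecMulVec v f))}) ?_ ⟨v0, f0, h0, e0⟩ ?_ H
    (fun g ⟨v, f, a, b⟩ => hH g v f a b) g
  · rintro g ⟨v, f, a, b⟩ k
    have e : ρ k * (1 - vecMulVec v f) * ρ k⁻¹ = 1 - vecMulVec (ρ k *ᵥ v) (f ᵥ* ρ k⁻¹) := by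
      rw [mul_sub, sub_mul, mul_one, mul_inv_rho, mul_vecMulVec, vecMulVec_mul]
    refine ⟨_, _, by simpa [sgn_apply] using a.conj (k, 1), b.imp (fun b => ?_) fun b => ?_⟩
    · rw [map_mul, map_mul, b, e]
    · rw [map_mul, map_mul, b, mul_neg, neg_mul, e]
  · intro e
    obtain ⟨c, hc⟩ := (h.ker g0).1 e
    have n := one_add_vv_ne (neg_ne_zero.2 h0.2.1) h0.2.2.1
    rw [neg_vecMulVec, ← sub_eq_add_neg] at n
    rcases e0 with e0 | e0
    · exact n c (e0 ▸ hc)
    · exact n (-c) (by rw [neg_smul, ← hc, e0, neg_neg])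

/-- The elements on which `J` intertwines two representations. -/
def intw (α β : Γ →* M5 K) (J : M5 K) : Subgroup Γ where
  carrier := {g | α g * J = J * β g}
  one_mem' := by simp
  mul_mem' {a b} ha hb := by
    rw [Set.mem_setOf_eq] at ha hb ⊢
    rw [map_mul, map_mul, mul_assoc, hb, ← mul_assoc, ha, mul_assoc]
  inv_mem' {a} ha := by
    rw [Set.mem_setOf_eq] at ha ⊢
    calc α a⁻¹ * J = α a⁻¹ * (J * β a) * β a⁻¹ := by
          rw [mul_assoc, mul_assoc, mul_inv_rho, mul_one]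
      _ = J * β a⁻¹ := by rw [← ha, ← mul_assoc, inv_mul_rho, one_mul]

theorem trace_intw {α β : Γ →* M5 K} {J J' : M5 K} (hJ : J' * J = 1) {g : Γ}
    (hg : g ∈ intw α β J) : (α g).trace = (β g).trace := by
  have e : α g * J = J * β g := hg
  rw [← one_mul (β g), ← hJ, mul_assoc, ← e, ← mul_assoc, trace_mul_cycle, mul_eq_one_comm.1 hJ,
    one_mul]

theorem map_refl (φ : K →+* K) (v f : V5 K) :
    (1 - vecMulVec v f).map φ = 1 - vecMulVec (φ ∘ v) (φ ∘ f) := by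
  ext i j; simp [vecMulVec_apply, one_apply, apply_ite φ]

/-- Traces are fixed by `φ` if the reflections are. -/
theorem fix_of (h : Hyp ρ π) {v0 f0 : V5 K} (h0 : D (sgn ρ) v0 f0) (φ : K →+* K)
    (hφ : ∀ v f, D (sgn ρ) v f → vecMulVec (φ ∘ v) (φ ∘ f) = vecMulVec v f) (g : Γ) :
    φ (ρ g).trace = (ρ g).trace := by
  rw [← trace_ext]
  refine trace_intw (J := 1) (one_mul 1) (ind h h0 (intw _ _ 1) (fun k v f a b => ?_) g)
  change (ρ k).map φ * 1 = 1 * ρ k
  rw [mul_one, one_mul]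
  rcases b with b | b
  · rw [b, map_refl, hφ v f a]
  · rw [b, Matrix.map_neg _ (map_neg φ), map_refl, hφ v f a]

/-- Traces are conjugated by `φ` if the reflections preserve a hermitian form. -/
theorem inv_of (h : Hyp ρ π) {v0 f0 : V5 K} (h0 : D (sgn ρ) v0 f0) (φ : K →+* K) {J J' : M5 K}
    (hJ : J' * J = 1)
    (hφ : ∀ v f, D (sgn ρ) v f → vecMulVec f (v ᵥ* J) = vecMulVec (J *ᵥ (φ ∘ v)) (φ ∘ f)) (g : Γ) :
    φ (ρ g).trace = (ρ g⁻¹).trace := by
  rw [← trace_ext, ← trace_dual]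
  refine (trace_intw hJ (ind h h0 (intw _ _ J) (fun k v f a b => ?_) g)).symm
  change (ρ k⁻¹)ᵀ * J = J * (ρ k).map φ
  have e : (1 - vecMulVec v f)ᵀ * J = J * (1 - vecMulVec v f).map φ := by
    rw [map_refl, transpose_sub, transpose_one, transpose_vecMulVec, sub_mul, mul_sub, one_mul,
      mul_one, vecMulVec_mul, mul_vecMulVec, hφ v f a]
  rcases b with b | b
  · rw [rho_inv_eq (b ▸ refl_sq a.1), b, e]
  · rw [rho_inv_eq (M := -(1 - vecMulVec v f)) (by rw [b, neg_mul_neg, refl_sq a.1]), b,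
      Matrix.map_neg _ (map_neg φ), transpose_neg, neg_mul, mul_neg, e]

theorem vv_smul {c : K} (hc : c ≠ 0) (v f : V5 K) :
    vecMulVec (c • v) (c⁻¹ • f) = vecMulVec v f := by
  rw [smul_vecMulVec, vecMulVec_smul, smul_inv_smul₀ hc]

theorem comp_smul (φ : K →+* K) (c : K) (v : V5 K) : φ ∘ (c • v) = φ c • (φ ∘ v) := by
  ext i; simp

theorem root0 : G33R (K := K) (Pi.single 0 1 - (1 : K) • Pi.single 1 1)
    (Pi.single 0 1 - (1 : K) ^ 2 • Pi.single 1 1) :=
  Or.inl ⟨0, 1, 1, by decide, by decide, by decide, one_pow 3, rfl, rfl⟩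

theorem fix_root (φ : K →+* K) (hφ : ∀ a : K, a ^ 3 = 1 → φ a = a) {v f : V5 K} (r : G33R v f) :
    φ ∘ v = v ∧ φ ∘ f = f := by
  rcases r with ⟨i, j, a, -, -, -, ha, rfl, rfl⟩ | ⟨a, b, c, d, ha, hb, hc, hd, -, rfl, rfl⟩
  · constructor <;> ext l <;> simp [Pi.single_apply, apply_ite φ, hφ a ha]
  · constructor <;> ext l <;> fin_cases l <;>
      simp [hφ a ha, hφ b hb, hφ c hc, hφ d hd, map_ofNat]

theorem inv_root (φ : K →+* K) (hφ : ∀ a : K, a ^ 3 = 1 → φ a = a ^ 2) {v f : V5 K}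
    (r : G33R v f) : ∃ t : K, f = t • (diagonal ![1, 1, 1, 1, 2] *ᵥ (φ ∘ v)) ∧
      φ ∘ f = t • (v ᵥ* diagonal ![1, 1, 1, 1, 2]) := by
  have h4 : ∀ a : K, a ^ 3 = 1 → (a ^ 2) ^ 2 = a := fun a h => by linear_combination a * h
  rcases r with ⟨i, j, a, -, hi, hj, ha, rfl, rfl⟩ | ⟨a, b, c, d, ha, hb, hc, hd, -, rfl, rfl⟩
  · refine ⟨1, ?_, ?_⟩ <;> ext l <;> fin_cases l <;>
      simp [Pi.single_apply, apply_ite φ, hφ a ha, mulVec_diagonal, vecMul_diagonal, h4 a ha,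
        hi.symm, hj.symm]
  · refine ⟨3⁻¹, ?_, ?_⟩ <;> ext l <;> fin_cases l <;>
      simp [hφ a ha, hφ b hb, hφ c hc, hφ d hd, map_ofNat, mulVec_diagonal, vecMul_diagonal,
        h4 a ha, h4 b hb, h4 c hc, h4 d hd]

theorem exists_hom (h2 : (2 : K) = 0) {ω : K} (hω : ω ^ 2 + ω + 1 = 0) (F : Type*) [Field F]
    [Fintype F] (hF : Fintype.card F = 4) : Nonempty (F →+* K) := by
  have : CharP K 2 := CharTwo.of_one_ne_zero_of_two_eq_zero one_ne_zero h2
  have : CharP F 2 := CharTwo.of_one_ne_zero_of_two_eq_zero one_ne_zero (by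
    have := FiniteField.cast_card_eq_zero F
    rw [hF] at this
    exact pow_eq_zero_iff (n := 2) (by decide) |>.1 (by rw [← this]; norm_num))
  let _ := ZMod.algebra K 2
  let _ := ZMod.algebra F 2
  have := FiniteField.isSplittingField_sub F (ZMod 2)
  refine ⟨(Polynomial.IsSplittingField.lift F
    (Polynomial.X ^ Fintype.card F - Polynomial.X : Polynomial (ZMod 2)) ?_ : F →ₐ[ZMod 2] K)⟩
  have e : ((Polynomial.X ^ Fintype.card F - Polynomial.X : Polynomial (ZMod 2)).map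
      (algebraMap (ZMod 2) K)) = Polynomial.X * (Polynomial.X - Polynomial.C 1) *
        (Polynomial.X - Polynomial.C ω) * (Polynomial.X - Polynomial.C (ω ^ 2)) := by
    have := congrArg Polynomial.C hω
    simp only [map_add, map_pow, map_one, map_zero] at this
    simp only [hF, Polynomial.map_sub, Polynomial.map_pow, Polynomial.map_X, map_one, map_pow]
    linear_combination (Polynomial.X ^ 3 - Polynomial.C ω * Polynomial.X ^ 2 +
      (Polynomial.C ω - 1) * Polynomial.X) * this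
  rw [e]
  exact ((Polynomial.Splits.X.mul (.X_sub_C _)).mul (.X_sub_C _)).mul (.X_sub_C _)

end G33

open G33

theorem Hyp.g33_frob (h : Hyp ρ π) (e : IsG33 (sgn ρ)) (p : ℕ) [Fact p.Prime] [CharP K p] :
    (p % 3 = 1 → FrobFix ρ p) ∧ (p % 3 = 2 → FrobInv ρ p) := by
  obtain ⟨h2, -, -, B, e⟩ := e
  rw [cnj_sgn] at e
  have h0 := (e _ _).2 ⟨1, _, _, one_ne_zero, root0, rfl, rfl⟩
  have hp : ∀ a : K, a ^ 3 = 1 → frobenius K p a = a ^ (p % 3) := fun a ha => by
    rw [frobenius_def, pow_eq_pow_mod p ha]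
  refine ⟨fun h1 g => ?_, fun h1 g => ?_⟩
  · rw [← trace_cnj B]
    refine fix_of (h.cnj B) h0 (frobenius K p) (fun v f a => ?_) g
    obtain ⟨c, v, f, hc, r, rfl, rfl⟩ := (e _ _).1 a
    obtain ⟨e1, e2⟩ := fix_root (frobenius K p) (fun a ha => by rw [hp a ha, h1, pow_one]) r
    rw [comp_smul, comp_smul, e1, e2, map_inv₀, vv_smul hc, vv_smul ((map_ne_zero _).2 hc)]
  · rw [← trace_cnj B g, ← trace_cnj B g⁻¹]
    refine inv_of (h.cnj B) h0 (frobenius K p) (J := diagonal ![1, 1, 1, 1, 2])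
      (J' := diagonal ![1, 1, 1, 1, 2⁻¹]) ?_ (fun v f a => ?_) g
    · rw [diagonal_mul_diagonal, ← diagonal_one]
      congr 1; ext l; fin_cases l <;> simp [h2]
    obtain ⟨c, v, f, hc, r, rfl, rfl⟩ := (e _ _).1 a
    obtain ⟨t, e1, e2⟩ := inv_root (frobenius K p) (fun a ha => by rw [hp a ha, h1]) r
    rw [comp_smul, comp_smul, map_inv₀, mulVec_smul, vv_smul ((map_ne_zero _).2 hc), smul_vecMul,
      smul_vecMulVec, vecMulVec_smul, inv_smul_smul₀ hc, e2, vecMulVec_smul, ← smul_vecMulVec, ← e1]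

theorem Hyp.u52 [Finite Γ] (h : Hyp ρ π) (e : IsU52 (sgn ρ)) : FrobInv ρ 2 ∧
    ∀ (F : Type*) [Field F] [Fintype F], Fintype.card F = 4 →
      Nat.card (H10.SUG 5 F 2) ≤ Nat.card Γ := by
  obtain ⟨h2, ⟨ω, hω⟩, B, e⟩ := e
  rw [cnj_sgn] at e
  have : CharP K 2 := CharTwo.of_one_ne_zero_of_two_eq_zero one_ne_zero h2
  refine ⟨fun g => ?_, fun F _ _ hF => ?_⟩
  · have h0 := (e _ _).2 ⟨1, ![1, 1, 0, 0, 0], one_ne_zero, fun e => by simpa using congrFun e 0,
      fun i => by fin_cases i <;> simp, by simp [Fin.sum_univ_five, CharTwo.add_self_eq_zero],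
      rfl, rfl⟩
    rw [← trace_cnj B g, ← trace_cnj B g⁻¹]
    refine inv_of (h.cnj B) h0 (frobenius K 2) (J := 1) (one_mul 1) (fun v f a => ?_) g
    obtain ⟨c, z, hc, -, h4, -, rfl, rfl⟩ := (e _ _).1 a
    have e1 : (frobenius K 2 ∘ fun i => z i ^ 2) = z := funext fun i => by
      rw [← h4 i, Function.comp, frobenius_def, h4 i, ← pow_mul, h4 i]
    rw [comp_smul, comp_smul, map_inv₀, one_mulVec, vecMul_one, vv_smul ((map_ne_zero _).2 hc),
      smul_vecMulVec, vecMulVec_smul, inv_smul_smul₀ hc, e1]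
    rfl
  · obtain ⟨φ⟩ := exists_hom h2 hω F hF
    have : Fact (Fintype.card F = 2 ^ 2) := ⟨hF⟩
    have p4 : ∀ x : F, x ^ 4 = x := fun x => hF ▸ FiniteField.pow_card x
    let H : Subgroup (SU 5 F 2) :=
      { carrier := {u | ∃ g, D5.cnj ρ B g = (H10.sm u).map φ}
        one_mem' := ⟨1, by simp [H10.sm_one]⟩
        mul_mem' := fun ⟨a, ha⟩ ⟨b, hb⟩ => ⟨a * b, by
          rw [map_mul, ha, hb, H10.sm_mul, Matrix.map_mul]⟩
        inv_mem' := fun {u} ⟨a, ha⟩ => ⟨a⁻¹, rho_inv_eq (by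
          rw [ha, ← Matrix.map_mul, H10.sm_mul_inv]; simp)⟩ }
    have hH : H = ⊤ := by
      rw [eq_top_iff, ← H10.closure_ut_eq_top (by decide), Subgroup.closure_le]
      rintro u ⟨v, c, hv, hu⟩
      change ∃ g, D5.cnj ρ B g = (H10.sm u).map φ
      by_cases v0 : v = 0
      · exact ⟨1, by simp [hu, v0, unitaryTransvection]⟩
      by_cases c0 : c = 0
      · exact ⟨1, by simp [hu, c0, unitaryTransvection]⟩
      have hc := (H10.isIsom_ut_iff v0).1 (hu ▸ H10.sm_isIsom u)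
      rw [hv, mul_zero, add_zero, H10.cj_apply] at hc
      have c1 : φ c = 1 := by
        have := congrArg φ hc
        rw [map_add, map_pow, map_zero] at this
        exact mul_left_cancel₀ ((map_ne_zero φ).2 c0) (by
          linear_combination this - (φ c) * h2)
      obtain ⟨-, -, -, k⟩ := (e _ _).2 ⟨1, φ ∘ v, one_ne_zero,
        fun e => v0 (funext fun i => (map_eq_zero φ).1 (congrFun e i)),
        fun i => by rw [Function.comp, ← map_pow, p4], by
          have := congrArg φ hv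
          simpa [hermForm, ← pow_succ'] using this, rfl, rfl⟩
      obtain ⟨k, hk⟩ := in_sgn.1 k
      refine ⟨k, ?_⟩
      rw [CharTwo.neg_eq, or_self, CharTwo.sub_eq_add] at hk
      rw [hk, hu]
      ext i j
      simp [unitaryTransvection, vecMulVec_apply, c1, one_apply, apply_ite φ]
    have hs : ∀ u, ∃ g, D5.cnj ρ B g = (H10.sm u).map φ := fun u => (hH ▸ Subgroup.mem_top u : u ∈ H)
    choose s hs using hs
    rw [H10.card_SUG]
    exact Nat.card_le_card_of_injective s fun a b e =>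
      H10.sm_injective (Matrix.map_injective φ.injective (by
        change (H10.sm a).map φ = (H10.sm b).map φ
        rw [← hs, ← hs, e]))

end Cfsg.Agent.D5
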