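import Cfsg.Agent.DIM5.Calc
import Cfsg.Agent.DIM5.G33
import Cfsg.Agent.H56.Mod.U42
import Cfsg.Agent.H14.Code

/-!
The reflection group `G₃₃` modulo scalars is `U₄(2)`.
-/

set_option autoImplicit false

open Matrix
open scoped MatrixGroups

namespace Cfsg.Agent.D5

variable {K : Type*} [Field K] {Γ X : Type*} [Group Γ] [Group X] {ρ : Γ →* M5 K} {π : Γ →* X}

namespace G33

open H14

/-- Two groups generated by families with the same conjugation table. -/
theorem iso_of_table {ι Y : Type*} [Finite ι] [Group Y] [IsSimpleGroup Y] [Nontrivial X]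
    (a : ι → X) (b : ι → Y) (t : ι → ι → ι) (ha : ∀ i j, a i * a j * (a i)⁻¹ = a (t i j))
    (hb : ∀ i j, b i * b j * (b i)⁻¹ = b (t i j)) (inj : Function.Injective b)
    (ga : Subgroup.closure (Set.range a) = ⊤) (gb : Subgroup.closure (Set.range b) = ⊤)
    (hc : Subgroup.center X = ⊥) : Nonempty (X ≃* Y) := by
  let c : ι → X × Y := fun i => (a i, b i)
  let P := Subgroup.closure (Set.range c)
  have hc' : ∀ i j, c i * c j * (c i)⁻¹ = c (t i j) := fun i j => Prod.ext (ha i j) (hb i j)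
  have key : ∀ p ∈ P, ∀ j, ∃ k, p * c j * p⁻¹ = c k := fun p hp => by
    induction hp using Subgroup.closure_induction'' with
    | mem x hx => obtain ⟨i, rfl⟩ := hx; exact fun j => ⟨_, hc' i j⟩
    | inv_mem x hx =>
      obtain ⟨i, rfl⟩ := hx
      intro j
      obtain ⟨k, rfl⟩ := Finite.injective_iff_surjective.1 (fun k l e => inj (by
        have := (hb i k).trans ((congrArg b e).trans (hb i l).symm)
        simpa using this) : Function.Injective (t i)) j
      exact ⟨k, by rw [← hc']; group⟩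
    | one => exact fun j => ⟨j, by simp⟩
    | mul x y _ _ hx hy =>
      intro j
      obtain ⟨k, e⟩ := hy j
      obtain ⟨l, e'⟩ := hx k
      exact ⟨l, by rw [← e', ← e]; group⟩
  let f1 := (MonoidHom.fst X Y).comp P.subtype
  let f2 := (MonoidHom.snd X Y).comp P.subtype
  have s1 : Function.Surjective f1 := by
    rw [← MonoidHom.range_eq_top, MonoidHom.range_comp, Subgroup.range_subtype,
      MonoidHom.map_closure, ← Set.range_comp]
    exact ga
  have s2 : Function.Surjective f2 := by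
    rw [← MonoidHom.range_eq_top, MonoidHom.range_comp, Subgroup.range_subtype,
      MonoidHom.map_closure, ← Set.range_comp]
    exact gb
  have i2 : Function.Injective f2 := (injective_iff_map_eq_one _).2 fun p (hp : p.1.2 = 1) => by
    refine Subtype.ext (Prod.ext (Subgroup.mem_bot.1 (hc ▸ Subgroup.mem_center_iff.2 fun x => ?_)) hp)
    refine ((Subgroup.closure_le (Subgroup.centralizer {p.1.1})).2 ?_ (ga ▸ Subgroup.mem_top x)
      _ rfl).symm
    rintro _ ⟨j, rfl⟩ _ rfl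
    obtain ⟨k, e⟩ := key p.1 p.2 j
    obtain rfl : j = k := inj (by simpa [hp] using congrArg Prod.snd e)
    exact mul_inv_eq_iff_eq_mul.1 (congrArg Prod.fst e)
  let e := MulEquiv.ofBijective f2 ⟨i2, s2⟩
  let φ := f1.comp e.symm.toMonoidHom
  have s3 : Function.Surjective φ := s1.comp e.symm.surjective
  refine ⟨(MulEquiv.ofBijective φ ⟨(MonoidHom.ker_eq_bot_iff φ).1
    ((MonoidHom.normal_ker φ).eq_bot_or_eq_top.resolve_right fun h => ?_), s3⟩).symm⟩
  obtain ⟨x, hx⟩ := exists_ne (1 : X)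
  obtain ⟨y, rfl⟩ := s3 x
  exact hx (h ▸ Subgroup.mem_top y : y ∈ φ.ker)

/-- The Eisenstein integers. -/
abbrev Zw := QuadraticAlgebra ℤ (-1) (-1)

/-- Parameters of the roots. -/
abbrev J := (Fin 5 × Fin 5 × Fin 3) ⊕ (Fin 3 × Fin 3 × Fin 3)

/-- The root vector. -/
def rv {R : Type*} [CommRing R] (w : R) : J → Fin 5 → R
  | .inl (i, j, k) => Pi.single i 1 - w ^ k.val • Pi.single j 1
  | .inr (x, y, z) => ![w ^ x.val, w ^ y.val, w ^ z.val, (w ^ x.val * w ^ y.val * w ^ z.val) ^ 2, 1]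

/-- Three times the coroot. -/
def rg {R : Type*} [CommRing R] (w : R) : J → Fin 5 → R
  | .inl (i, j, k) => (3 : R) • (Pi.single i 1 - (w ^ k.val) ^ 2 • Pi.single j 1)
  | .inr (x, y, z) => ![(w ^ x.val) ^ 2, (w ^ y.val) ^ 2, (w ^ z.val) ^ 2,
      ((w ^ x.val * w ^ y.val * w ^ z.val) ^ 2) ^ 2, 2]

/-- The numbering of the reflections. -/
def idx (n : Fin 45) : J :=
  if n.val < 18 then .inl (![0, 0, 0, 1, 1, 2] (Fin.ofNat 6 (n / 3)),
    ![1, 2, 3, 2, 3, 3] (Fin.ofNat 6 (n / 3)), Fin.ofNat 3 n)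
  else .inr (Fin.ofNat 3 ((n - 18) / 9), Fin.ofNat 3 (n / 3), Fin.ofNat 3 n)

/-- The conjugation table. -/
def tl : List ℕ := [nat_lit 0x2caea8e285a658a689e07de5d656696475c6d44d24503c81c61440ce34c2ca241080,
  nat_lit 0x1d71b5134a69648e285a658b2baa07de5d6569a274503c62070c510d30e2892c0042,
  nat_lit 0x17595a689e07de5134a696475c6da658b2baa38a14503c718810314c38d24b282001,
  nat_lit 0x2c8daa605e6754ae26687d695c4ea8589de5646d220718e34c04201140f1050ca2c9,
  nat_lit 0x2162a7959db4a48dab205e97549a266b7d6a1c4e51881ce34c0800503d10c414b24a,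
  nat_lit 0x19ae25a87d395c62a8559de4a46dab235e981499d1c620e34c00108f45014310928b,
  nat_lit 0x1a8aa8285664db8eb62959e51c92c6615df9dd9521050c10802ca2472064113cd38c,
  nat_lit 0x2c6615df9dd9526a2aa0a159936e3ad8a567947241431020012ca2461c844f40e30d,
  nat_lit 0x23ad8a56794724b198577e776549a8aa8285664db0c41400422ca2481873d044c34e,
  nat_lit 0x2ca66ae896a9e48e07627dc85e6da5d46564d855238d31140f28b2481c6081005103,
  nat_lit 0x2792aa66b2896b79b8607637dc8954985d46964d930e3503d124a2c81c6040083144,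
  nat_lit 0x25ae892a9e6b297227db85e76381365649855469734c38f4502c92881c60020440c5,
  nat_lit 0x26a2aa6b92c9678226e371e75f85a4d551661765228b24d38c4113c20401440c81c6,
  nat_lit 0x2c9679a8aa9ae475f86089b8dc7976526935545982c928c34e44f4010021440c6207,
  nat_lit 0x29ae4b259e6a2a8dc79d7e18226d45985d949a4d524a2ce30d3d04400811440c7188,
  nat_lit 0x2aaeca299e69258a386079f6dc75a6195565d35124113cb28938d305103207182040,
  nat_lit 0x2caab9e8a659a48628df81e75b7196985d55924d43d044a24b30e3440c51881c2040,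
  nat_lit 0x2bb2aa67a249668e189e7e071d6d865a59755449344f4092ca34c3831441c6202040,
  nat_lit 0x1fadea6805c1078e20a0b2a16621628d2da3904524d43d560c5d925b9067650e19c0,
  nat_lit 0x2c7e0a419c519d8c286aade9070cb31760d24f4d149050e59968a5487259846e2a00,
  nat_lit 0x207aa0689c86c30a286c7eb18494e54930a6543d04524da3572d66261dd15c923a40,
  nat_lit 0x2cac27c41a29618e6905a4775c00a50c3d055924e4565d23582da4c87a78280ea05b,
  nat_lit 0x2c0aa1488268a39258671837406d238b45640a35a5d53d94cc6142681dfa447ab05c,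
  nat_lit 0x2aea1de0e38649a294812801c6cd2535d13cc60b59054e69448a660a4615f9ec05d,
  nat_lit 0x221087286e694016c1a07c17699d13d84cb3095cd69064e49558a52a1e18eb0c27a4,
  nat_lit 0x51e3a5c766024a880e005e9e86d064f24e51530a45a6163532d25e2ac6b048427e5,
  nat_lit 0x684375b9c09641c4ac17dea5ca1a41135228e2d66193d45cc4d52488ec162a82826,
  nat_lit 0x2cac1a5a6045067ca30b8cd3d06e86675d60250c845c74e7a18222521e41664c2a95,
  nat_lit 0x2c06a6199d22052ce82130945c41aa295c05441e675b3e235f8ca7a54c69140c2ad6,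
  nat_lit 0x1aea6a86470d335e24e2a27513e99d80165469057106e08cc2df848994484942b17,
  nat_lit 0x2c51211722694229d3913de88935a641a031eb4ea8107e16cc2e37275461695a4600,
  nat_lit 0x124ea5471660a46cd2d07cf28c8da058106a54aec46078e89c85d248a169d70e5640,
  nat_lit 0x14ad31835829643097204113a12c165822716ca9279f3dd3636ca8971e9544a26680,
  nat_lit 0x4687a680265d541185c2ce26032b0c69569144c28a33de35b7ca748a9816c652067,
  nat_lit 0x18185a409d55a43e244935d78e28422c5e59940928508dc7cc2db8191eba9a0d3068,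
  nat_lit 0x80d90289d79568cf40c6ca34b7c7a859a45424d246188e76071e26c686604ad4069,
  nat_lit 0x2828e2ec3113e45a25607c24c519a6405e384374799096a367a6b24849b70451e058,
  nat_lit 0xb369a8e25094f8d65e009e0c851a01886255b184466928accb0a9dc1d315275f059,
  nat_lit 0xc9c934aae64115d58427de1d21006588d688815c9253cea6c2e8a947464db0e005a,
  nat_lit 0xa98d4119eb24c8e201614865c61a75b0e01944c1a293ceaa42ec95e1d57c45c24a1,
  nat_lit 0x2430b3e844a3ac8c08431d775969b7187881140529d0a6536baa62567c61558024e2,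
  nat_lit 0xe265a4f40da8b0228465446986dd65c1c57c14d2467a2c98c90aac85e059e0c2523,
  nat_lit 0xf42a94b349a4e6451d37d275c0438c85d609481e46bb249cca0a9988468846956c0,
  nat_lit 0x11ad024c9a734a0c66a04d47416e11c45c255e7d2b2a3ce9682e4a486621588d6700,
  nat_lit 0x2c44f3a428c2e821811449e05c6c61620965604dfad0aa93669672631da6610d7740]

/-- The conjugation table. -/
noncomputable def tt (i j : Fin 45) : Fin 45 := Fin.ofNat 45 (app 6 64 (nth tl i) j)

/-- Admissible parameters. -/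
def Ok : J → Prop
  | .inl (i, j, _) => i ≠ j ∧ i ≠ 4 ∧ j ≠ 4
  | .inr _ => True

instance decOk : DecidablePred Ok := fun x => by
  rcases x with ⟨i, j, k⟩ | x <;> unfold Ok <;> infer_instance

/-- The coded roots. -/
def vl : List ℕ := [nat_lit 0x1b6db69c, nat_lit 0x1b6db4dc, nat_lit 0x1b6db91c,
  nat_lit 0x1b6da6dc, nat_lit 0x1b6d36dc, nat_lit 0x1b6e46dc, nat_lit 0x1b69b6dc,
  nat_lit 0x1b4db6dc, nat_lit 0x1b91b6dc, nat_lit 0x1b6da71b, nat_lit 0x1b6d371b,
  nat_lit 0x1b6e471b, nat_lit 0x1b69b71b, nat_lit 0x1b4db71b, nat_lit 0x1b91b71b,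
  nat_lit 0x1b69c6db, nat_lit 0x1b4dc6db, nat_lit 0x1b91c6db, nat_lit 0x1c71c71c,
  nat_lit 0x1c4a371c, nat_lit 0x1c8d271c, nat_lit 0x1c49c8dc, nat_lit 0x1c8e38dc,
  nat_lit 0x1c7128dc, nat_lit 0x1c8dc49c, nat_lit 0x1c72349c, nat_lit 0x1c49249c,
  nat_lit 0x1c49c723, nat_lit 0x1c8e3723, nat_lit 0x1c712723, nat_lit 0x1c8dc8e3,
  nat_lit 0x1c7238e3, nat_lit 0x1c4928e3, nat_lit 0x1c71c4a3, nat_lit 0x1c4a34a3,
  nat_lit 0x1c8d24a3, nat_lit 0x1c8dc712, nat_lit 0x1c723712, nat_lit 0x1c492712,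
  nat_lit 0x1c71c8d2, nat_lit 0x1c4a38d2, nat_lit 0x1c8d28d2, nat_lit 0x1c49c492,
  nat_lit 0x1c8e3492, nat_lit 0x1c712492]

/-- The coded coroots. -/
def gl : List ℕ := [nat_lit 0x1b6db61e, nat_lit 0x1b6dbd9e, nat_lit 0x1b6db0de,
  nat_lit 0x1b6d86de, nat_lit 0x1b6f66de, nat_lit 0x1b6c36de, nat_lit 0x1b61b6de,
  nat_lit 0x1bd9b6de, nat_lit 0x1b0db6de, nat_lit 0x1b6d879b, nat_lit 0x1b6f679b,
  nat_lit 0x1b6c379b, nat_lit 0x1b61b79b, nat_lit 0x1bd9b79b, nat_lit 0x1b0db79b,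
  nat_lit 0x1b61e6db, nat_lit 0x1bd9e6db, nat_lit 0x1b0de6db, nat_lit 0x1d71c71c,
  nat_lit 0x1d8d271c, nat_lit 0x1d4a371c, nat_lit 0x1d8dc49c, nat_lit 0x1d49249c,
  nat_lit 0x1d72349c, nat_lit 0x1d49c8dc, nat_lit 0x1d7128dc, nat_lit 0x1d8e38dc,
  nat_lit 0x1d8dc712, nat_lit 0x1d492712, nat_lit 0x1d723712, nat_lit 0x1d49c492,
  nat_lit 0x1d712492, nat_lit 0x1d8e3492, nat_lit 0x1d71c8d2, nat_lit 0x1d8d28d2,
  nat_lit 0x1d4a38d2, nat_lit 0x1d49c723, nat_lit 0x1d712723, nat_lit 0x1d8e3723,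
  nat_lit 0x1d71c4a3, nat_lit 0x1d8d24a3, nat_lit 0x1d4a34a3, nat_lit 0x1d8dc8e3,
  nat_lit 0x1d4928e3, nat_lit 0x1d7238e3]

/-- Decoding of a vector. -/
noncomputable def dec (l : List ℕ) (n r : ℕ) : Zw :=
  force (app 6 64 (nth l n) r) fun c => ⟨Int.subNatNat (Nat.mod c 8) 3, Int.subNatNat (Nat.div c 8) 3⟩

/-- Evaluate an integer. -/
noncomputable def fi (x : ℤ) (k : ℤ → Bool) : Bool :=
  Int.rec (fun n => force n fun n => k (Int.ofNat n)) (fun n => force n fun n => k (Int.negSucc n)) x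

/-- Evaluate an Eisenstein integer. -/
noncomputable def fz (x : Zw) (k : Zw → Bool) : Bool := fi x.re fun a => fi x.im fun b => k ⟨a, b⟩

/-- `x y + z`. -/
def ma (x y z : Zw) : Zw :=
  ⟨Int.add (Int.sub (Int.mul x.re y.re) (Int.mul x.im y.im)) z.re,
    Int.add (Int.add (Int.mul x.re y.im) (Int.mul x.im (Int.sub y.re y.im))) z.im⟩

/-- The dot product. -/
noncomputable def dt (i j : ℕ) : Zw :=
  ma (dec gl i 0) (dec vl j 0) (ma (dec gl i 1) (dec vl j 1) (ma (dec gl i 2) (dec vl j 2)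
    (ma (dec gl i 3) (dec vl j 3) (ma (dec gl i 4) (dec vl j 4) ⟨0, 0⟩))))

/-- The check of the conjugation table. -/
noncomputable def chk (i j : ℕ) : Bool :=
  force (app 6 64 (nth tl i) j) fun t => fz (dt i j) fun a => fz (dt j i) fun b =>
    allN 5 fun r => fz (ma a (dec vl i r) (ma ⟨-3, 0⟩ (dec vl j r) ⟨0, 0⟩)) fun x =>
      fz (ma ⟨-9, 0⟩ (dec vl t r) ⟨0, 0⟩) fun y => allN 5 fun s =>
        fz (ma b (dec gl i s) (ma ⟨-3, 0⟩ (dec gl j s) ⟨0, 0⟩)) fun z => fz (dec gl t s) fun u =>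
          fz (ma x z (ma y u ⟨0, 0⟩)) fun e => decide (e.re = 0) && decide (e.im = 0)

theorem tab : allN 45 (fun i => allN 45 fun j => chk i j) = true := by
  decide +kernel

theorem fz_eq (x : Zw) (k : Zw → Bool) : fz x k = k x := by
  have : ∀ (x : ℤ) (k : ℤ → Bool), fi x k = k x := fun x k => by cases x <;> simp [fi]
  rw [fz, this, this]

theorem ma_eq (x y z : Zw) : ma x y z = x * y + z := by
  have : ∀ a b : ℤ, a.sub b = a - b := fun _ _ => rfl
  ext <;> simp [ma, Int.add_def, this, Int.mul_def] <;> ring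

/-- The root with number `n`. -/
noncomputable def vz (n : Fin 45) (r : Fin 5) : Zw := dec vl n r

/-- The coroot with number `n`. -/
noncomputable def gz (n : Fin 45) (r : Fin 5) : Zw := dec gl n r

theorem tt_lt : ∀ i j : Fin 45, app 6 64 (nth tl i) j < 45 := by decide +kernel

theorem tabZ (i j : Fin 45) (r s : Fin 5) : ((gz i ⬝ᵥ vz j) * vz i r - 3 * vz j r) *
    ((gz j ⬝ᵥ vz i) * gz i s - 3 * gz j s) = 9 * (vz (tt i j) r * gz (tt i j) s) := by
  have h := allN_iff.1 (allN_iff.1 tab i i.2) j j.2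
  simp only [chk, force_eq, fz_eq, allN_iff, Bool.and_eq_true, decide_eq_true_eq] at h
  have h1 : _ = (0 : Zw) := QuadraticAlgebra.ext (h r r.2 s s.2).1 (h r r.2 s s.2).2
  have e : ((tt i j : Fin 45) : ℕ) = app 6 64 (nth tl i) j := Nat.mod_eq_of_lt (tt_lt i j)
  have e0 : (⟨0, 0⟩ : Zw) = 0 := rfl
  have e3 : (⟨-3, 0⟩ : Zw) = -3 := rfl
  have e9 : (⟨-9, 0⟩ : Zw) = -9 := rfl
  simp only [dt, ma_eq, e0, e3, e9, ← e] at h1
  simp only [dotProduct, Fin.sum_univ_five, vz, gz, Fin.val_zero, Fin.val_one, Fin.val_two,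
    show ((3 : Fin 5) : ℕ) = 3 from rfl, show ((4 : Fin 5) : ℕ) = 4 from rfl]
  linear_combination h1

theorem idx_ok : ∀ n : Fin 45, Ok (idx n) ∧ ∀ r, vz n r = rv QuadraticAlgebra.omega (idx n) r ∧
    gz n r = rg QuadraticAlgebra.omega (idx n) r := by decide +kernel

theorem idx_surj : ∀ x : J, Ok x → ∃ n : Fin 45, ∀ r s,
    rv QuadraticAlgebra.omega x r * rg QuadraticAlgebra.omega x s = vz n r * gz n s := by
  decide +kernel

theorem map_rv (φ : Zw →+* K) (w : Zw) (x : J) (r : Fin 5) :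
    φ (rv w x r) = rv (φ w) x r ∧ φ (rg w x r) = rg (φ w) x r := by
  rcases x with ⟨i, j, k⟩ | ⟨x, y, z⟩
  · simp [rv, rg, Pi.single_apply, apply_ite φ, map_ofNat]
  · fin_cases r <;> simp [rv, rg, map_ofNat]

theorem root_iff (h3 : (3 : K) ≠ 0) {ω : K} (hω : ω ^ 2 + ω + 1 = 0) {v f : V5 K} :
    G33R v f ↔ ∃ x, Ok x ∧ v = rv ω x ∧ f = (3 : K)⁻¹ • rg ω x := by
  have c3 : ∀ k : ℕ, (ω ^ k) ^ 3 = 1 := fun k => by
    rw [← pow_mul, mul_comm, pow_mul, show ω ^ 3 = 1 by linear_combination (ω - 1) * hω, one_pow]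
  have ex : ∀ a : K, a ^ 3 = 1 → ∃ k : Fin 3, a = ω ^ k.val := fun a ha => by
    have : (a - 1) * (a - ω) * (a - ω ^ 2) = 0 := by
      linear_combination ha - (a ^ 2 - ω * a + ω - 1) * hω
    rcases mul_eq_zero.1 this with e | e
    · rcases mul_eq_zero.1 e with e | e
      exacts [⟨0, by simpa [sub_eq_zero] using e⟩, ⟨1, by simpa [sub_eq_zero] using e⟩]
    · exact ⟨2, sub_eq_zero.1 e⟩
  constructor
  · rintro (⟨i, j, a, h1, h2, h4, ha, rfl, rfl⟩ | ⟨a, b, c, d, ha, hb, hc, hd, e, rfl, rfl⟩)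
    · obtain ⟨k, rfl⟩ := ex a ha
      exact ⟨.inl (i, j, k), ⟨h1, h2, h4⟩, rfl, (inv_smul_smul₀ h3 _).symm⟩
    · obtain rfl : d = (a * b * c) ^ 2 := by
        linear_combination (a * b * c) ^ 2 * e - d * b ^ 3 * c ^ 3 * ha - d * c ^ 3 * hb - d * hc
      obtain ⟨x, rfl⟩ := ex a ha
      obtain ⟨y, rfl⟩ := ex b hb
      obtain ⟨z, rfl⟩ := ex c hc
      exact ⟨.inr (x, y, z), trivial, rfl, rfl⟩
  · rintro ⟨⟨i, j, k⟩ | ⟨x, y, z⟩, h, rfl, rfl⟩
    · exact Or.inl ⟨i, j, _, h.1, h.2.1, h.2.2, c3 k, rfl, inv_smul_smul₀ h3 _⟩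
    · have : (ω ^ x.val * ω ^ y.val * ω ^ z.val) ^ 3 = 1 := by simp only [mul_pow, c3, mul_one]
      exact Or.inr ⟨_, _, _, _, c3 x, c3 y, c3 z, by rw [← pow_mul, mul_comm 2, pow_mul, this, one_pow],
        by rw [← pow_succ', this], rfl, rfl⟩

/-- The reflections of the group form a family with the conjugation table `tt`. -/
theorem exists_family (h : Hyp ρ π) (e : IsG33 (sgn ρ)) : ∃ g : Fin 45 → Γ,
    (∀ i j, g i * g j * (g i)⁻¹ = g (tt i j)) ∧ Subgroup.closure (Set.range g) = ⊤ := by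
  obtain ⟨h2, h3, ⟨ω, hω⟩, B, e⟩ := e
  rw [cnj_sgn] at e
  replace h := h.cnj B
  generalize cnj ρ B = τ at h e
  let φ : Zw →+* K := (QuadraticAlgebra.lift (R := ℤ) (a := -1) (b := -1) ⟨ω, by
    simp only [neg_smul, one_smul]; linear_combination hω⟩ : Zw →ₐ[ℤ] K)
  have hφ : φ QuadraticAlgebra.omega = ω := by simp [φ]
  let v : Fin 45 → V5 K := fun n r => φ (vz n r)
  let f : Fin 45 → V5 K := fun n r => 3⁻¹ * φ (gz n r)
  have hD : ∀ n, D (sgn τ) (v n) (f n) := fun n => (e _ _).2 ⟨1, _, _, one_ne_zero,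
    (root_iff h3 hω).2 ⟨_, (idx_ok n).1, rfl, rfl⟩,
    funext fun r => by simp [v, ((idx_ok n).2 r).1, (map_rv φ _ _ _).1, hφ],
    funext fun r => by simp [f, ((idx_ok n).2 r).2, (map_rv φ _ _ _).2, hφ]⟩
  have pos : ∀ {k a b}, D (sgn τ) a b → τ k ≠ 1 - vecMulVec a b := fun {k a b} d hk => by
    have := h.det k
    rw [hk, sub_eq_add_neg, ← neg_vecMulVec, det_one_add_vv, dotProduct_neg, d.1] at this
    exact h2 (by linear_combination -this)
  choose g hg using fun n => (in_sgn.1 (hD n).2.2.2).imp fun k hk => hk.resolve_left (pos (hD n))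
  have hi : ∀ n, τ (g n)⁻¹ = -(1 - vecMulVec (v n) (f n)) := fun n =>
    rho_inv_eq (by rw [hg, neg_mul_neg, refl_sq (hD n).1])
  refine ⟨g, fun i j => h.inj ?_, eq_top_iff.2 fun k _ => ind h (hD 0) _ (fun k a b d hk => ?_) k⟩
  · have e1 : τ (g i * g j * (g i)⁻¹) =
        -(1 - vecMulVec (τ (g i) *ᵥ v j) (f j ᵥ* τ (g i)⁻¹)) := by
      rw [map_mul, map_mul, hg j, mul_neg, neg_mul, mul_sub, sub_mul, mul_one, mul_inv_rho,
        mul_vecMulVec, vecMulVec_mul]
    rw [e1, hi, hg, hg, neg_mulVec, vecMul_neg, neg_vecMulVec, vecMulVec_neg, neg_neg, sub_mulVec,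
      one_mulVec, vv_mulVec, vecMul_sub, vecMul_one, vecMul_vv]
    congr 2
    ext r s
    have := congrArg φ (tabZ i j r s)
    simp only [dotProduct, map_mul, map_sub, map_sum, map_ofNat] at this
    simp only [vecMulVec_apply, Pi.sub_apply, Pi.smul_apply, smul_eq_mul, dotProduct, v, f,
      mul_assoc, ← Finset.mul_sum]
    field_simp
    linear_combination this
  · obtain ⟨c, a, b, hc, r, rfl, rfl⟩ := (e _ _).1 d
    obtain ⟨x, hx, rfl, rfl⟩ := (root_iff h3 hω).1 r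
    obtain ⟨n, hn⟩ := idx_surj x hx
    refine Subgroup.subset_closure ⟨n, h.inj ?_⟩
    rw [hg, hk.resolve_left (pos d), vv_smul hc]
    congr 2
    ext r s
    have := congrArg φ (hn r s)
    rw [map_mul, map_mul, (map_rv φ _ _ _).1, (map_rv φ _ _ _).2, hφ] at this
    simp only [vecMulVec_apply, Pi.smul_apply, smul_eq_mul, v, f]
    linear_combination -3⁻¹ * this

/-- The involutions of the model of `U₄(2)`. -/
def bl : List ℕ := [nat_lit 0x5d495365d41f81a89b71e8d89c326690f2e148e34444a5461c814c582001,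
  nat_lit 0x6165598a37906a14c56df9275e69407474603ce2ca34c2464887040420d4,
  nat_lit 0x9c12624e47de86065c1507576005438d235a1ce44c2c49463c86ca502996,
  nat_lit 0x81f69c2626e799e6248650dd51559740f4534862cc3448c81ce04a642140,
  nat_lit 0x8e29259e65457d96d475779669885c4d22c01c634a44c0483ce8040c2250,
  nat_lit 0x6651715f60988355a59c66191b7650073503c64442ca80848e8cc7829d3,
  nat_lit 0x62224f2a648d7c32db7046675cc55142151390e81676394804215a7861c0,
  nat_lit 0x5df54c46228f9991dc14b7989cd9520148d080e5a46a12487426c10c6113,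
  nat_lit 0x9e694d49f44c89e1056c70d760f24a4e384058e92005454868271d6462d0,
  nat_lit 0x9a77a15989145e57504da5627e36606cf35c48844a2cc0ce1c6004242045,
  nat_lit 0x79b4e469c0601675229a35c365601d9472c93c834c44440e4867ca602855,
  nat_lit 0x4e59818c985d55b80379615001a7d49d24581c82c434a88e3c664c702917,
  nat_lit 0x9cb5618d192034c51b71629761a95d49388f40e7de999242006143108047,
  nat_lit 0x5cf2416878544917456e32d89d656011f78a98e0c065094288671334890c,
  nat_lit 0x60a96458c05d10781c15a3e75e325434300b64e4e24265427866df488851,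
  nat_lit 0x2e62a169f91d8998123e378d45631441c5d36c26159e51081461c90ce040,
  nat_lit 0x49f3648e205498374c1166473da2e04e72405c295c54544860629b78e850,
  nat_lit 0x3221c15a68607de50b45a0ca12349d0156d02421677183c894635764e913,
  nat_lit 0x8d63649cc84955111c6cb5ca6667c34d27903c596269880008139d507188,
  nat_lit 0x9a73868a384f49b65a79c74a50c55721f4508250962d82531641c310d040,
  nat_lit 0x9cb36449c19e6a06e275f3ce5d55914e350865894c9820d01611c424a040,
  nat_lit 0x9a74e428c19f80855c3906563d875295409a5db3622e311e0211490d1047,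
  nat_lit 0x81496415c86749e2e24476503c056635f6d85c94cc74a3836818c2204196,
  nat_lit 0x9cb6864dd84c55e89446521838d7dc8d26ca0975a09901191e40090cf045,
  nat_lit 0x2e650664884d7d14ce6d78d068f4a575579859c8029ca0e202414424c047,
  nat_lit 0x2e696446219021a60c59e5dd65b38a3428e03d54dc9d425f1e1003112045,
  nat_lit 0x3884e42628457db1cc7843d85c348095544a66735c0908e674181a58b194,
  nat_lit 0x48f9258c979f82110e6c62835163174e744899c35509989005a15d60b1c0,
  nat_lit 0x49494d8d160f5c76cb75a1617c63a64e789081590270a24079664404c0c8,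
  nat_lit 0x39b79919d28912588b99a9185d63112025103e70d57218131e305f352140,
  nat_lit 0x80f1e21a44675de4dc6da20d7d601275484b98560c4020599633840ca255,
  nat_lit 0x4db3978d17d08482d498664d91655c9d28a03e560074525e09a2810c710c,
  nat_lit 0x9c11cf8c96cc11e55085a64e5c674049345c9180a02c588395629f20d994,
  nat_lit 0x4c878c8e254d7e561c39a29d1068439d224b09b8244194661d615750f001,
  nat_lit 0x669531884857c76503da74311654a92109c6c93402d43a27a38176119cc,
  nat_lit 0x9e651c8e241e2201e43c61583960254932616d70cc04a45f75a6423442d5,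
  nat_lit 0x7a59a266462036719c38b8e14555942035d025b7cc68a3d305d1424841c0,
  nat_lit 0x8ca94d9d87c685a74311e2e244c5544d25c80899166663901e005b70f140,
  nat_lit 0x9c19254872a014c75a11c5583836464e309025735e2e13c08947db591988,
  nat_lit 0x31669729846035e74e6e56629262c61028493dc7e75634031d4153212001,
  nat_lit 0x30a9538a36e015e19284721601839491c44f4153670a625969d7c10cb117,
  nat_lit 0x3a598f1474066887524df6585cd2d46dc02192758254a05e8a08c40cc251,
  nat_lit 0x6628c26278622175c6d054700f65410345a5850a42e58df62039348d9d7,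
  nat_lit 0x78839c4624a07e77644d72c76805466e18cf42514c64226661434404a0d6,
  nat_lit 0x9e62994c85607cc18358490e5db8548d20093d815e06542209d35a7072d1]

theorem bl_mem : H56.memOK 6 64 40 H56.U42.certL bl = true := by decide +kernel

theorem bl_tab : ∀ i j : Fin 45, comp 6 64 40 (nth bl i) (nth bl j) =
    comp 6 64 40 (nth bl (tt i j)) (nth bl i) := by decide +kernel

theorem bl_inj : ∀ i j : Fin 45, nth bl i = nth bl j → i = j := by decide +kernel

theorem bl_nth : (∀ i : Fin 45, nth bl i ∈ bl) ∧ ∀ P ∈ bl, ∃ i : Fin 45, nth bl i = P := by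
  decide +kernel

theorem bl_gen : slpOK 6 64 40 bl [[12, 16, 36, 88], [22, 30, 68, 78]] H56.U42.gens = true := by
  decide +kernel

theorem exists_model : ∃ b : Fin 45 → H56.U42.K, (∀ i j, b i * b j * (b i)⁻¹ = b (tt i j)) ∧
    Function.Injective b ∧ Subgroup.closure (Set.range b) = ⊤ := by
  choose b hb using fun i => H56.U42.chain.cd_ex (MulEquiv.refl _) bl_mem (bl_nth.1 i)
  refine ⟨b, fun i j => ?_, fun i j e => bl_inj i j (by rw [← hb, ← hb, e]), ?_⟩
  · rw [mul_inv_eq_iff_eq_mul, ← H56.U42.E.cd_inj (MulEquiv.refl _), Enc.cd_mul, Enc.cd_mul]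
    simp only [hb, bl_tab i j]
  · refine Subgroup.map_injective (Subgroup.subtype_injective _) (le_antisymm
      (Subgroup.map_mono le_top) ?_)
    rw [← MonoidHom.range_eq_map, Subgroup.range_subtype]
    refine Enc.grp_le (Enc.inG_of_slpOK _ (fun P hP => ?_) bl_gen)
    obtain ⟨i, rfl⟩ := bl_nth.2 P hP
    exact ⟨b i, ⟨_, Subgroup.subset_closure ⟨i, rfl⟩, rfl⟩, hb i⟩

end G33

open G33

theorem Hyp.g33_iso (h : Hyp ρ π) (e : IsG33 (sgn ρ)) : IsU42 X := by
  obtain ⟨g, h1, h2⟩ := exists_family h e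
  obtain ⟨b, h3, h4, h5⟩ := exists_model
  have hF := H56.TF.card H56.F4
  obtain ⟨ψ⟩ := H56.U42.equiv hF
  have : Fact (Fintype.card (H56.TF H56.F4) = 2 ^ 2) := ⟨hF⟩
  have := H10.psu_isSimpleGroup (F := H56.TF H56.F4) (q := 2) (n := 4) (by decide) (by decide)
  have := ψ.symm.isSimpleGroup
  have := h.simple
  obtain ⟨χ⟩ := iso_of_table (π ∘ g) b tt (fun i j => by simp [← h1]) h3 h4 (by
    rw [Set.range_comp, ← MonoidHom.map_closure, h2, ← MonoidHom.range_eq_map,
      MonoidHom.range_eq_top.2 h.surj]) h5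
    ((inferInstance : (Subgroup.center X).Normal).eq_bot_or_eq_top.resolve_right fun e =>
      h.nonab ⟨⟨fun x y => Subgroup.mem_center_iff.1 (e ▸ Subgroup.mem_top y) x⟩⟩)
  exact ⟨_, _, _, hF, ⟨χ.trans ψ.symm⟩⟩

end Cfsg.Agent.D5
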