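import Cfsg.Agent.DIM5.Calc

/-!
`L₂(11)` in `SL₅(3)`: finite checks.
-/

set_option autoImplicit false

open Matrix

namespace Cfsg.Agent.D5.L113

abbrev Z3 := ZMod 3

/-- Vectors as tuples. -/
structure Q5 where
  a : Z3
  b : Z3
  c : Z3
  d : Z3
  e : Z3
deriving DecidableEq

def fv (y : V5 Z3) : Q5 := ⟨y 0, y 1, y 2, y 3, y 4⟩

theorem fv_inj : Function.Injective fv := fun x y h => by
  simp only [fv, Q5.mk.injEq] at h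
  ext i; fin_cases i <;> simp [h]

def U1 : M5 Z3 :=
  !![1, 0, 0, -1, -1; 1, 0, 0, -1, 1; -1, 1, 0, -1, 1; 0, 0, 0, -1, -1; -1, 0, 1, -1, 0]
def T1 : M5 Z3 := !![0, 0, 0, 0, 1; 1, 0, 0, 0, 0; 0, 1, 0, 0, 0; 0, 0, 1, 0, 0; 0, 0, 0, 1, 0]
def G0 : M5 Z3 := !![0, 0, -1, 0, 1; 0, 1, 0, 0, 1; -1, 0, 0, 0, -1; 0, 0, 0, 1, 0; 0, 0, 0, 0, -1]
def E0 : M5 Z3 := !![1, 1, 0, 0, 0; 0, 1, 0, 0, 0; 0, 0, 1, 0, 0; 0, 0, 0, 1, 0; 0, 0, 0, 0, 1]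

def u : Q5 → Q5 := fun ⟨a, b, c, d, e⟩ => ⟨a - d - e, a - d + e, b - a - d + e, -d - e, c - a - d⟩
def t : Q5 → Q5 := fun ⟨a, b, c, d, e⟩ => ⟨e, a, b, c, d⟩
def g : Q5 → Q5 := fun ⟨a, b, c, d, e⟩ => ⟨e - c, b + e, -a - e, d, -e⟩
def el : Q5 → Q5 := fun ⟨a, b, c, d, e⟩ => ⟨a + b, b, c, d, e⟩
def ng : Q5 → Q5 := fun ⟨a, b, c, d, e⟩ => ⟨-a, -b, -c, -d, -e⟩
def sm : Q5 → Z3 := fun ⟨a, b, c, d, e⟩ => a + b + c + d + e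
def w : Q5 → Q5 → Q5 := fun ⟨p, q, r, s, k⟩ ⟨a, b, c, d, e⟩ =>
  ⟨p * a + q * b + r * c + s * d + k * e, q * a + r * b + s * c + k * d + p * e,
    r * a + s * b + k * c + p * d + q * e, s * a + k * b + p * c + q * d + r * e,
    k * a + p * b + q * c + r * d + s * e⟩

theorem fv_u (y : V5 Z3) : fv (U1 *ᵥ y) = u (fv y) := by
  simp [fv, u, U1, mulVec, dotProduct, Fin.sum_univ_five]
  refine ⟨?_, ?_, ?_, ?_, ?_⟩ <;> ring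

theorem fv_t (y : V5 Z3) : fv (T1 *ᵥ y) = t (fv y) := by
  simp [fv, t, T1, mulVec, dotProduct, Fin.sum_univ_five]

theorem fv_g (y : V5 Z3) : fv (G0 *ᵥ y) = g (fv y) := by
  simp [fv, g, G0, mulVec, dotProduct, Fin.sum_univ_five]
  refine ⟨?_, ?_⟩ <;> ring

theorem fv_e (y : V5 Z3) : fv (E0 *ᵥ y) = el (fv y) := by
  simp [fv, el, E0, mulVec, dotProduct, Fin.sum_univ_five]

theorem fv_neg (y : V5 Z3) : fv (-y) = ng (fv y) := rfl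

theorem fv_w {W : M5 Z3} (h : T1 * W * T1 = W) (y : V5 Z3) :
    fv (W *ᵥ y) = w (fv fun i => W i 0) (fv y) := by
  have hT : ∀ i j, T1 i j = if i = j + 1 then 1 else 0 := fun i j => by
    fin_cases i <;> fin_cases j <;> rfl
  have k : ∀ i j, W i (j + 1) = W (i + 1) j := fun i j => by
    conv_rhs => rw [← h]
    simp [mul_apply, hT]
  have k1 : ∀ i, W i 1 = W (i + 1) 0 := fun i => k i 0
  have k2 : ∀ i, W i 2 = W (i + 1 + 1) 0 := fun i => (k i 1).trans (k1 _)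
  have k3 : ∀ i, W i 3 = W (i + 1 + 1 + 1) 0 := fun i => (k i 2).trans (k2 _)
  have k4 : ∀ i, W i 4 = W (i + 1 + 1 + 1 + 1) 0 := fun i => (k i 3).trans (k3 _)
  simp only [fv, w, mulVec, dotProduct, Fin.sum_univ_five, k1, k2, k3, k4]
  rfl

def R0 : List Q5 := [⟨2, 2, 2, 2, 2⟩, ⟨1, 2, 0, 2, 1⟩, ⟨1, 0, 0, 0, 0⟩, ⟨1, 1, 2, 0, 2⟩,
  ⟨2, 0, 2, 1, 1⟩, ⟨0, 2, 1, 1, 2⟩, ⟨0, 1, 0, 0, 0⟩, ⟨0, 0, 1, 0, 0⟩, ⟨0, 0, 0, 0, 1⟩,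
  ⟨2, 1, 1, 2, 0⟩, ⟨0, 0, 0, 1, 0⟩]

def R1 : List Q5 := R0 ++ R0.map ng

def orb : ℕ → Q5 → List Q5
  | 0, _ => []
  | n + 1, y => y :: orb n (u y)

theorem c_u : ∀ y ∈ R0, u y ∈ R0 := by decide +kernel
theorem c_w : ∀ y ∈ R0, w ⟨0, 1, 0, 0, 0⟩ y ∈ R0 := by decide +kernel
theorem c_g : ∀ y ∈ R1, g y ∈ R1 := by decide +kernel
theorem c_n : ∀ y ∈ R1, ng y ∈ R1 := by decide +kernel
theorem c_s : ∀ y ∈ R1, y ∈ R0 ∨ ng y ∈ R0 := by decide +kernel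
theorem c_0 : ⟨0, 0, 0, 0, 0⟩ ∉ R0 := by decide +kernel
theorem c_e : el ⟨0, 1, 0, 0, 0⟩ ∉ R1 ∧ ⟨0, 1, 0, 0, 0⟩ ∈ R1 := by decide +kernel
theorem c_gu : g (u (g ⟨2, 2, 2, 2, 2⟩)) ∉ R0 ∧ ⟨2, 2, 2, 2, 2⟩ ∈ R0 := by decide +kernel

theorem c_nd : ∀ a b c d e : Z3, (t ⟨a, b, c, d, e⟩ :: orb 11 ⟨a, b, c, d, e⟩).Nodup ∨
    (⟨a, b, c, d, e⟩ : Q5) = ⟨0, 0, 0, 0, 0⟩ ∨ ⟨a, b, c, d, e⟩ ∈ R1 := by
  decide +kernel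

theorem c_wf : ∀ a b c d e : Z3, u (w ⟨a, b, c, d, e⟩ (u (w ⟨a, b, c, d, e⟩ (u (w ⟨a, b, c, d, e⟩
    ⟨0, 0, 0, 0, 1⟩))))) = ⟨0, 0, 0, 0, 1⟩ → (⟨a, b, c, d, e⟩ : Q5) = ⟨0, 1, 0, 0, 0⟩ := by
  decide +kernel

theorem c_sum : ∀ a b c d e : Z3, (∀ z ∈ orb 5 ⟨a, b, c, d, e⟩, sm z = 0) →
    (⟨a, b, c, d, e⟩ : Q5) = ⟨0, 0, 0, 0, 0⟩ := by
  decide +kernel

theorem c_gg : G0 * G0 = 1 := by
  ext i j
  fin_cases i <;> fin_cases j <;> simp [G0, mul_apply, Fin.sum_univ_five]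

theorem det_g : G0.det = 1 := by
  simp [G0, det_succ_row_zero, Fin.sum_univ_succ, Fin.succAbove]

theorem det_e : E0.det = 1 := by
  simp [E0, det_succ_row_zero, Fin.sum_univ_succ, Fin.succAbove]

end Cfsg.Agent.D5.L113
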