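import Cfsg.Agent.DIM5.L113A
import Cfsg.Prelude.Def_GeometricClasses

/-!
A subgroup `L₂(11)` of `SL₅(3)` lies in `M₁₁`, so that its normaliser is not maximal.
-/

set_option autoImplicit false

open Matrix
open scoped MatrixGroups

namespace Cfsg.Agent.D5

namespace L113

theorem fix_card (A : M5 Z3) (p : ℕ) [Fact p.Prime] (h : A ^ p = 1) :
    3 ^ 5 ≡ 3 ^ Module.finrank Z3 (LinearMap.ker (toLin' (A - 1))) [MOD p] := by
  classical
  let φ : M5 Z3 →* Function.End (V5 Z3) :=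
    ⟨⟨fun M y => M *ᵥ y, funext one_mulVec⟩, fun M N => funext fun y => (mulVec_mulVec y M N).symm⟩
  let f : Function.End (V5 Z3) := φ A
  have h1 := Equiv.Perm.card_fixedPoints_modEq (f := f) (p := p) (n := 1)
    (by rw [pow_one, ← map_pow, h, map_one])
  have h2 : Nat.card f.fixedPoints = Nat.card (LinearMap.ker (toLin' (A - 1))) :=
    Nat.card_congr (Equiv.subtypeEquivRight fun y => by
      rw [LinearMap.mem_ker, toLin'_apply, sub_mulVec, one_mulVec, sub_eq_zero]; rfl)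
  rw [← Nat.card_eq_fintype_card (α := f.fixedPoints), h2,
    Module.natCard_eq_pow_finrank (K := Z3)] at h1
  simpa using h1

theorem free {U : M5 Z3} (h : U ^ 11 = 1) (h1 : U ≠ 1) {y : V5 Z3} (e : U *ᵥ y = y) : y = 0 := by
  haveI : Fact (Nat.Prime 11) := ⟨by norm_num⟩
  have h2 := fix_card U 11 h
  have h3 := Submodule.finrank_le (LinearMap.ker (toLin' (U - 1)))
  have h4 : Module.finrank Z3 (LinearMap.ker (toLin' (U - 1))) ≠ 5 := fun e => h1 (by
    have := Submodule.eq_top_of_finrank_eq (e.trans (by simp))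
    exact sub_eq_zero.1 (toLin'.map_eq_zero_iff.1 (LinearMap.ker_eq_top.1 this)))
  have h5 : Module.finrank Z3 (LinearMap.ker (toLin' (U - 1))) = 0 := by
    simp only [Module.finrank_fintype_fun_eq_card, Fintype.card_fin] at h3
    generalize Module.finrank Z3 (LinearMap.ker (toLin' (U - 1))) = d at h2 h3 h4
    interval_cases d <;> simp_all [Nat.ModEq]
  have h6 : y ∈ LinearMap.ker (toLin' (U - 1)) := by
    rw [LinearMap.mem_ker, toLin'_apply, sub_mulVec, one_mulVec, e, sub_self]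
  rwa [Submodule.finrank_eq_zero.1 h5, Submodule.mem_bot] at h6

theorem exists_fix {T : M5 Z3} (h : T ^ 5 = 1) : ∃ v : V5 Z3, v ≠ 0 ∧ T *ᵥ v = v := by
  haveI : Fact (Nat.Prime 5) := ⟨by norm_num⟩
  have h2 := fix_card T 5 h
  obtain ⟨v, hv, h0⟩ := (LinearMap.ker (toLin' (T - 1))).ne_bot_iff.1 fun e => by
    rw [e, finrank_bot] at h2
    simp [Nat.ModEq] at h2
  rw [LinearMap.mem_ker, toLin'_apply, sub_mulVec, one_mulVec, sub_eq_zero] at hv
  exact ⟨v, h0, hv⟩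

/-- The quadratic residue sum. -/
def th (U : M5 Z3) (v : V5 Z3) : V5 Z3 :=
  (U ^ 1) *ᵥ v + (U ^ 3) *ᵥ v + (U ^ 4) *ᵥ v + (U ^ 5) *ᵥ v + (U ^ 9) *ᵥ v

theorem sum_zero {U : M5 Z3} (h : U ^ 11 = 1) (h1 : U ≠ 1) (a : ℕ → V5 Z3)
    (hu : ∀ n, U *ᵥ a n = a (n + 1)) (hp : a 11 = a 0) :
    a 0 + a 1 + a 2 + a 3 + a 4 + a 5 + a 6 + a 7 + a 8 + a 9 + a 10 = 0 := by
  refine free h h1 ?_
  simp only [mulVec_add, hu, Nat.reduceAdd, hp]
  abel

theorem three (x : V5 Z3) : x + x + x = 0 := by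
  ext i
  simp only [Pi.add_apply, Pi.zero_apply]
  generalize x i = c
  revert c
  decide

theorem t_pow {U T : M5 Z3} (hT : T * U = U ^ 3 * T) (n : ℕ) : T * U ^ n = U ^ (3 * n) * T := by
  induction n with
  | zero => simp
  | succ n ih => rw [pow_succ, ← mul_assoc, ih, mul_assoc, hT, ← mul_assoc, ← pow_add, mul_add]

theorem nf {U T : M5 Z3} (h : U ^ 11 = 1) (h1 : U ≠ 1) (hT : T * U = U ^ 3 * T) {v : V5 Z3}
    (v0 : v ≠ 0) (hv : T *ᵥ v = v) (e : th U v = 0) :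
    ∃ B : (M5 Z3)ˣ, U * B.val = B.val * U1 ∧ T * B.val = B.val * T1 := by
  obtain ⟨a, ha⟩ : ∃ a : ℕ → V5 Z3, ∀ n, a n = (U ^ n) *ᵥ v := ⟨_, fun _ => rfl⟩
  have hp : ∀ n, a (n + 11) = a n := fun n => by rw [ha, ha, pow_add, h, mul_one]
  have hu : ∀ n, U *ᵥ a n = a (n + 1) := fun n => by rw [ha, ha, mulVec_mulVec, pow_succ']
  have ht : ∀ n, T *ᵥ a n = a (3 * n) := fun n => by
    rw [ha, ha, mulVec_mulVec, t_pow hT, ← mulVec_mulVec, hv]
  have r : ∀ j, a (j + 1) + a (j + 3) + a (j + 4) + a (j + 5) + a (j + 9) = 0 := fun j => by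
    have := congrArg ((U ^ j) *ᵥ ·) e
    simpa only [th, mulVec_add, mulVec_mulVec, ← pow_add, ha, mulVec_zero] using this
  have n := sum_zero h h1 a hu (hp 0)
  have r0 := r 0
  have r1 := r 1
  have r3 := r 3
  have r4 := r 4
  have r9 := r 9
  simp only [Nat.reduceAdd, hp 1, hp 2, hp 3, hp 7] at r0 r1 r3 r4 r9
  have e0 : a 11 = -a 2 - a 6 - a 7 - a 10 - a 8 := by
    rw [hp 0]; linear_combination (norm := abel1) n - r0
  have e3 : a 3 = a 2 + a 6 - a 7 - a 8 := by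
    linear_combination (norm := abel1) r0 - r3 - r4 + three (a 7) + three (a 8)
  have e9 : a 9 = -a 2 + a 6 + a 7 - a 10 := by
    linear_combination (norm := abel1) r0 - r1 - r9 + three (a 2) + three (a 10)
  let B : M5 Z3 := of fun i j => ![a 2, a 6, a 7, a 10, a 8] j i
  have hB : ∀ y : V5 Z3, B *ᵥ y = y 0 • a 2 + y 1 • a 6 + y 2 • a 7 + y 3 • a 10 + y 4 • a 8 :=
    fun y => by ext i; simp [B, mulVec, dotProduct, Fin.sum_univ_five, mul_comm]
  have hU : ∀ y, U *ᵥ (B *ᵥ y) = B *ᵥ (U1 *ᵥ y) := fun y => by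
    simp only [hB, mulVec_add, mulVec_smul, hu, Nat.reduceAdd, e0, e3, e9]
    simp [U1, mulVec, dotProduct, Fin.sum_univ_five]
    module
  have hT' : ∀ y, T *ᵥ (B *ᵥ y) = B *ᵥ (T1 *ᵥ y) := fun y => by
    simp only [hB, mulVec_add, mulVec_smul, ht, Nat.reduceMul, hp 7, hp 10, hp 19, hp 8, hp 13,
      hp 2, Nat.reduceAdd]
    simp [T1, mulVec, dotProduct, Fin.sum_univ_five]
    module
  have k1 : ∀ y, B *ᵥ y = 0 → B *ᵥ (U1 *ᵥ y) = 0 := fun y e => by rw [← hU, e, mulVec_zero]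
  have k2 : ∀ y, B *ᵥ y = 0 → B *ᵥ (T1 *ᵥ y) = 0 := fun y e => by rw [← hT', e, mulVec_zero]
  have k3 : ∀ y, B *ᵥ y = 0 → sm (fv y) = 0 := fun y e => by
    have e1 := k2 _ e
    have e2 := k2 _ e1
    have e3 := k2 _ e2
    have e4 := k2 _ e3
    have : sm (fv y) • v = 0 := by
      simp only [hB] at e e1 e2 e3 e4
      simp [T1, mulVec, dotProduct, Fin.sum_univ_five] at e1 e2 e3 e4
      rw [show v = a 11 by rw [hp 0, ha]; simp, e0]
      simp only [sm, fv]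
      linear_combination (norm := module) -e - e1 - e2 - e3 - e4
    exact (smul_eq_zero.1 this).resolve_right v0
  have inj : Function.Injective B.mulVec := by
    refine (injective_iff_map_eq_zero (toLin' B)).2 fun y e => fv_inj (c_sum _ _ _ _ _ ?_)
    change ∀ z ∈ orb 5 (fv y), sm z = 0
    simp only [orb, ← fv_u, List.mem_cons, List.not_mem_nil, or_false]
    rintro z (rfl | rfl | rfl | rfl | rfl)
    exacts [k3 _ e, k3 _ (k1 _ e), k3 _ (k1 _ (k1 _ e)), k3 _ (k1 _ (k1 _ (k1 _ e))),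
      k3 _ (k1 _ (k1 _ (k1 _ (k1 _ e))))]
  obtain ⟨C, hC⟩ := mulVec_injective_iff_isUnit.1 inj
  refine ⟨C, ?_, ?_⟩ <;> rw [hC] <;> refine mulVec_injective (funext fun y => ?_)
  · simpa using hU y
  · simpa using hT' y

theorem exists_th {U T : M5 Z3} (h : U ^ 11 = 1) (h1 : U ≠ 1) (h5 : T ^ 5 = 1)
    (hT : T * U = U ^ 3 * T) : ∃ v : V5 Z3, v ≠ 0 ∧ T *ᵥ v = v ∧
      (th U v = 0 ∨ th (U ^ 10) v = 0) := by
  obtain ⟨v, v0, hv⟩ := exists_fix h5
  by_cases e : th U v = 0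
  · exact ⟨v, v0, hv, Or.inl e⟩
  obtain ⟨a, ha⟩ : ∃ a : ℕ → V5 Z3, ∀ n, a n = (U ^ n) *ᵥ v := ⟨_, fun _ => rfl⟩
  have hu : ∀ m n, (U ^ m) *ᵥ a n = a ((m + n) % 11) := fun m n => by
    rw [ha, ha, mulVec_mulVec, ← pow_add, ← pow_eq_pow_mod _ h]
  have ht : ∀ n, T *ᵥ a n = a (3 * n % 11) := fun n => by
    rw [ha, ha, mulVec_mulVec, t_pow hT, ← mulVec_mulVec, hv, ← pow_eq_pow_mod _ h]
  have n := sum_zero h h1 a (fun n => by rw [ha, ha, mulVec_mulVec, pow_succ'])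
    (by rw [ha, ha, h, pow_zero])
  have e1 : th U v = a 1 + a 3 + a 4 + a 5 + a 9 := by simp only [th, ha]
  refine ⟨_, e, ?_, Or.inr ?_⟩ <;> rw [e1]
  · simp only [mulVec_add, ht, Nat.reduceMul, Nat.reduceMod]
    abel
  · simp only [th, mulVec_add, ← pow_mul, hu, Nat.reduceMul, Nat.reduceMod, Nat.reduceAdd]
    linear_combination (norm := abel1) n + n + three (a 0)

variable {G : Type*} [Group G] [Finite G]

/-- The stabiliser of a list of vectors. -/
def stab (ψ : G →* M5 Z3) (R : List Q5) : Subgroup G :=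
  let M : Submonoid G :=
    { carrier := {g | ∀ y, fv y ∈ R → fv (ψ g *ᵥ y) ∈ R}
      one_mem' := fun y hy => by simpa using hy
      mul_mem' := fun ha hb y hy => by rw [map_mul, ← mulVec_mulVec]; exact ha _ (hb _ hy) }
  { M with
    inv_mem' := fun {g} hg => (Submonoid.powers_le (P := M)).2 hg
      (mem_powers_iff_mem_zpowers.2 (Subgroup.inv_mem _ (Subgroup.mem_zpowers g))) }

theorem mem_stab {ψ : G →* M5 Z3} {R : List Q5} {g : G} :
    g ∈ stab ψ R ↔ ∀ y, fv y ∈ R → fv (ψ g *ᵥ y) ∈ R := Iff.rfl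

theorem core {S H P : Subgroup G} (ψ : G →* M5 Z3)
    (hS : ∀ M : M5 Z3, M.det = 1 → ∃ g ∈ S, ψ g = M) (hP : P ≤ H)
    (hn : ∀ h ∈ H, ∀ x ∈ P, h * x * h⁻¹ ∈ P) {x y z : G} (hx : x ∈ P) (hy : y ∈ P)
    (gen : ∀ K : Subgroup G, x ∈ K → z ∈ K → P ≤ K) (ex : ψ x = U1) (ey : ψ y = T1)
    (e1 : y * z * y = z) (e2 : (x * z) ^ 3 = 1) : ¬ Geo.IsMaximalIn S H := fun hm => by
  have hw := fv_w (W := ψ z) (by rw [← ey, ← map_mul, ← map_mul, e1])
  have hz : fv (fun i => ψ z i 0) = ⟨0, 1, 0, 0, 0⟩ := by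
    refine c_wf _ _ _ _ _ ?_
    have := congrArg (fun k => fv (ψ k *ᵥ ![0, 0, 0, 0, 1])) e2
    simp only [pow_succ, pow_zero, one_mul, map_mul, ← mulVec_mulVec, ex, fv_u, hw, map_one,
      one_mulVec] at this
    exact this
  have h0 : P ≤ stab ψ R0 := gen _ (fun v hv => by rw [ex, fv_u]; exact c_u _ hv)
    fun v hv => by rw [hw, hz]; exact c_w _ hv
  have h1 : ∀ h ∈ H, ∀ v, fv v ∈ R0 → fv (ψ h *ᵥ v) ∈ R1 := fun h hh v hv => by
    have tv : ∀ y, ![(fv y).a, (fv y).b, (fv y).c, (fv y).d, (fv y).e] = y := fun y => fv_inj rfl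
    let L := R0.map fun q => fv (ψ h *ᵥ ![q.a, q.b, q.c, q.d, q.e])
    have k : ∀ p ∈ P, fv (ψ p *ᵥ (ψ h *ᵥ v)) ∈ L := fun p hp => by
      have := h0 (hn h⁻¹ (H.inv_mem hh) p hp) v hv
      refine List.mem_map.2 ⟨_, this, congrArg fv ?_⟩
      rw [tv]
      simp only [mulVec_mulVec, ← map_mul]
      congr 2
      group
    have k' : ∀ n, ∀ p ∈ P, orb n (fv (ψ p *ᵥ (ψ h *ᵥ v))) ⊆ L := fun n => by
      induction n with
      | zero => exact fun _ _ => List.nil_subset _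
      | succ n ih =>
        refine fun p hp => List.cons_subset.2 ⟨k p hp, ?_⟩
        rw [← fv_u, ← ex, mulVec_mulVec, ← map_mul]
        exact ih _ (P.mul_mem hx hp)
    have nd : ∀ q : Q5, (t q :: orb 11 q).Nodup ∨ q = fv 0 ∨ q ∈ R1 := fun q => c_nd _ _ _ _ _
    rcases nd (fv (ψ h *ᵥ v)) with e | e | e
    · have := (List.subperm_of_subset e (l₂ := L) (List.cons_subset.2
        ⟨by rw [← fv_t, ← ey]; exact k y hy, by simpa using k' 11 1 P.one_mem⟩)).length_le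
      simp [L, R0, orb] at this
    · have : v = 0 := by_contra fun v0 => rho_mulVec_ne ψ h v0 (fv_inj e)
      exact (c_0 (this ▸ hv : fv 0 ∈ R0)).elim
    · exact e
  have h2 : H ≤ S ⊓ stab ψ R1 := fun h hh => ⟨hm.1.le hh, fun v hv => by
    rcases c_s _ hv with e | e
    · exact h1 h hh v e
    · have := c_n _ (h1 h hh (-v) e)
      rwa [← fv_neg, mulVec_neg, neg_neg] at this⟩
  rcases hm.2 _ h2 inf_le_left with e | e
  · obtain ⟨k, hk, ek⟩ := hS G0 det_g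
    have h3 : k ∈ H := e ▸ ⟨hk, fun v hv => by rw [ek, fv_g]; exact c_g _ hv⟩
    have := h0 (hn k h3 x hx) ![2, 2, 2, 2, 2] c_gu.2
    rw [map_mul, map_mul, rho_inv_eq (M := G0) (by rw [ek, c_gg]), ek, ex, ← mulVec_mulVec,
      ← mulVec_mulVec, fv_g, fv_u, fv_g] at this
    exact c_gu.1 this
  · obtain ⟨k, hk, ek⟩ := hS E0 det_e
    have := (e.ge hk).2 ![0, 1, 0, 0, 0] c_e.2
    rw [ek, fv_e] at this
    exact c_e.1 this

theorem core2 {S H P : Subgroup G} (ψ : G →* M5 Z3)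
    (hS : ∀ M : M5 Z3, M.det = 1 → ∃ g ∈ S, ψ g = M) (hP : P ≤ H)
    (hn : ∀ h ∈ H, ∀ x ∈ P, h * x * h⁻¹ ∈ P) {x y z : G} (hx : x ∈ P) (hy : y ∈ P)
    (gen : ∀ K : Subgroup G, x ∈ K → z ∈ K → P ≤ K) (h11 : x ^ 11 = 1) (h1 : ψ x ≠ 1)
    (hT : y * x = x ^ 3 * y) {v : V5 Z3} (v0 : v ≠ 0) (hv : ψ y *ᵥ v = v) (e : th (ψ x) v = 0)
    (e1 : y * z * y = z) (e2 : (x * z) ^ 3 = 1) : ¬ Geo.IsMaximalIn S H := by
  obtain ⟨B, b1, b2⟩ := nf (by rw [← map_pow, h11, map_one]) h1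
    (by rw [← map_pow, ← map_mul, ← map_mul, hT]) v0 hv e
  refine core (cnj ψ B) (fun M hM => ?_) hP hn hx hy gen ?_ ?_ e1 e2
  · obtain ⟨k, hk, ek⟩ := hS (B.val * M * B⁻¹.val) (by
      rw [det_mul, det_mul, hM, mul_one, ← det_mul, Units.mul_inv, det_one])
    exact ⟨k, hk, by simp [cnj_apply, ek, mul_assoc]⟩
  · rw [cnj_apply, mul_assoc, b1, ← mul_assoc, Units.inv_mul, one_mul]
  · rw [cnj_apply, mul_assoc, b2, ← mul_assoc, Units.inv_mul, one_mul]

theorem core3 {S H P : Subgroup G} (ψ : G →* M5 Z3)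
    (hS : ∀ M : M5 Z3, M.det = 1 → ∃ g ∈ S, ψ g = M) (hP : P ≤ H)
    (hn : ∀ h ∈ H, ∀ x ∈ P, h * x * h⁻¹ ∈ P) {x y z : G} (hx : x ∈ P) (hy : y ∈ P)
    (gen : ∀ K : Subgroup G, x ∈ K → z ∈ K → P ≤ K) (h11 : x ^ 11 = 1) (h1 : ψ x ≠ 1)
    (h5 : y ^ 5 = 1) (hT : y * x = x ^ 3 * y) (e1 : y * z * y = z) (e2 : (x * z) ^ 3 = 1) :
    ¬ Geo.IsMaximalIn S H := by
  obtain ⟨v, v0, hv, e | e⟩ := exists_th (U := ψ x) (T := ψ y) (by rw [← map_pow, h11, map_one]) h1
    (by rw [← map_pow, h5, map_one]) (by rw [← map_pow, ← map_mul, ← map_mul, hT])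
  · exact core2 ψ hS hP hn hx hy gen h11 h1 hT v0 hv e e1 e2
  · have ex : x⁻¹ = x ^ 10 := inv_eq_of_mul_eq_one_right (by rw [← pow_succ', h11])
    refine core2 (x := x⁻¹) (z := z⁻¹) ψ hS hP hn (P.inv_mem hx) hy
      (fun K a b => gen K (inv_mem_iff.1 a) (inv_mem_iff.1 b)) (by rw [inv_pow, h11, inv_one])
      (fun e => h1 (by rw [← inv_mul_rho ψ x, e, one_mul])) ?_ v0 hv (by rwa [ex, map_pow]) ?_ ?_
    · calc y * x⁻¹ = (x ^ 3)⁻¹ * (x ^ 3 * y) * x⁻¹ := by group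
        _ = x⁻¹ ^ 3 * y := by rw [← hT]; group
    · calc y * z⁻¹ * y = y * (y * z * y)⁻¹ * y := by rw [e1]
        _ = z⁻¹ := by group
    · calc (x⁻¹ * z⁻¹) ^ 3 = z * ((x * z) ^ 3)⁻¹ * z⁻¹ := by simp [pow_succ, mul_assoc]
        _ = 1 := by rw [e2]; group

def su : SL(2, ZMod 11) := ⟨!![1, 1; 0, 1], by decide +kernel⟩
def st : SL(2, ZMod 11) := ⟨!![5, 0; 0, 9], by decide +kernel⟩
def sw : SL(2, ZMod 11) := ⟨!![0, 1; -1, 0], by decide +kernel⟩

theorem su_eq : SpecialLinearGroup.transvection (zero_ne_one (α := Fin 2)) 1 = su := by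
  decide +kernel

theorem sw_conj : ∀ c : ZMod 11, SpecialLinearGroup.transvection (one_ne_zero (α := Fin 2)) c =
    sw * SpecialLinearGroup.transvection (zero_ne_one (α := Fin 2)) (-c) * sw⁻¹ := by
  decide +kernel

theorem fifth : ∀ d : ZMod 3, d ^ 5 = 1 → d = 1 := by decide +kernel

theorem gen11 (K : Subgroup SL(2, ZMod 11)) (h1 : su ∈ K) (h2 : sw ∈ K) (A : SL(2, ZMod 11)) :
    A ∈ K := by
  haveI : Fact (Nat.Prime 11) := ⟨by norm_num⟩
  have k1 : ∀ n : ℕ, SpecialLinearGroup.transvection (zero_ne_one (α := Fin 2))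
      (n : ZMod 11) ∈ K := fun n => by
    induction n with
    | zero => simp
    | succ n ih =>
      rw [Nat.cast_succ, SpecialLinearGroup.transvection_add]
      exact K.mul_mem ih (su_eq ▸ h1)
  have k2 : ∀ c : ZMod 11, SpecialLinearGroup.transvection (zero_ne_one (α := Fin 2)) c ∈ K :=
    fun c => ZMod.natCast_zmod_val c ▸ k1 _
  refine SL2.transvection_induction (· ∈ K) (fun i j h c => ?_) (fun _ _ => K.mul_mem) A
  fin_cases i <;> fin_cases j
  · exact (h rfl).elim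
  · exact k2 c
  · exact (sw_conj c).symm ▸ K.mul_mem (K.mul_mem h2 (k2 (-c))) (K.inv_mem h2)
  · exact (h rfl).elim

end L113

variable {K : Type*} [Field K] {Γ X : Type*} [Group Γ] [Group X] {ρ : Γ →* M5 K} {π : Γ →* X}

open L113 in
theorem l11_not_max {F : Type*} [Field F] [Fintype F] (hF : Fintype.card F = 3)
    {H P : Subgroup (GL (Fin 5) F)} (h : Geo.IsResidualCore H P)
    (e : Nonempty ((P ⧸ (Geo.scalars (Fin 5) F).subgroupOf P) ≃* PSL(2, ZMod 11))) :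
    ¬ Geo.IsMaximalIn (Geo.specialLinear (Fin 5) F) H := fun hm => by
  obtain ⟨e⟩ := e
  let r : ZMod 3 ≃+* F := ZMod.ringEquivOfPrime F Nat.prime_three hF
  have inj : Function.Injective (QuotientGroup.mk' ((Geo.scalars (Fin 5) F).subgroupOf P)) := by
    refine (injective_iff_map_eq_one _).2 fun x hx => Subtype.ext (Units.ext ?_)
    obtain ⟨c, hc⟩ := (Geo.mem_scalars_iff (x : GL (Fin 5) F)).1 ((QuotientGroup.eq_one_iff x).1 hx)
    have h1 : ((x : GL (Fin 5) F) : M5 F).det = 1 := by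
      rw [← GeneralLinearGroup.val_det_apply, MonoidHom.mem_ker.1 (hm.1.le (h.le x.2))]
      rfl
    rw [hc, det_smul, det_one, mul_one, Fintype.card_fin] at h1
    obtain ⟨d, hd⟩ := r.surjective c
    rw [hc, ← hd, fifth d (r.injective (by rw [map_pow, hd, h1, map_one])), map_one, one_smul]
    rfl
  let ι := (MulEquiv.ofBijective _ ⟨inj, QuotientGroup.mk'_surjective _⟩).trans e
  let φ : SL(2, ZMod 11) →* GL (Fin 5) F :=
    P.subtype.comp (ι.symm.toMonoidHom.comp (QuotientGroup.mk' _))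
  have hφ : ∀ A, φ A ∈ P := fun A => (ι.symm _).2
  let ψ : GL (Fin 5) F →* M5 (ZMod 3) := ext r.symm.toRingHom (Units.coeHom _)
  refine core3 ψ (fun M hM => ?_) h.le h.normal (hφ su) (hφ st) (z := φ sw) (fun K a b x hx => ?_)
    ?_ (fun e => ?_) ?_ ?_ ?_ ?_ hm
  · have : (M.map r).det = 1 := by
      rw [show M.map r = r.toRingHom.mapMatrix M from rfl, ← RingHom.map_det, hM, map_one]
    refine ⟨GeneralLinearGroup.mkOfDetNeZero (M.map r) (by rw [this]; exact one_ne_zero),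
      Units.ext this, ?_⟩
    ext i j
    exact r.symm_apply_apply _
  · obtain ⟨A, hA⟩ := QuotientGroup.mk'_surjective _ (ι ⟨x, hx⟩)
    have h1 : φ A = x := congrArg Subtype.val ((congrArg ι.symm hA).trans (ι.symm_apply_apply _))
    exact h1 ▸ gen11 (K.comap φ) a b A
  · rw [← map_pow, show su ^ 11 = 1 by decide +kernel, map_one]
  · have h1 : φ su = 1 := Units.ext (Matrix.map_injective r.symm.injective (e.trans (by simp)))
    have h2 := (QuotientGroup.eq_one_iff su).1 (ι.symm.injective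
      ((Subtype.ext h1).trans (map_one ι.symm).symm))
    exact absurd (Subgroup.mem_center_iff.1 h2 sw) (by decide +kernel)
  · rw [← map_pow, show st ^ 5 = 1 by decide +kernel, map_one]
  · rw [← map_pow, ← map_mul, ← map_mul, show st * su = su ^ 3 * st by decide +kernel]
  · rw [← map_mul, ← map_mul, show st * sw * st = sw by decide +kernel]
  · rw [← map_mul, ← map_pow, show (su * sw) ^ 3 = 1 by decide +kernel, map_one]

end Cfsg.Agent.D5
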