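import Cfsg.Agent.DIM5.L3a
import Cfsg.Agent.H62.SLGen
import Cfsg.Agent.S2086

/-! `L₃(r)` has no five-dimensional projective representation without reflections. -/

set_option autoImplicit false

open Matrix
open scoped MatrixGroups

namespace Cfsg.Agent.D5

variable {K : Type*} [Field K] {Γ X : Type*} [Group Γ] [Group X] {ρ : Γ →* M5 K} {π : Γ →* X}

/-- The matrix of an element of `SL₃`. -/
def sl3m (F : Type*) [Field F] : SL(3, F) →* Matrix (Fin 3) (Fin 3) F where
  toFun g := g.1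
  map_one' := rfl
  map_mul' _ _ := rfl

theorem cov_sl3 {F : Type*} [Field F] (e : X ≃* PSL(3, F)) :
    Cov3 (fun _ => True) (sl3m F) (e.symm.toMonoidHom.comp (QuotientGroup.mk' _)) where
  inj _ _ h := Subtype.ext h
  surj := e.symm.surjective.comp (QuotientGroup.mk'_surjective _)
  ker s := by
    change e.symm _ = 1 ↔ _
    rw [e.symm.map_eq_one_iff, QuotientGroup.mk'_apply, QuotientGroup.eq_one_iff,
      Matrix.SpecialLinearGroup.mem_center_iff]
    refine ⟨fun ⟨r, _, h⟩ => ⟨r, h.symm.trans (by rw [scalar_apply, smul_one_eq_diagonal])⟩,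
      fun ⟨r, h⟩ => ⟨r, ?_, ?_⟩⟩
    · have := s.2
      rwa [show s.1 = r • 1 from h, det_smul, det_one, mul_one] at this
    · rw [scalar_apply, ← smul_one_eq_diagonal]; exact h.symm
  mk' M h _ := ⟨⟨M, h⟩, rfl⟩

theorem sl3_gen {F : Type*} [Field F] (H : Subgroup SL(3, F)) {w : SL(3, F)}
    (hw : sl3m F w = shift3 F) (h1 : w ∈ H)
    (h2 : ∀ a : F, SpecialLinearGroup.transvection (show (0 : Fin 3) ≠ 1 by decide) a ∈ H) :
    H = ⊤ := by
  refine H62.SLGen.top_of_w (n := 2) (by norm_num) H (w := w) (fun i j => ?_) h1 _ h2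
  change sl3m F w i j = _
  rw [hw]
  fin_cases i <;> fin_cases j <;> simp [shift3, H62.SLGen.sg]

/-- Generators of `SL₃(3)`. -/
def l33a : SL(3, ZMod 3) := ⟨!![1, 1, 1; 1, 1, 2; 2, 1, 0], by decide⟩
/-- Generators of `SL₃(3)`. -/
def l33b : SL(3, ZMod 3) := ⟨!![0, 1, 0; 0, 0, 1; 1, 0, 0], by decide⟩
/-- An element of order thirteen. -/
def l33c : SL(3, ZMod 3) := ⟨!![2, 1, 0; 1, 1, 1; 1, 1, 2], by decide⟩
/-- An element normalising `l33c`. -/
def l33k : SL(3, ZMod 3) := ⟨!![0, 0, 2; 2, 0, 1; 1, 1, 0], by decide⟩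

theorem l33_rel : l33a * l33a = 1 ∧ l33b ^ 3 = 1 ∧ l33c ^ 13 = 1 ∧ l33a * l33b * l33c = 1 ∧
    l33k * l33c = l33c ^ 3 * l33k := by
  refine ⟨?_, ?_, ?_, ?_, ?_⟩ <;> apply Subtype.ext <;> decide +kernel

theorem l33_word : (l33a * (l33b * l33b) * (l33a * (l33b * l33b)) * (l33a * l33b) *
    (l33a * (l33b * l33b)) * (l33a * (l33b * l33b)) * l33a).1 = 1 + single 0 1 1 ∧
    ∀ a : ZMod 3, a = 0 ∨ a = 1 ∨ a = 1 + 1 := by
  constructor <;> decide +kernel

theorem l33_gen (H : Subgroup SL(3, ZMod 3)) (ha : l33a ∈ H) (hb : l33b ∈ H) : H = ⊤ := by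
  have hB := H.mul_mem hb hb
  have hx := H.mul_mem ha hB
  have h1 := H.mul_mem (H.mul_mem (H.mul_mem (H.mul_mem (H.mul_mem hx hx) (H.mul_mem ha hb)) hx) hx) ha
  refine sl3_gen H rfl hb fun a => ?_
  have e : SpecialLinearGroup.transvection (show (0 : Fin 3) ≠ 1 by decide) (1 : ZMod 3) ∈ H := by
    convert h1 using 1
    exact Subtype.ext l33_word.1.symm
  rcases l33_word.2 a with rfl | rfl | rfl
  · simp
  · exact e
  · rw [SpecialLinearGroup.transvection_add]; exact H.mul_mem e e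

variable [IsAlgClosed K] [Finite Γ]

omit [Finite Γ] in
theorem Hyp.l33 (h : Hyp ρ π) (n : NoRf ρ) (hπ : Function.Injective π) (h3 : (3 : K) = 0)
    (f : SL(3, ZMod 3) →* X) (hf : Function.Surjective f) : False := by
  let ε := (MulEquiv.ofBijective π ⟨hπ, h.surj⟩).symm
  let g : SL(3, ZMod 3) →* Γ := ε.toMonoidHom.comp f
  have hg : Function.Surjective g := ε.surjective.comp hf
  obtain ⟨r1, r2, r3, r4, r5⟩ := l33_rel
  have s := h.scott (a := g l33a) (b := g l33b) (c := g l33c)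
    (by rw [← map_mul, ← map_mul, r4, map_one]) fun H ha hb => eq_top_iff.2 fun x _ => by
      obtain ⟨y, rfl⟩ := hg x
      exact (l33_gen (H.comap g) ha hb ▸ Subgroup.mem_top y : y ∈ H.comap g)
  have s1 := h.rank_inv n (g := g l33a) (by rw [← map_mul, r1, map_one])
  have s2 := rank_unip ρ (g := g l33b) (by
    have e : ρ (g l33b) ^ 3 = 1 := by rw [← map_pow, ← map_pow, r2, map_one, map_one]
    have : (ρ (g l33b) - 1) ^ 3 = ρ (g l33b) ^ 3 - 1 - (3 : K) • (ρ (g l33b) ^ 2 - ρ (g l33b)) := by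
      rw [show (3 : K) = 1 + 1 + 1 by norm_num, add_smul, add_smul, one_smul]
      noncomm_ring
    rw [this, e, h3, zero_smul, sub_self, sub_self])
  have s3 := rank_three (ρ := ρ) (g := g l33c) (r := 13) (m := 3) (Or.inr ⟨rfl, rfl⟩)
    (fun e => one_ne_zero (α := K) (by push_cast at e; linear_combination e - 4 * h3))
    (by rw [← map_pow, r3, map_one]) (by
      rw [← map_pow]
      exact g.map_isConj (isConj_iff.2 ⟨l33k, mul_inv_eq_iff_eq_mul.2 r5⟩))
  omega

theorem exists_omega {F : Type*} [Field F] [Fintype F] (h : 3 ∣ Fintype.card F - 1) :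
    ∃ ω : F, ω ^ 2 + ω + 1 = 0 ∧ (3 : F) ≠ 0 := by
  classical
  haveI : Fact (Nat.Prime 3) := ⟨by norm_num⟩
  obtain ⟨u, hu⟩ := exists_prime_orderOf_dvd_card (G := Fˣ) 3 (by rwa [Fintype.card_units])
  have h1 : (u : F) ^ 3 = 1 := by rw [← Units.val_pow_eq_pow_val, ← hu, pow_orderOf_eq_one, Units.val_one]
  have h2 : (u : F) - 1 ≠ 0 := fun e => by
    rw [Units.val_eq_one.1 (sub_eq_zero.1 e), orderOf_one] at hu
    omega
  exact ⟨u, mul_left_cancel₀ h2 (by linear_combination h1), fun e => h2 (pow_eq_zero_iff (n := 3)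
    (by norm_num) |>.1 (by linear_combination h1 - ((u : F) ^ 2 - u) * e))⟩

theorem Hyp.l3 (h : Hyp ρ π) (n : NoRf ρ) {r : ℕ} (e : IsL3 X r) (h3 : 3 ≤ r)
    (hp : (2 : K) = 0 ↔ Even r) : False := by
  classical
  obtain ⟨F, _, _, hF, ⟨e⟩⟩ := e
  have c := cov_sl3 e
  have e9 : 3 ∣ r - 1 → (3 : K) = 0 := fun hd => by_contra fun hK => by
    obtain ⟨ω, h1, h2⟩ := exists_omega (F := F) (hF ▸ hd)
    exact c.e9 h hK h1 h2 trivial trivial trivial trivial
  by_cases h4 : r = 4
  · subst h4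
    exact one_ne_zero (α := K) (by linear_combination e9 (by norm_num) - hp.2 (by norm_num))
  have hπ : Function.Injective π := h.inj_of_cyc e
    (S2086.result hF 3 (by norm_num) (by norm_num) (by simp; omega))
  obtain ⟨l, hl, k, hlp, hk⟩ := FiniteField.card' F
  rw [hF] at hk
  by_cases hK : (l : K) = 0
  swap
  · have h2 : l ≠ 2 := by
      rintro rfl
      exact hK (by exact_mod_cast hp.2 (hk ▸ Nat.even_pow.2 ⟨even_two, k.ne_zero⟩))
    let T := fun {i j : Fin 3} (hij : i ≠ j) (a : F) => SpecialLinearGroup.transvection hij a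
    refine c.heis h hπ hlp h2 hK (x := T (show 0 ≠ 1 by decide) 1) (y := T (show 1 ≠ 2 by decide) 1)
      (z := T (show 0 ≠ 2 by decide) 1) ?_ ?_ ?_ (fun e => ?_) ?_ ?_
    iterate 3
      ext i j
      fin_cases i <;> fin_cases j <;>
        simp [T, SpecialLinearGroup.transvection_coe, Matrix.mul_apply, Fin.sum_univ_three,
          Matrix.single, one_apply]
    · obtain ⟨t, ht⟩ := (c.ker _).1 e
      simpa [sl3m, T, SpecialLinearGroup.transvection_coe] using congrFun (congrFun ht 0) 2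
    · have : ∀ j : ℕ, T (show 0 ≠ 2 by decide) 1 ^ j = T (show 0 ≠ 2 by decide) j := fun j => by
        induction j with
        | zero => simp [T]
        | succ j ih => rw [pow_succ, ih, Nat.cast_succ, ← SpecialLinearGroup.transvection_add]
      rw [this, CharP.cast_eq_zero]
      simp [T]
    · obtain ⟨d, hd⟩ := c.mk' (dg3 (-1) (-1) 1) (by simp [det_dg3]) trivial
      refine isConj_iff.2 ⟨d, mul_inv_eq_iff_eq_mul.2 (c.inj ?_)⟩
      rw [SpecialLinearGroup.transvection_inv, map_mul, map_mul, hd]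
      ext i j
      fin_cases i <;> fin_cases j <;>
        simp [T, dg3, sl3m, SpecialLinearGroup.transvection_coe, Matrix.mul_apply, Fin.sum_univ_three,
          Matrix.single, one_apply]
  have hr : (r : K) = 0 := by rw [hk, Nat.cast_pow, hK, zero_pow k.ne_zero]
  by_cases h7 : r = 7
  · subst h7
    exact one_ne_zero (α := K) (by push_cast at hr; linear_combination hr - 2 * e9 (by norm_num))
  by_cases h33 : r = 3
  · subst h33
    let φ := ZMod.ringEquivOfPrime F Nat.prime_three hF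
    refine h.l33 n hπ (by exact_mod_cast hr) ((e.symm.toMonoidHom.comp (QuotientGroup.mk' _)).comp
      (SpecialLinearGroup.map φ.toRingHom)) (c.surj.comp fun g => ?_)
    exact ⟨SpecialLinearGroup.map φ.symm.toRingHom g, by ext i j; simp⟩
  obtain ⟨s, hs⟩ := IsCyclic.exists_ofOrder_eq_natCard (α := Fˣ)
  rw [Nat.card_units, Nat.card_eq_fintype_card, hF] at hs
  refine c.torus h hπ (Units.coeHom F) Units.val_injective (fun _ _ => trivial) trivial trivial
    (n := r - 1) (by rw [Nat.cast_sub (by omega), hr]; simp) (fun s => by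
      rw [← hF, ← Fintype.card_units, pow_card_eq_one]) (s := s) (fun e => ?_)
    fun H w y a b hw hy h1 h2 => sl3_gen H hw h1 fun t => h2 _ (c.inj ?_)
  · have := orderOf_dvd_of_pow_eq_one e
    rw [hs] at this
    have h6 := Nat.le_of_dvd (by norm_num) this
    obtain rfl | rfl : r = 5 ∨ r = 6 := by omega
    all_goals simp at this
  · rw [map_mul, map_mul, hy]
    ext i j
    fin_cases i <;> fin_cases j <;>
      simp [sl3m, dg3, SpecialLinearGroup.transvection_coe, Matrix.mul_apply, Fin.sum_univ_three,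
        Matrix.single, one_apply, mul_comm]

end Cfsg.Agent.D5
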