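import Cfsg.Agent.DIM5.Small
import Cfsg.Agent.DIM5.Rk

/-! Three-dimensional matrix covers of the simple group: common obstructions. -/

set_option autoImplicit false

open Matrix
open scoped MatrixGroups

namespace Cfsg.Agent.D5

variable {K : Type*} [Field K] {Γ X : Type*} [Group Γ] [Group X] {ρ : Γ →* M5 K} {π : Γ →* X}
variable {F S : Type*} [Field F] [Group S] {m : S →* Matrix (Fin 3) (Fin 3) F} {f : S →* X}

/-- `S` is a group of `3 × 3` matrices containing all matrices of determinant one with property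
`Q`, and `X` is its quotient by the scalars. -/
structure Cov3 (Q : Matrix (Fin 3) (Fin 3) F → Prop) (m : S →* Matrix (Fin 3) (Fin 3) F)
    (f : S →* X) : Prop where
  inj : Function.Injective m
  surj : Function.Surjective f
  ker : ∀ s, f s = 1 ↔ ∃ c : F, m s = c • 1
  mk' : ∀ M, M.det = 1 → Q M → ∃ s, m s = M

/-- The cyclic shift. -/
def shift3 (F : Type*) [Field F] : Matrix (Fin 3) (Fin 3) F := !![0, 1, 0; 0, 0, 1; 1, 0, 0]

/-- A diagonal matrix. -/
def dg3 (a b c : F) : Matrix (Fin 3) (Fin 3) F := !![a, 0, 0; 0, b, 0; 0, 0, c]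

theorem det_shift3 : (shift3 F).det = 1 := by simp [shift3, det_fin_three]

theorem det_dg3 (a b c : F) : (dg3 a b c).det = a * b * c := by simp [dg3, det_fin_three]

theorem dg3_scalar {a b c t : F} (e : dg3 a b c = t • 1) : a = c ∧ b = c := by
  have h0 := congrFun (congrFun e 0) 0
  have h1 := congrFun (congrFun e 1) 1
  have h2 := congrFun (congrFun e 2) 2
  simp [dg3] at h0 h1 h2
  exact ⟨h0.trans h2.symm, h1.trans h2.symm⟩

variable {Q : Matrix (Fin 3) (Fin 3) F → Prop}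

theorem Cov3.eq_of (c : Cov3 Q m f) {a b : S} {t : F} (e : m a = t • m b) : f a = f b := by
  rw [← mul_inv_eq_one, ← map_inv, ← map_mul, c.ker]
  exact ⟨t, by rw [map_mul, e, smul_mul_assoc, ← map_mul, mul_inv_cancel, map_one]⟩

theorem Cov3.e9 [IsAlgClosed K] (h : Hyp ρ π) (hK : (3 : K) ≠ 0) (c : Cov3 Q m f) {ω : F}
    (hω : ω ^ 2 + ω + 1 = 0) (h3 : (3 : F) ≠ 0) (qa : Q (dg3 1 ω (ω ^ 2))) (qb : Q (shift3 F))
    (qn : Q ((ω - ω ^ 2)⁻¹ • !![1, 1, 1; 1, ω, ω ^ 2; 1, ω ^ 2, ω]))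
    (qk : Q ((ω - ω ^ 2)⁻¹ • !![1, 1, ω; 1, ω, 1; ω ^ 2, ω, ω])) : False := by
  have h0 : ω - ω ^ 2 ≠ 0 := fun e => h3 (by grind)
  obtain ⟨a, ha⟩ := c.mk' _ (by rw [det_dg3]; grind) qa
  obtain ⟨b, hb⟩ := c.mk' _ det_shift3 qb
  obtain ⟨n, hn⟩ := c.mk' _ (by rw [det_smul]; simp [det_fin_three]; field_simp; grind) qn
  obtain ⟨k, hk⟩ := c.mk' _ (by rw [det_smul]; simp [det_fin_three]; field_simp; grind) qk
  generalize (ω - ω ^ 2)⁻¹ = u at hn hk
  have b3 : f b ^ 3 = 1 := by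
    rw [← map_pow, c.ker]
    refine ⟨1, ?_⟩
    rw [map_pow, hb]
    ext i j
    fin_cases i <;> fin_cases j <;> simp [shift3, pow_succ]
  refine h.e9_false hK (a := f a) (b := f b) (n := f n) (m := f k) (fun e => ?_) ?_ b3 ?_ ?_ ?_ ?_ ?_
  · obtain ⟨t, ht⟩ := (c.ker a).1 e
    have := dg3_scalar (ha ▸ ht)
    exact h0 (sub_eq_zero.2 this.2)
  · rw [← map_pow, c.ker]
    refine ⟨1, ?_⟩
    rw [map_pow, ha]
    ext i j
    fin_cases i <;> fin_cases j <;> simp [dg3, pow_succ] <;> grind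
  · rw [← map_mul, ← map_mul, eq_comm]
    refine c.eq_of (t := ω) ?_
    rw [map_mul, map_mul, ha, hb]
    ext i j
    fin_cases i <;> fin_cases j <;> simp [dg3, shift3] <;> grind
  · rw [mul_inv_eq_iff_eq_mul, ← map_mul, ← map_mul]
    refine c.eq_of (t := 1) ?_
    rw [map_mul, map_mul, ha, hb, hn]
    ext i j
    fin_cases i <;> fin_cases j <;> simp [dg3, shift3] <;> grind
  · rw [mul_inv_eq_iff_eq_mul, eq_inv_mul_iff_mul_eq, ← map_mul, ← map_mul]
    refine c.eq_of (t := 1) ?_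
    rw [map_mul, map_mul, ha, hb, hn]
    ext i j
    fin_cases i <;> fin_cases j <;> simp [dg3, shift3] <;> grind
  · rw [mul_inv_eq_iff_eq_mul, ← map_mul, ← map_mul, ← map_mul]
    refine c.eq_of (t := 1) ?_
    rw [map_mul, map_mul, map_mul, ha, hb, hk]
    ext i j
    fin_cases i <;> fin_cases j <;> simp [dg3, shift3] <;> grind
  · rw [mul_inv_eq_iff_eq_mul, show (f b)⁻¹ = f b * f b by
      rw [inv_eq_iff_mul_eq_one, ← b3, pow_three], ← map_mul, ← map_mul, ← map_mul, ← map_mul, eq_comm]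
    refine c.eq_of (t := ω) ?_
    rw [map_mul, map_mul, map_mul, map_mul, ha, hb, hk]
    ext i j
    fin_cases i <;> fin_cases j <;> simp [dg3, shift3] <;> grind

theorem Cov3.torus [IsAlgClosed K] (h : Hyp ρ π) (hπ : Function.Injective π) (c : Cov3 Q m f)
    {μ : Type*} [CommGroup μ] (ι : μ →* F) (hι : Function.Injective ι)
    (qd : ∀ s t, Q (dg3 (ι s) (ι t) (ι (s * t)⁻¹))) (qb : Q (shift3 F))
    (qt : Q !![0, -1, 0; -1, 0, 0; 0, 0, -1]) {n : ℕ} (hn : (n : K) ≠ 0) (ho : ∀ s : μ, s ^ n = 1)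
    {s : μ} (hs : s ^ 6 ≠ 1)
    (gen : ∀ (H : Subgroup S) (w y : S) (a b : F), m w = shift3 F → m y = dg3 a a b → w ∈ H →
      (∀ x, x * y = y * x → x ∈ H) → H = ⊤) : False := by
  choose d0 hd using fun x : μ × μ => c.mk' _ (by
    rw [det_dg3, ← map_mul, ← map_mul, mul_inv_cancel, map_one]) (qd x.1 x.2)
  obtain ⟨w, hw⟩ := c.mk' _ det_shift3 qb
  obtain ⟨t, ht⟩ := c.mk' _ (by simp [det_fin_three]) qt
  let d : μ × μ →* S := MonoidHom.mk' d0 fun x y => c.inj (by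
    rw [map_mul, hd, hd, hd, Prod.fst_mul, Prod.snd_mul, mul_mul_mul_comm, mul_inv, map_mul,
      map_mul, map_mul]
    ext i j
    fin_cases i <;> fin_cases j <;> simp [dg3])
  have hd' : ∀ a b, m (d (a, b)) = dg3 (ι a) (ι b) (ι (a * b)⁻¹) := fun a b => hd (a, b)
  refine h.torus_false hπ (f.comp d) (σ := f w) (τ := f t) (fun a b => ?_) (fun a b => ?_) hn ho
    (fun a e => ?_) hs fun H h1 h2 => ?_
  · rw [mul_inv_eq_iff_eq_mul, MonoidHom.comp_apply, MonoidHom.comp_apply, ← map_mul, ← map_mul]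
    refine c.eq_of (t := 1) ?_
    rw [map_mul, map_mul, hd', hd', hw, show (b * (a * b)⁻¹)⁻¹ = a by simp]
    ext i j
    fin_cases i <;> fin_cases j <;> simp [dg3, shift3]
  · rw [mul_inv_eq_iff_eq_mul, MonoidHom.comp_apply, MonoidHom.comp_apply, ← map_mul, ← map_mul]
    refine c.eq_of (t := 1) ?_
    rw [map_mul, map_mul, hd', hd', ht, mul_comm b a]
    ext i j
    fin_cases i <;> fin_cases j <;> simp [dg3]
  · obtain ⟨x, hx⟩ := (c.ker _).1 e
    have := hι (dg3_scalar (hd' _ _ ▸ hx)).1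
    simpa using this
  · have := gen (H.comap f) w (d (s, s)) _ _ hw (hd' s s) h1 fun x e => h2 _ (by
      rw [MonoidHom.comp_apply, ← map_mul, ← map_mul, e])
    refine eq_top_iff.2 fun x _ => ?_
    obtain ⟨y, rfl⟩ := c.surj x
    exact (this ▸ Subgroup.mem_top y : y ∈ H.comap f)

theorem Cov3.heis [IsAlgClosed K] (h : Hyp ρ π) (hπ : Function.Injective π) (c : Cov3 Q m f)
    {l : ℕ} (hl : l.Prime) (h2 : l ≠ 2) (hK : (l : K) ≠ 0) {x y z : S} (e : x * y = z * (y * x))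
    (hx : z * x = x * z) (hy : z * y = y * z) (h1 : f z ≠ 1) (hz : z ^ l = 1)
    (hc : IsConj z z⁻¹) : False := by
  let ε := (MulEquiv.ofBijective π ⟨hπ, h.surj⟩).symm
  let g : S →* Γ := ε.toMonoidHom.comp f
  refine heis_false h.inj hl h2 hK (x := g x) (y := g y) (z := g z) ?_ ?_ ?_
    (fun e => h1 (ε.map_eq_one_iff.1 e)) ?_ ?_
  · rw [← map_mul, e, map_mul, map_mul]
  · rw [← map_mul, hx, map_mul]
  · rw [← map_mul, hy, map_mul]
  · rw [← map_pow, hz, map_one]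
  · rw [← map_inv]; exact g.map_isConj hc

theorem Hyp.inj_of_cyc [Finite Γ] (h : Hyp ρ π) {Y : Type} [Group Y] (e : X ≃* Y) {k : ℕ}
    (hm : HasCyclicSchurMultiplier Y (Nat.gcd 3 k)) : Function.Injective π := by
  refine h.ker_of_mult e hm (n := 3) (by norm_num) fun a => ?_
  haveI : NeZero (Nat.gcd 3 k) := ⟨Nat.gcd_ne_zero_left (by norm_num)⟩
  refine orderOf_dvd_iff_pow_eq_one.1 ((orderOf_dvd_natCard a).trans ?_)
  simpa using Nat.gcd_dvd_left 3 k

end Cfsg.Agent.D5
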