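import Cfsg.Agent.DIM5.R3g

/-!
Characteristic two: a transvection group with a frame `G(3, 3, 3)` is `SU₅(2)`.
-/

set_option autoImplicit false

open Matrix

namespace Cfsg.Agent.D5

variable {K : Type*} [Field K] {Γ : Type*} [Group Γ] {ρ : Γ →* M5 K} {u v w f g h : V5 K}

section aux

variable {ω : K} {k : ℕ}

theorem r3e_three (h2 : (2 : K) = 0) : (3 : K) ≠ 0 :=
  fun e => one_ne_zero (α := K) (by linear_combination e - h2)

theorem r3e_rs (e x : Fin k → V5 K) (w v : V5 K) (c : K) :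
    rs e x (w - c • v) = rs e x w - c • rs e x v := by
  simp only [rs, dotProduct_sub, dotProduct_smul, sub_smul, Finset.sum_sub_distrib, smul_sub,
    Finset.smul_sum, smul_smul, smul_eq_mul]
  abel

theorem r3e_dot {e x : Fin k → V5 K} (hf : ∀ i, f ⬝ᵥ e i = 0) (v : V5 K) :
    f ⬝ᵥ rs e x v = f ⬝ᵥ v := by
  simp [rs, dotProduct_sum, hf]

theorem r3e_dot' {e x : Fin k → V5 K} (hv : ∀ i, x i ⬝ᵥ v = 0) (f : V5 K) :
    rs x e f ⬝ᵥ v = f ⬝ᵥ v := by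
  simp [rs, sum_dotProduct, hv]

theorem r3e_dg {e x : Fin k → V5 K} (F : Fr ρ e x ω) (hω : ω ^ 2 + ω + 1 = 0) (hk : 3 ≤ k)
    (a : D ρ v f) {j l : Fin k} (hjl : j ≠ l) {δ : K} (hδ : δ ^ 3 = 1) : ∃ v' f', D ρ v' f' ∧
    x j ⬝ᵥ v' = δ * (x j ⬝ᵥ v) ∧ x l ⬝ᵥ v' = δ ^ 2 * (x l ⬝ᵥ v) ∧
    (∀ m, m ≠ j → m ≠ l → x m ⬝ᵥ v' = x m ⬝ᵥ v) ∧ rs e x v' = rs e x v ∧ rs x e f' = rs x e f := by
  obtain ⟨v', f', a', e1, -, e3, e4⟩ := F.r3_dg hω hk a
    (d := fun m => if m = j then δ else if m = l then δ ^ 2 else 1)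
    (fun m => by
      split_ifs
      · exact hδ
      · linear_combination (δ ^ 3 + 1) * hδ
      · ring)
    (by
      rw [Fintype.prod_eq_mul j l hjl fun m hm => by simp [hm.1, hm.2]]
      simp only [if_true, if_neg hjl.symm]
      (linear_combination hδ))
  exact ⟨v', f', a', by simp [e1], by simp [e1, hjl.symm], fun m h1 h2 => by simp [e1, h1, h2],
    e3, e4⟩

theorem r3e_four (r : RH ρ) (L : Lam1 ρ) (h2 : (2 : K) = 0) (hω : ω ^ 2 + ω + 1 = 0)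
    {e x : Fin 3 → V5 K} (F : Fr ρ e x ω) : ∃ E X : Fin 4 → V5 K, Fr ρ E X ω := by
  by_contra hn
  have h3 := r3e_three h2
  have d := F.du
  have ty : ∀ v f, D ρ v f → (∀ i, Zr e x v f i) ∨ ∃ i j l, i ≠ j ∧ l ≠ i ∧ l ≠ j ∧
      Zr e x v f l ∧ pp e x v f i = 1 ∧ pp e x v f j = 1 ∧
        (rs e x v ≠ 0 → D ρ (rs e x v) (rs x e f)) := fun v f a => by
    rcases tri3 r.toTame L h3 hω F a with q | ⟨j, p, z⟩ | ⟨i, j, l, a1, a2, a3, a4, a5, a6, -, q⟩ | q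
    · exact Or.inl q
    · exact (hn (F.snoc (by norm_num) a p z)).elim
    · exact Or.inr ⟨i, j, l, a1, a2, a3, a4, a5, a6, fun h => (q.resolve_left fun q => h q.1).2⟩
    · exact (hn (r3_four h3 hω F a q.1 q.2)).elim
  obtain ⟨v, f, a, ⟨i0, hi⟩, hv⟩ := r.outer d (by norm_num) (by norm_num)
  obtain ⟨i, j, l, hij, hli, hlj, z, pi, pj, b⟩ := (ty v f a).resolve_left fun q => hi (q i0).2
  replace b := b hv
  obtain ⟨y, η, c, zc, hy⟩ : ∃ y η, D ρ y η ∧ (∀ i, Zr e x y η i) ∧ rs x e f ⬝ᵥ y ≠ 0 := by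
    obtain ⟨y, η, c, hy⟩ : ∃ y η, D ρ y η ∧ rs x e f ⬝ᵥ y ≠ 0 := by
      by_contra hc
      push Not at hc
      exact b.2.2.1 (r.covec hc)
    rcases ty y η c with q | ⟨_, _, _, -, -, -, -, -, -, q⟩
    · exact ⟨y, η, c, q, hy⟩
    · rw [← r3e_dot (x := x) (d.rs_dot f)] at hy
      exact ⟨_, _, q fun e => hy (by simp [e]), fun i => ⟨d.dot_rs _ _, d.rs_dot _ _⟩, hy⟩
  have hη : η ⬝ᵥ v ≠ 0 := by
    rw [← r3e_dot (x := x) fun i => (zc i).2]
    exact r.toTame.ne b c hy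
  obtain ⟨δ, hδ, hδ'⟩ : ∃ δ : K, δ ^ 3 = 1 ∧ δ ≠ (η ⬝ᵥ v) * (rs x e f ⬝ᵥ y) := by
    by_cases h : 1 = (η ⬝ᵥ v) * (rs x e f ⬝ᵥ y)
    · exact ⟨ω, r3_cube hω, h ▸ r3_ne_one h3 hω⟩
    · exact ⟨1, by ring, h⟩
  obtain ⟨v2, f2, a2, e1, -, e2, -⟩ := (c.act a).sw d hli.symm (F.one _ _ hli.symm)
  obtain ⟨v3, f3, a3, e3, e4, e5, e6, -⟩ := r3e_dg F hω le_rfl a2 hlj.symm hδ
  have k1 : ∀ m, x m ⬝ᵥ (v - (η ⬝ᵥ v) • y) = x m ⬝ᵥ v := fun m => by simp [(zc m).1]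
  simp only [k1] at e1
  have x1 : x i ⬝ᵥ v3 = 0 := by rw [e5 i hij hli.symm, e1, Equiv.swap_apply_left, z.1]
  have x2 : x j ⬝ᵥ v3 = δ * (x j ⬝ᵥ v) := by
    rw [e3, e1, Equiv.swap_apply_of_ne_of_ne hij.symm hlj.symm]
  have x3 : x l ⬝ᵥ v3 = δ ^ 2 * (x i ⬝ᵥ v) := by rw [e4, e1, Equiv.swap_apply_right]
  simp only [pp] at pi pj
  have s : f ⬝ᵥ v3 = δ - (η ⬝ᵥ v) * (rs x e f ⬝ᵥ y) := by
    rw [d.dot_eq f v3, e6, e2, r3e_rs, dotProduct_sub, b.1, h2, dotProduct_smul,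
      r3e_dot (d.rs_dot f), Finset.sum_eq_single j (fun m _ hm => ?_) (by simp), x2, smul_eq_mul]
    · linear_combination (δ) * pj
    · by_cases hm' : m = i
      · rw [hm', x1, zero_mul]
      · rw [show m = l by omega, z.2, mul_zero]
  have n1 := left_ne_zero_of_mul_eq_one pi
  have n2 := left_ne_zero_of_mul_eq_one pj
  have nz : ∀ m, x m ⬝ᵥ (v3 - (f ⬝ᵥ v3) • v) ≠ 0 := fun m => by
    rw [dotProduct_sub, dotProduct_smul, s, smul_eq_mul]
    by_cases h1 : m = i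
    · rw [h1, x1, zero_sub]
      exact neg_ne_zero.2 (mul_ne_zero (sub_ne_zero.2 hδ') n1)
    by_cases h2 : m = j
    · rw [h2, x2, ← sub_mul, sub_sub_cancel]
      exact mul_ne_zero (mul_ne_zero hη hy) n2
    · rw [show m = l by omega, x3, z.1, mul_zero, sub_zero]
      exact mul_ne_zero (pow_ne_zero _ (by rintro rfl; simp at hδ)) n1
  rcases ty _ _ (a.act a3) with q | ⟨_, _, m, -, -, -, q, -⟩
  · exact nz 0 (q 0).1
  · exact nz m q.1

theorem r3e_five (r : RH ρ) (L : Lam1 ρ) (h2 : (2 : K) = 0) (hω : ω ^ 2 + ω + 1 = 0)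
    {e x : Fin 4 → V5 K} (F : Fr ρ e x ω) : ∃ E X : Fin 5 → V5 K, Fr ρ E X ω := by
  by_contra hn
  have h3 := r3e_three h2
  have d := F.du
  have ty : ∀ v f, D ρ v f → rs e x v = 0 ∨ rs x e f = 0 := fun v f a => by
    refine d.four (d.dot_rs v) (d.rs_dot f) ?_
    suffices ∑ i, pp e x v f i = 0 by
      have h := d.dot_eq f v
      rw [a.1, h2] at h
      simp only [pp] at this
      rw [this, zero_add] at h
      exact h.symm
    rcases r3_gen r.toTame L h3 hω F (by norm_num) a with q | q | ⟨⟨i, pi⟩, ⟨l, z⟩, q, q'⟩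
    · exact Finset.sum_eq_zero fun i _ => (q i).pp0
    · have q0 := q.1 0
      have q1 := q.1 1
      have q2 := q.1 2
      have q3 := q.1 3
      rw [Fin.sum_univ_four]
      linear_combination q0 + q1 + q2 + q3 + (-(pp e x v f 0) - (pp e x v f 1) - (pp e x v f 2) - (pp e x v f 3) + 2) * h2
    · by_cases hj : ∃ j, j ≠ i ∧ pp e x v f j = 1
      · obtain ⟨j, hj, pj⟩ := hj
        have hli := z.ne_one pi
        have hlj := z.ne_one pj
        rw [Fintype.sum_eq_add i j hj.symm fun m hm => ?_, pi, pj, one_add_one_eq_two, h2]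
        refine ((q m).resolve_right fun pm => ?_).pp0
        have hlm := z.ne_one pm
        have k1 : ∀ n, n ≠ i → n ≠ j →
            x n ⬝ᵥ ((x i ⬝ᵥ v) • e i + (x j ⬝ᵥ v) • e j) = 0 ∧
            ((f ⬝ᵥ e i) • x i + (f ⬝ᵥ e j) • x j) ⬝ᵥ e n = 0 := fun n h1 h2 => by
          simp [d.ne h1, d.ne h2, d.ne h1.symm, d.ne h2.symm]
        rcases (q' i j l hj.symm pi pj z).2 with q1 | ⟨-, b⟩
        · exact left_ne_zero_of_mul_eq_one pm (q1.1 ▸ (k1 m hm.1 hm.2).1)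
        · refine hn (F.snoc (i := m) (by norm_num) b ?_ fun n hn => ?_)
          · simpa only [pp, dotProduct_sub, sub_dotProduct, k1 m hm.1 hm.2, sub_zero] using pm
          · by_cases h1 : n = i
            · simp [Zr, h1, d.eq, d.ne hj, d.ne hj.symm]
            by_cases h2 : n = j
            · simp [Zr, h2, d.eq, d.ne hj, d.ne hj.symm]
            · have := hm.1
              have := hm.2
              simp only [Zr, dotProduct_sub, sub_dotProduct, k1 n h1 h2, sub_zero]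
              exact (show n = l by omega) ▸ z
      · push Not at hj
        exact (hn (F.snoc (by norm_num) a pi fun j h => (q j).resolve_right (hj j h))).elim
  obtain ⟨v, f, a, ⟨i, hi⟩, hv⟩ := r.outer d (by norm_num) (by norm_num)
  have hf := (ty v f a).resolve_left hv
  have kill : ∀ w g, D ρ w g → rs x e g ≠ 0 → ∑ m, (x m ⬝ᵥ w) * (f ⬝ᵥ e m) = 0 := fun w g b hg => by
    have h1 := (ty w g b).resolve_right hg
    have h4 := (ty _ _ (a.act b)).resolve_right (by rwa [r3e_rs, hf, smul_zero, sub_zero])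
    rw [r3e_rs, h1, zero_sub, neg_eq_zero, smul_eq_zero, d.dot_eq, hf, zero_dotProduct,
      add_zero] at h4
    exact h4.resolve_right hv
  obtain ⟨w, g, b, hw, hg⟩ : ∃ w g, D ρ w g ∧ x i ⬝ᵥ w ≠ 0 ∧ rs x e g ≠ 0 := by
    obtain ⟨g, w, b, ⟨j, hj⟩, hg⟩ := r.dual.outer d.dual (by norm_num) (by norm_num)
    rw [dotProduct_comm] at hj
    by_cases hij : i = j
    · exact ⟨w, g, D.dual_iff.1 b, hij ▸ hj, hg⟩
    · obtain ⟨w', g', b', e1, -, -, e2⟩ := (D.dual_iff.1 b).sw d hij (F.one _ _ hij)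
      exact ⟨w', g', b', by rwa [e1, Equiv.swap_apply_left], e2 ▸ hg⟩
  obtain ⟨l, hl, -⟩ := r3_third (by norm_num) i i
  have key : ∀ δ : K, δ ^ 3 = 1 →
      (δ - 1) * ((x i ⬝ᵥ w) * (f ⬝ᵥ e i)) + (δ ^ 2 - 1) * ((x l ⬝ᵥ w) * (f ⬝ᵥ e l)) = 0 := by
    intro δ hδ
    obtain ⟨w', g', b', e1, e2, e3, -, e4⟩ := r3e_dg F hω (by norm_num) b hl.symm hδ
    have := congrArg₂ (· - ·) (kill w' g' b' (e4 ▸ hg)) (kill w g b hg)
    simp only [← Finset.sum_sub_distrib] at this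
    rw [Fintype.sum_eq_add i l hl.symm fun m hm => by rw [e3 m hm.1 hm.2, sub_self], e1, e2] at this
    linear_combination this
  have k1 := key ω (r3_cube hω)
  have k2 := key (ω ^ 2) (by (linear_combination (ω ^ 4 - ω ^ 3 + ω - 1) * hω))
  exact mul_ne_zero hw hi (by (linear_combination (-3 * ω ^ 3 + 8 * ω ^ 2 + 21 * ω + 32) * k1 + (3 * ω - 8) * k2 + (3 * (f ⬝ᵥ e i) * (x i ⬝ᵥ w) * ω ^ 2 - 17 * (f ⬝ᵥ e i) * (x i ⬝ᵥ w) * ω - 24 * (f ⬝ᵥ e l) * (x l ⬝ᵥ w) * ω + 9 * (f ⬝ᵥ e i) * (x i ⬝ᵥ w)) * hω + (24 * (f ⬝ᵥ e l) * (x l ⬝ᵥ w) * ω + 8 * (f ⬝ᵥ e i) * (x i ⬝ᵥ w) + 12 * (f ⬝ᵥ e l) * (x l ⬝ᵥ w)) * h2))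

theorem r3e_cls (h2 : (2 : K) = 0) {z : V5 K} (z0 : z ≠ 0) (z4 : ∀ i, z i ^ 4 = z i)
    (z3 : ∑ i, z i ^ 3 = 0) : (∃ i j, i ≠ j ∧ z i ^ 3 = 1 ∧ z j ^ 3 = 1 ∧
      ∀ m, m ≠ i → m ≠ j → z m = 0) ∨ ∃ m, z m = 0 ∧ ∀ j, j ≠ m → z j ^ 3 = 1 := by
  classical
  have := CharTwo.of_one_ne_zero_of_two_eq_zero one_ne_zero h2
  have h1 : ∀ i, z i ≠ 0 → z i ^ 3 = 1 := fun i h =>
    mul_left_cancel₀ h (by linear_combination z4 i)
  obtain ⟨S, hS⟩ : ∃ S : Finset (Fin 5), ∀ i, i ∈ S ↔ z i ≠ 0 :=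
    ⟨Finset.univ.filter fun i => z i ≠ 0, by simp⟩
  have h3 : (S.card : K) = 0 := by
    rw [← z3, ← Finset.sum_subset (Finset.subset_univ S) fun i _ h => by
      rw [not_not.1 (mt (hS i).2 h)]; simp, Finset.sum_congr rfl fun i h => h1 i ((hS i).1 h)]
    simp
  rw [CharP.cast_eq_zero_iff K 2] at h3
  have h4 : S.card ≠ 0 := fun e => z0 (funext fun i => by
    by_contra h
    simpa [Finset.card_eq_zero.1 e] using (hS i).2 h)
  have h5 : Sᶜ.card + S.card = 5 := Finset.card_compl_add_card S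
  by_cases h6 : S.card = 2
  · obtain ⟨i, j, hij, rfl⟩ := Finset.card_eq_two.1 h6
    refine Or.inl ⟨i, j, hij, h1 i ((hS i).1 (by simp)), h1 j ((hS j).1 (by simp)),
      fun m a b => not_not.1 (mt (hS m).2 (by simp [a, b]))⟩
  · obtain ⟨m, hm⟩ := Finset.card_eq_one.1 (show Sᶜ.card = 1 by omega)
    have : ∀ j, j ∉ S ↔ j = m := fun j => by rw [← Finset.mem_compl, hm, Finset.mem_singleton]
    exact Or.inr ⟨m, not_not.1 (mt (hS m).2 ((this m).2 rfl)),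
      fun j hj => h1 j ((hS j).1 (not_not.1 (mt (this j).1 hj)))⟩

theorem r3e_to (r : RH ρ) (L : Lam1 ρ) (h2 : (2 : K) = 0) (hω : ω ^ 2 + ω + 1 = 0)
    (F : Fr ρ (fun i : Fin 5 => Pi.single i 1) (fun i => Pi.single i 1) ω) (a : D ρ v f) :
    ∃ (c : K) (z : V5 K), c ≠ 0 ∧ z ≠ 0 ∧ (∀ i, z i ^ 4 = z i) ∧ ∑ i, z i ^ 3 = 0 ∧ v = c • z ∧
      f = c⁻¹ • fun i => z i ^ 2 := by
  obtain ⟨t1, t2⟩ : (∀ j, (v j = 0 ∧ f j = 0) ∨ v j * f j = 1) ∧
      ∀ i j, v i * f i = 1 → v j * f j = 1 → v j ^ 3 = v i ^ 3 := by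
    have := r3_gen r.toTame L (r3e_three h2) hω F (by norm_num) a
    simp only [Zr, pp, single_one_dotProduct, dotProduct_single_one] at this
    rcases this with q | q | ⟨-, ⟨l, z⟩, q, q'⟩
    · exact ⟨fun j => Or.inl (q j), fun i j p _ => by simp [(q i).1] at p⟩
    · exact ⟨fun j => Or.inr (by linear_combination q.1 j - v j * f j * h2),
        fun i j _ _ => q.2 j i⟩
    · refine ⟨q, fun i j pi pj => ?_⟩
      by_cases hij : i = j
      · rw [hij]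
      · linear_combination (q' i j l hij pi pj z).1 - v i ^ 3 * h2
  obtain ⟨i, hi⟩ := Function.ne_iff.1 a.2.1
  have pi := (t1 i).resolve_left fun q => hi q.1
  have key : ∀ j, (f i * v j) ^ 3 = f j * v j ∧ (f i * v j) ^ 4 = f i * v j ∧
      f j = f i * (f i * v j) ^ 2 := fun j => by
    rcases t1 j with q | pj
    · simp [q.1, q.2]
    · have := t2 i j pi pj
      refine ⟨?_, ?_, ?_⟩ <;> (first | linear_combination ((f i) ^ 2 * (v i) ^ 2 + (f i) * (v i) + 1) * pi + (-1) * pj + ((f i) ^ 3) * this | linear_combination ((f i) ^ 3 * (v i) ^ 2 * (v j) + (f i) ^ 2 * (v i) * (v j) + (f i) * (v j)) * pi + ((f i) ^ 4 * (v j)) * this | linear_combination (-(f i) ^ 2 * (f j) * (v i) ^ 2 - (f i) * (f j) * (v i) - (f j)) * pi + ((f i) ^ 3 * (v j) ^ 2) * pj + (-(f i) ^ 3 * (f j)) * this)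
  refine ⟨v i, f i • v, hi, smul_ne_zero (right_ne_zero_of_mul_eq_one pi) a.2.1,
    fun j => (key j).2.1, ?_, by rw [smul_smul, pi, one_smul], funext fun j => ?_⟩
  · rw [← h2, ← a.1]
    exact Finset.sum_congr rfl fun j _ => (key j).1
  · rw [← eq_inv_of_mul_eq_one_right pi]
    exact (key j).2.2

theorem r3e_pair {z : V5 K} {i j : Fin 5} (hij : i ≠ j) (h : ∀ m, m ≠ i → m ≠ j → z m = 0) :
    z = z i • Pi.single i 1 + z j • Pi.single j 1 := by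
  ext m
  by_cases h1 : m = i
  · simp [h1, hij]
  by_cases h2 : m = j
  · simp [h2, hij.symm]
  · simp [h1, h2, h m h1 h2]

theorem r3e_from (r : RH ρ) (L : Lam1 ρ) (h2 : (2 : K) = 0) (hω : ω ^ 2 + ω + 1 = 0)
    (F : Fr ρ (fun i : Fin 5 => Pi.single i 1) (fun i => Pi.single i 1) ω) {z : V5 K} (z0 : z ≠ 0)
    (z4 : ∀ i, z i ^ 4 = z i) (z3 : ∑ i, z i ^ 3 = 0) : D ρ z fun i => z i ^ 2 := by
  rcases r3e_cls h2 z0 z4 z3 with ⟨i, j, hij, hi, hj, h⟩ | ⟨m, hm, h⟩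
  · exact (F.r3_root hω (by norm_num) hij (b := z i) (c := z j) (β := z i ^ 2) (γ := z j ^ 2)
      (by (linear_combination hi)) (by (linear_combination hj)) (by (linear_combination hi + hj + h2))).of_eq (r3e_pair hij h)
      (r3e_pair (z := fun i => z i ^ 2) hij fun m a b => by simp [h m a b])
  obtain ⟨y, m', b, hm', h'⟩ : ∃ (y : V5 K) (m : Fin 5), D ρ y (fun i => y i ^ 2) ∧ y m = 0 ∧
      ∀ j, j ≠ m → y j ^ 3 = 1 := by
    by_contra hc
    refine r.mono_false F (r3_ne_one (r3e_three h2) hω) fun v f a => ?_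
    obtain ⟨c, y, hc0, y0, y4, y3, rfl, rfl⟩ := r3e_to r L h2 hω F a
    rcases r3e_cls h2 y0 y4 y3 with ⟨i, j, hij, hi, hj, h⟩ | ⟨m, hm, h⟩
    · have k : ∀ i, y i ^ 3 = 1 → pp (fun i : Fin 5 => Pi.single i 1) (fun i => Pi.single i 1)
          (c • y) (c⁻¹ • fun i => y i ^ 2) i = 1 := fun i hi => by
        simp only [pp, single_one_dotProduct, dotProduct_single_one, Pi.smul_apply, smul_eq_mul]
        linear_combination (c * c⁻¹) * hi + mul_inv_cancel₀ hc0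
      refine r3_mon hij (k i hi) (k j hj) ?_
      simp only [single_one_dotProduct, dotProduct_single_one]
      exact ⟨r3e_pair hij fun m a b => by simp [h m a b], r3e_pair hij fun m a b => by simp [h m a b]⟩
    · exact (hc ⟨y, m, by simpa [smul_smul, hc0] using a.smul (inv_ne_zero hc0), hm, h⟩).elim
  obtain ⟨y, b, hm', h'⟩ : ∃ y : V5 K, D ρ y (fun i => y i ^ 2) ∧ y m = 0 ∧
      ∀ j, j ≠ m → y j ^ 3 = 1 := by
    by_cases hmm : m = m'
    · exact ⟨y, b, hmm ▸ hm', hmm ▸ h'⟩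
    · obtain ⟨y', g, b', e1, e2, -⟩ := b.sw F.du hmm (F.one _ _ hmm)
      simp only [single_one_dotProduct, dotProduct_single_one] at e1 e2
      refine ⟨y', b'.of_eq rfl (funext fun l => by rw [e1, e2]), by simpa [e1] using hm',
        fun j hj => e1 j ▸ h' _ fun e => hj ?_⟩
      simpa using congrArg (Equiv.swap m m') e
  obtain ⟨d, hd⟩ : ∃ d : Fin 5 → K, ∀ j, d j = if j = m then 1 else z j * y j ^ 2 := ⟨_, fun _ => rfl⟩
  have d3 : ∀ j, d j ^ 3 = 1 := fun j => by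
    rw [hd]
    split_ifs with hj
    · ring
    · have h1 := h j hj
      have h2 := h' j hj
      linear_combination ((y j) ^ 6) * h1 + ((y j) ^ 3 + 1) * h2
  have P3 : (∏ j, d j) ^ 3 = 1 := by rw [← Finset.prod_pow]; simp [d3]
  obtain ⟨v', f', a', e1, e2, -⟩ := F.r3_dg hω (by norm_num) b
    (d := fun j => d j * if j = m then (∏ j, d j) ^ 2 else 1)
    (fun j => by
      have := d3 j
      split_ifs <;> (first | linear_combination (((∏ j, d j)) ^ 6) * this + (((∏ j, d j)) ^ 3 + 1) * P3 | linear_combination this))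
    (by rw [Finset.prod_mul_distrib, Finset.prod_ite_eq']; simp only [Finset.mem_univ, if_true]
        linear_combination P3)
  simp only [single_one_dotProduct, dotProduct_single_one] at e1 e2
  refine a'.of_eq (funext fun j => ?_) (funext fun j => ?_)
  · rw [e1, hd]
    split_ifs with hj
    · rw [hj, hm, hm', mul_zero]
    · have h2 := h' j hj
      linear_combination (-(z j)) * h2
  · rw [e2, hd]
    split_ifs with hj
    · rw [hj, hm, hm']; ring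
    · have h2 := h' j hj
      linear_combination (-(y j) ^ 3 * (z j) ^ 2 - (z j) ^ 2) * h2

end aux

variable {e x : Fin 3 → V5 K} {ω : K}

theorem RH.u52 (r : RH ρ) (L : Lam1 ρ) (h2 : (2 : K) = 0) (hω : ω ^ 2 + ω + 1 = 0)
    (F : Fr ρ e x ω) : IsU52 ρ := by
  obtain ⟨e, x, F⟩ := r3e_four r L h2 hω F
  obtain ⟨e, x, F⟩ := r3e_five r L h2 hω F
  obtain ⟨B, hB⟩ := r3_std F.du ρ
  have F' := Fr.r3_cnj hB id Function.injective_id F
  refine ⟨h2, ⟨ω, hω⟩, B, fun v f => ⟨r3e_to (r.cnj B) (L.cnj B) h2 hω F', ?_⟩⟩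
  rintro ⟨c, z, hc, z0, z4, z3, rfl, rfl⟩
  exact (r3e_from (r.cnj B) (L.cnj B) h2 hω F' z0 z4 z3).smul hc

end Cfsg.Agent.D5
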