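import Cfsg.Agent.DIM5.RFr

/-!
Frames of type `G(3, 3, k)`: existence, types of roots, the Fourier frame.
-/

set_option autoImplicit false

open Matrix

namespace Cfsg.Agent.D5

variable {K : Type*} [Field K] {Γ : Type*} [Group Γ] {ρ : Γ →* M5 K} {u v w f g h : V5 K}

section om

variable {ω : K}

theorem r3_cube (hω : ω ^ 2 + ω + 1 = 0) : ω ^ 3 = 1 := by linear_combination (ω - 1) * hω

theorem r3_ne_one (h3 : (3 : K) ≠ 0) (hω : ω ^ 2 + ω + 1 = 0) : ω ≠ 1 :=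
  fun e => h3 (by rw [e] at hω; linear_combination hω)

theorem r3_sq_ne (h3 : (3 : K) ≠ 0) (hω : ω ^ 2 + ω + 1 = 0) : ω ^ 2 - ω ≠ 0 :=
  fun e => h3 (by linear_combination (-(ω ^ 2) + ω) * e + (ω ^ 2 - 3 * ω + 3) * hω)

theorem r3_sq_ne_one (h3 : (3 : K) ≠ 0) (hω : ω ^ 2 + ω + 1 = 0) : ω ^ 2 ≠ 1 :=
  fun e => r3_ne_one h3 hω (by linear_combination (-ω) * e + r3_cube hω)

theorem r3_cases (hω : ω ^ 2 + ω + 1 = 0) {φ : K} (h : φ ^ 3 = 1) : ∃ n : ℤ, φ = ω ^ n := by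
  have : (φ - 1) * ((φ - ω) * (φ - ω ^ 2)) = 0 := by
    linear_combination h + (-φ ^ 2 + ω * φ - (ω - 1)) * hω
  rcases mul_eq_zero.1 this with e | e
  · exact ⟨0, by simpa [sub_eq_zero] using e⟩
  rcases mul_eq_zero.1 e with e | e
  · exact ⟨1, by simpa [sub_eq_zero] using e⟩
  · exact ⟨2, by rw [sub_eq_zero.1 e]; norm_cast⟩

theorem r3_inv {φ : K} (h : φ ^ 3 = 1) : φ⁻¹ = φ ^ 2 :=
  inv_eq_of_mul_eq_one_right (by linear_combination h)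

section gen

variable {k : ℕ} {e x : Fin k → V5 K} {i j l : Fin k}

theorem Fr.r3_sw (F : Fr ρ e x ω) (hω : ω ^ 2 + ω + 1 = 0) (hk : 3 ≤ k) (hij : i ≠ j) {φ : K}
    (h : φ ^ 3 = 1) : D ρ (e i - φ • e j) (x i - φ ^ 2 • x j) := by
  obtain ⟨n, hn⟩ := r3_cases hω h
  have := (F.sw_pow hk hij n).2
  rwa [← hn, r3_inv h] at this

theorem Fr.r3_root (F : Fr ρ e x ω) (hω : ω ^ 2 + ω + 1 = 0) (hk : 3 ≤ k) (hij : i ≠ j)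
    {b c β γ : K} (h1 : b * β = 1) (h2 : c * γ = 1) (h : c ^ 3 = -b ^ 3) :
    D ρ (b • e i + c • e j) (β • x i + γ • x j) := by
  have := (F.r3_sw hω hk hij (φ := -(c * β)) (by (linear_combination (b ^ 2 * β ^ 2 + b * β + 1) * h1 + (-β ^ 3) * h))).smul' h1
  refine this.of_eq ?_ ?_
  · match_scalars <;> (first | ring1 | linear_combination (-c) * h1)
  · match_scalars <;> (first | ring1 | linear_combination (-b ^ 2 * β ^ 2 * γ - b * β * γ - γ) * h1 + (-c ^ 2 * β ^ 3) * h2 + (β ^ 3 * γ) * h)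

theorem Fr.r3_in (F : Fr ρ e x ω) (hω : ω ^ 2 + ω + 1 = 0) (hk : 3 ≤ k) {d : Fin k → K}
    (h : ∀ i, d i ^ 3 = 1) (hp : ∏ i, d i = 1) : In ρ (dg e x d) := by
  choose n hn using fun i => r3_cases hω (h i)
  have h0 : ω ≠ 0 := by rintro rfl; simp at hω
  have := F.in_dg hk n (by
    rw [← hp]
    have : ∀ s : Finset (Fin k), ω ^ ∑ i ∈ s, n i = ∏ i ∈ s, d i := fun s => by
      induction s using Finset.induction_on with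
      | empty => simp
      | insert a s ha ih => rw [Finset.sum_insert ha, Finset.prod_insert ha, zpow_add₀ h0, ih, hn]
    exact this _)
  rwa [show (fun i => ω ^ n i) = d from funext fun i => (hn i).symm] at this

/-- Moving a root by a diagonal element. -/
theorem Fr.r3_dg (F : Fr ρ e x ω) (hω : ω ^ 2 + ω + 1 = 0) (hk : 3 ≤ k) (a : D ρ v f)
    {d : Fin k → K} (h : ∀ i, d i ^ 3 = 1) (hp : ∏ i, d i = 1) : ∃ v' f', D ρ v' f' ∧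
    (∀ l, x l ⬝ᵥ v' = d l * (x l ⬝ᵥ v)) ∧ (∀ l, f' ⬝ᵥ e l = d l ^ 2 * (f ⬝ᵥ e l)) ∧
    rs e x v' = rs e x v ∧ rs x e f' = rs x e f := by
  have h0 : ∀ i, d i ≠ 0 := fun i e => by simpa [e] using h i
  refine ⟨_, _, a.dg F.du h0 (F.r3_in hω hk h hp), fun l => F.du.dot_dg _ _ _, fun l => ?_,
    F.du.rs_dg _ _, F.du.rs_dg' _ _⟩
  rw [F.du.dg_dot, Pi.inv_apply, r3_inv (h l)]

theorem r3_ext {v' f' : V5 K} (a : D ρ v f) (h1 : ∀ l, x l ⬝ᵥ v' = x l ⬝ᵥ v)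
    (h2 : ∀ l, f' ⬝ᵥ e l = f ⬝ᵥ e l) (h3 : rs e x v' = rs e x v) (h4 : rs x e f' = rs x e f) :
    D ρ v' f' := by
  refine a.of_eq ?_ ?_
  · rw [← sum_add_rs e x v', ← sum_add_rs e x v, h3]; simp only [h1]
  · rw [← sum_add_rs' e x f', ← sum_add_rs' e x f, h4]; simp only [h2]

theorem Zr.pp0 (z : Zr e x v f i) : pp e x v f i = 0 := by simp [pp, z.1]

theorem r3_pair (L : Lam1 ρ) (h3 : (3 : K) ≠ 0) (hω : ω ^ 2 + ω + 1 = 0) (F : Fr ρ e x ω)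
    (hk : 3 ≤ k) (a : D ρ v f) (hij : i ≠ j) : pp e x v f i = pp e x v f j ∨
      (pp e x v f i = 1 ∧ Zr e x v f j) ∨ (pp e x v f j = 1 ∧ Zr e x v f i) := by
  refine or_iff_not_imp_left.2 fun hne => ?_
  have c3 := r3_cube hω
  have hs := r3_sq_ne h3 hω
  have key : ∀ φ : K, φ ^ 3 = 1 →
      (x i ⬝ᵥ v - φ ^ 2 * (x j ⬝ᵥ v)) * (f ⬝ᵥ e i - φ * (f ⬝ᵥ e j)) = 1 := fun φ hφ => by
    have := L _ _ _ _ _ _ (F.r3_sw hω hk hij hφ) a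
      (F.r3_sw hω hk hij (φ := φ * ω) (by (linear_combination (φ ^ 3 * ω - φ ^ 3) * hω + hφ))) (fun e' => by
        simp only [sub_dotProduct, dotProduct_sub, smul_dotProduct, dotProduct_smul, smul_eq_mul,
          F.du.eq, F.du.ne hij, F.du.ne hij.symm] at e'
        refine mul_ne_zero hs (sub_ne_zero.2 hne) ?_
        simp only [pp]
        (linear_combination (-(f ⬝ᵥ e i) * (x j ⬝ᵥ v) * φ ^ 5 * ω + 2 * (f ⬝ᵥ e i) * (x j ⬝ᵥ v) * φ ^ 5 + (f ⬝ᵥ e j) * (x i ⬝ᵥ v) * φ ^ 4 * ω - (f ⬝ᵥ e j) * (x i ⬝ᵥ v) * φ ^ 4 - (f ⬝ᵥ e i) * (x i ⬝ᵥ v) * φ ^ 3 + (f ⬝ᵥ e j) * (x j ⬝ᵥ v) * φ ^ 3 - (f ⬝ᵥ e i) * (x j ⬝ᵥ v) * φ ^ 2 + (f ⬝ᵥ e i) * (x i ⬝ᵥ v) - (f ⬝ᵥ e j) * (x j ⬝ᵥ v)) * hω + (-(f ⬝ᵥ e i) * (x j ⬝ᵥ v) * φ ^ 2 * ω - 2 * (f ⬝ᵥ e i) * (x j ⬝ᵥ v) * φ ^ 2 - (f ⬝ᵥ e j) * (x i ⬝ᵥ v) * φ * ω + (f ⬝ᵥ e j) * (x i ⬝ᵥ v) * φ + 2 * (f ⬝ᵥ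 e i) * (x i ⬝ᵥ v) * ω - 2 * (f ⬝ᵥ e j) * (x j ⬝ᵥ v) * ω + (f ⬝ᵥ e i) * (x i ⬝ᵥ v) - (f ⬝ᵥ e j) * (x j ⬝ᵥ v)) * hφ + e'))
    simpa only [lam, sub_dotProduct, dotProduct_sub, smul_dotProduct, dotProduct_smul,
      smul_eq_mul] using this
  have k1 := key 1 (by ring)
  have k2 := key ω c3
  have k3 := key (ω ^ 2) (by (linear_combination (ω ^ 4 - ω ^ 3 + ω - 1) * hω))
  simp only [pp, Zr] at hne ⊢
  generalize x i ⬝ᵥ v = a1 at *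
  generalize x j ⬝ᵥ v = a2 at *
  generalize f ⬝ᵥ e i = b1 at *
  generalize f ⬝ᵥ e j = b2 at *
  have s1 : a1 * b1 + a2 * b2 = 1 := by
    apply mul_left_cancel₀ h3; (linear_combination (-a2 * b2 * ω ^ 4 + a2 * b2 * ω ^ 3 + a2 * b1 * ω ^ 2 - a2 * b1 * ω - 2 * a2 * b2 * ω + a2 * b1 + a1 * b2 + 2 * a2 * b2) * hω + k1 + k2 + k3)
  have s2 : a1 * b2 = 0 := by
    apply mul_left_cancel₀ hs; (linear_combination (-a2 * b2 * ω + a2 * b1 + a1 * b2 + a2 * b2) * hω + (ω + 1) * k1 + k2 + (-ω - 2) * s1)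
  have s3 : a2 * b1 = 0 := by (linear_combination (-1) * k1 + s1 + (-1) * s2)
  by_cases h1 : a1 = 0
  · refine Or.inr ⟨by (linear_combination s1 + (-b1) * h1), h1, ?_⟩
    linear_combination (-b2) * k1 + (-b1 + b2) * s1 + (-b2) * s2 + (b1 ^ 2) * h1
  · have : b2 = 0 := (mul_eq_zero.1 s2).resolve_left h1
    refine Or.inl ⟨by (linear_combination s1 + (-a2) * this), ?_, this⟩
    linear_combination (-a1) * k1 + (a1 - a2) * s1 + (-a1) * s2 + (a2 ^ 2) * this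

theorem r3_tri (L : Lam1 ρ) (hω : ω ^ 2 + ω + 1 = 0) (F : Fr ρ e x ω)
    (hk : 3 ≤ k) (a : D ρ v f) (hij : i ≠ j) (hli : l ≠ i) (hlj : l ≠ j) {φ ψ : K} (hφ : φ ^ 3 = 1)
    (hψ : ψ ^ 3 = 1) :
    (x i ⬝ᵥ v - φ ^ 2 * (x j ⬝ᵥ v)) * (f ⬝ᵥ e j - ψ * (f ⬝ᵥ e l)) * φ =
      (f ⬝ᵥ e i - φ * (f ⬝ᵥ e j)) * (x j ⬝ᵥ v - ψ ^ 2 * (x l ⬝ᵥ v)) * φ ^ 2 ∨
    (x i ⬝ᵥ v - φ ^ 2 * (x j ⬝ᵥ v)) * (f ⬝ᵥ e i - φ * (f ⬝ᵥ e j)) = 1 := by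
  refine or_iff_not_imp_left.2 fun hne => ?_
  have := L _ _ _ _ _ _ (F.r3_sw hω hk hij hφ) a (F.r3_sw hω hk hlj.symm hψ) (fun e' => by
    simp only [sub_dotProduct, dotProduct_sub, smul_dotProduct, dotProduct_smul, smul_eq_mul,
      F.du.eq, F.du.ne hij, F.du.ne hij.symm, F.du.ne hli, F.du.ne hli.symm, F.du.ne hlj,
      F.du.ne hlj.symm] at e'
    exact hne (by linear_combination -e'))
  simpa only [lam, sub_dotProduct, dotProduct_sub, smul_dotProduct, dotProduct_smul,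
    smul_eq_mul] using this

theorem r3_two (L : Lam1 ρ) (h3 : (3 : K) ≠ 0) (hω : ω ^ 2 + ω + 1 = 0) (F : Fr ρ e x ω)
    (hk : 3 ≤ k) (a : D ρ v f) (hij : i ≠ j) (hli : l ≠ i) (hlj : l ≠ j)
    (pi : pp e x v f i = 1) (pj : pp e x v f j = 1) (z : Zr e x v f l) :
    (x j ⬝ᵥ v) ^ 3 = -(x i ⬝ᵥ v) ^ 3 := by
  have c3 := r3_cube hω
  have k1 := r3_tri L hω F hk a hij hli hlj (φ := 1) (ψ := 1) (by ring) (by ring)
  have k2 := r3_tri L hω F hk a hij hli hlj (ψ := 1) c3 (by ring)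
  have hs := r3_ne_one h3 hω
  rw [z.1, z.2] at k1 k2
  simp only [pp] at pi pj
  generalize x i ⬝ᵥ v = a1 at *
  generalize x j ⬝ᵥ v = a2 at *
  generalize f ⬝ᵥ e i = b1 at *
  generalize f ⬝ᵥ e j = b2 at *
  have q : ∀ φ : K, φ ^ 3 = 1 → ((a1 - φ ^ 2 * a2) * (b2 - 1 * 0) * φ =
      (b1 - φ * b2) * (a2 - 1 ^ 2 * 0) * φ ^ 2 ∨ (a1 - φ ^ 2 * a2) * (b1 - φ * b2) = 1) →
      a2 = φ * a1 ∨ a2 ^ 3 = -a1 ^ 3 := fun φ hφ k => by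
    rcases k with k | k
    · have : (a2 - φ * a1) * (a2 + φ * a1) = 0 := by (linear_combination (-a2 ^ 2 * φ ^ 3) * pi + (a1 ^ 2 * φ ^ 2) * pj + (-a2 ^ 2) * hφ + (-a1 * a2 * φ) * k)
      rcases mul_eq_zero.1 this with e | e
      · exact Or.inl (by (linear_combination e))
      · exact Or.inr (by (linear_combination (-a1 ^ 3) * hφ + (-a1 * φ) * this + (a2 ^ 2) * e))
    · exact Or.inr (by (linear_combination (-a1 * a2 ^ 2 * φ ^ 4 - a2 ^ 3 * φ ^ 3 + a1 ^ 2 * a2 * φ ^ 2 + a1 * a2 ^ 2 * φ) * pi + (a1 ^ 2 * a2 * φ ^ 5 + a1 * a2 ^ 2 * φ ^ 4 - a1 ^ 3 * φ ^ 3 - a1 ^ 2 * a2 * φ ^ 2) * pj + (a1 ^ 2 * a2 * φ ^ 2 - a1 ^ 3 - a2 ^ 3) * hφ + (-a1 ^ 2 * a2 * φ ^ 2 - a1 * a2 ^ 2 * φ) * k))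
  rcases q 1 (by ring) k1 with e1 | e1
  · rcases q ω c3 k2 with e2 | e2
    · have : (ω - 1) * a1 = 0 := by (linear_combination e1 + (-1) * e2)
      rcases mul_eq_zero.1 this with e | e
      · exact (hs (sub_eq_zero.1 e)).elim
      · simp [e] at pi
    · exact e2
  · exact e1

theorem r3_three (L : Lam1 ρ) (h3 : (3 : K) ≠ 0) (hω : ω ^ 2 + ω + 1 = 0) (F : Fr ρ e x ω)
    (hk : 3 ≤ k) (a : D ρ v f) (hij : i ≠ j) (hli : l ≠ i) (hlj : l ≠ j)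
    (pj : pp e x v f j = pp e x v f i) (pl : pp e x v f l = pp e x v f i)
    (p0 : pp e x v f i ≠ 0) : 3 * pp e x v f i = 1 ∧ (x j ⬝ᵥ v) ^ 3 = (x i ⬝ᵥ v) ^ 3 := by
  have c3 := r3_cube hω
  have c6 : (ω ^ 2) ^ 3 = 1 := by (linear_combination (ω ^ 4 - ω ^ 3 + ω - 1) * hω)
  have hs := r3_sq_ne h3 hω
  have k := fun φ ψ hφ hψ => r3_tri L hω F hk a hij hli hlj (φ := φ) (ψ := ψ) hφ hψ
  simp only [pp] at pj pl p0 ⊢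
  generalize x i ⬝ᵥ v = a1 at *
  generalize x j ⬝ᵥ v = a2 at *
  generalize x l ⬝ᵥ v = a3 at *
  generalize f ⬝ᵥ e i = b1 at *
  generalize f ⬝ᵥ e j = b2 at *
  generalize f ⬝ᵥ e l = b3 at *
  have n1 : a1 ≠ 0 := left_ne_zero_of_mul p0
  have n2 : a2 ≠ 0 := left_ne_zero_of_mul (pj ▸ p0)
  have q : ∀ φ : K, φ ^ 3 = 1 → a2 = φ * a1 ∨ (a1 - φ ^ 2 * a2) * (b1 - φ * b2) = 1 := by
    intro φ hφ
    by_contra hc
    push Not at hc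
    have q2 : ∀ ψ : K, ψ ^ 3 = 1 → (a3 - ψ * a2) * (a3 - φ * ψ * a1) = 0 := fun ψ hψ => by
      have := (k φ ψ hφ hψ).resolve_right hc.2
      apply mul_left_cancel₀ (mul_ne_zero p0 (sub_ne_zero.2 hc.1))
      linear_combination (a1 * a2 * a3 * φ * ψ) * this + (a1 * a3 ^ 2 * φ ^ 4 * ψ ^ 3 - a1 ^ 2 * a3 * φ ^ 2 * ψ) * pj + (-a1 * a2 ^ 2 * φ ^ 4 * ψ ^ 2 + a1 ^ 2 * a2 * φ ^ 2 * ψ ^ 2) * pl + (a1 ^ 2 * a3 ^ 2 * b1 * φ * ψ ^ 3 - a1 ^ 2 * a2 ^ 2 * b1 * φ * ψ ^ 2 - a1 * a2 * a3 ^ 2 * b1 * ψ ^ 3 + a1 * a2 ^ 2 * a3 * b1 * ψ) * hφ + (a1 ^ 2 * a3 ^ 2 * b1 * φ - a1 * a2 * a3 ^ 2 * b1) * hψ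
    have e1 := q2 1 (by ring)
    have e2 := q2 ω c3
    have e3 := q2 _ c6
    have : 3 * (φ * a1 * a2) = 0 := by (linear_combination (a1 * a2 * φ * ω ^ 3 - 2 * a1 * a2 * φ * ω - a1 * a3 * φ * ω + 2 * a1 * a2 * φ + a1 * a3 * φ - a2 * a3 * ω + a2 * a3) * hω + e1 + (ω) * e2 + (-ω - 1) * e3)
    have hφ0 : φ ≠ 0 := by rintro rfl; simp at hφ
    exact mul_ne_zero h3 (mul_ne_zero (mul_ne_zero hφ0 n1) n2) this
  have q3 : ∀ φ : K, φ ^ 3 = 1 → a2 = φ * a1 → 3 * (a1 * b1) = 1 ∧ a2 ^ 3 = a1 ^ 3 := by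
    intro φ hφ e
    refine ⟨?_, by (linear_combination (a1 ^ 3) * hφ + (a1 ^ 2 * φ ^ 2 + a1 * a2 * φ + a2 ^ 2) * e)⟩
    rcases q (φ * ω) (by (linear_combination (φ ^ 3 * ω - φ ^ 3) * hω + hφ)) with e' | e'
    · have : (ω ^ 2 - ω) * a2 = 0 := by (linear_combination (-a1 * φ + a2) * hω + (-ω - 1) * e + (-ω) * e')
      exact (mul_ne_zero hs n2 this).elim
    · apply mul_left_cancel₀ n1
      linear_combination (-a1 * a2 * b2 * φ ^ 3 * ω + a1 * a2 * b2 * φ ^ 3 + a1 * a2 * b1 * φ ^ 2) * hω + (-a1 * φ ^ 3 + a1 * ω) * pj + (-a1 ^ 2 * b1 * ω - 2 * a1 ^ 2 * b1) * hφ + (-a1 * b1 * φ ^ 2 * ω - a1 * b1 * φ ^ 2 - a1 * b2 * ω) * e + (a1) * e'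
  rcases q 1 (by ring) with e1 | e1
  · exact q3 _ (by ring) e1
  rcases q ω c3 with e2 | e2
  · exact q3 _ c3 e2
  rcases q _ c6 with e3 | e3
  · exact q3 _ c6 e3
  have : 3 * (a1 * b2) = 0 := by (linear_combination (a2 * b2 * ω ^ 5 - a2 * b2 * ω ^ 4 - a2 * b1 * ω ^ 3 + a2 * b1 * ω ^ 2 + a2 * b1 * ω - a1 * b2 * ω - a2 * b2 * ω - a2 * b1 + 2 * a1 * b2 + a2 * b2) * hω + (-1) * e1 + (ω + 1) * e2 + (-ω) * e3)
  have n3 : b2 ≠ 0 := right_ne_zero_of_mul (pj ▸ p0)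
  exact (mul_ne_zero h3 (mul_ne_zero n1 n3) this).elim

end gen

end om

variable {e x : Fin 3 → V5 K} {ω : K}

theorem fr3_aux (a : D ρ v f) (b : D ρ w g) (c : D ρ u h) (h1 : f ⬝ᵥ w = -1) (h2 : g ⬝ᵥ v = -1)
    (h3 : g ⬝ᵥ u = -1) (h4 : h ⬝ᵥ w = -1) (h5 : (h ⬝ᵥ v) * (f ⬝ᵥ u) = 1)
    (h6 : h ⬝ᵥ v + f ⬝ᵥ u = 1) (n3 : (3 : K) ≠ 0) :
    ∃ (e x : Fin 3 → V5 K) (ω : K), ω ^ 2 + ω + 1 = 0 ∧ Fr ρ e x ω := by
  obtain ⟨s, hs⟩ : ∃ s : K, 3 * s = 1 := ⟨3⁻¹, mul_inv_cancel₀ n3⟩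
  obtain ⟨ω, hω⟩ : ∃ ω, ω = -(h ⬝ᵥ v) := ⟨_, rfl⟩
  have h7 : h ⬝ᵥ v = -ω := by simp [hω]
  have h8 : f ⬝ᵥ u = 1 + ω := by linear_combination h6 - hω
  have h9 : ω ^ 2 + ω + 1 = 0 := by rw [h7, h8] at h5; linear_combination -h5
  obtain ⟨E, hE⟩ : ∃ E, E = (s * (1 - ω)) • (v + w + u) := ⟨_, rfl⟩
  obtain ⟨X, hX⟩ : ∃ X, X = (s * (1 - ω ^ 2)) • (f + g + h) := ⟨_, rfl⟩
  have d : Du ![E, E - v, E - v - w] ![X, X - f, X - f - g] := by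
    intro i j
    fin_cases i <;> fin_cases j <;>
      simp [hE, hX, sub_dotProduct, dotProduct_sub, add_dotProduct, dotProduct_add, a.1, b.1, c.1,
        h1, h2, h3, h4, h7, h8] <;> (first | linear_combination (3 * s + 1) * hs + (3 * s ^ 2 * ω - 6 * s ^ 2) * h9 | linear_combination (3 * s) * hs + (3 * s ^ 2 * ω - 6 * s ^ 2 - s * ω + 2 * s) * h9 | linear_combination (3 * s) * hs + (3 * s ^ 2 * ω - 6 * s ^ 2 + s) * h9 | linear_combination (3 * s - 1) * hs + (3 * s ^ 2 * ω - 6 * s ^ 2 - s * ω + 3 * s) * h9)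
  have s1 : Sw ρ ![E, E - v, E - v - w] ![X, X - f, X - f - g] 0 1 1 :=
    ⟨one_ne_zero, a.of_eq (by simp) (by simp)⟩
  have s2 : Sw ρ ![E, E - v, E - v - w] ![X, X - f, X - f - g] 1 2 1 :=
    ⟨one_ne_zero, b.of_eq (by simp) (by simp)⟩
  have c3 := r3_cube h9
  have s3 : Sw ρ ![E, E - v, E - v - w] ![X, X - f, X - f - g] 2 0 ω⁻¹ := by
    refine ⟨inv_ne_zero (by rintro rfl; simp at h9), c.of_eq ?_ ?_⟩
    · rw [r3_inv c3]; simp only [hE]; simp; match_scalars <;> (linear_combination hs + (s * ω - 2 * s) * h9)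
    · rw [inv_inv]; simp only [hX]; simp; match_scalars <;> (linear_combination hs + (s * ω - 2 * s) * h9)
  refine ⟨_, _, ω, h9, Fr.mk3 d s1 ?_ ?_⟩
  · simpa using Sw.trans d (by decide) (by decide) (by decide) s3.symm s2.symm
  · simpa using Sw.trans d (by decide) (by decide) (by decide) s1 s2

theorem fr3 (L : Lam1 ρ) (a : D ρ v f) (b : D ρ w g) (c : D ρ u h) (n : NS v f w g u h) :
    (3 : K) ≠ 0 ∧ ∃ (e x : Fin 3 → V5 K) (ω : K), ω ^ 2 + ω + 1 = 0 ∧ Fr ρ e x ω := by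
  have l1 := L _ _ _ _ _ _ a b c n
  have l2 := L _ _ _ _ _ _ b c a n.rot
  have l3 := L _ _ _ _ _ _ c a b n.rot.rot
  have l4 := L _ _ _ _ _ _ b (a.act c) a (NS.rot (fun e => n (by
    simp only [lam, sub_dotProduct, dotProduct_sub, smul_dotProduct, dotProduct_smul, smul_eq_mul,
      a.1] at e l1 l3
    linear_combination -e)))
  simp only [lam, sub_dotProduct, dotProduct_sub, smul_dotProduct, dotProduct_smul,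
    smul_eq_mul] at l1 l2 l3 l4
  have n3 : (3 : K) ≠ 0 := fun e => n (by
    have : ((f ⬝ᵥ w) * (g ⬝ᵥ u) * (h ⬝ᵥ v) - (g ⬝ᵥ v) * (h ⬝ᵥ w) * (f ⬝ᵥ u)) ^ 2 = 0 := by (linear_combination ((f ⬝ᵥ u) * (f ⬝ᵥ w) * (g ⬝ᵥ u) * (h ⬝ᵥ v) ^ 2 + (f ⬝ᵥ u) ^ 2 * (g ⬝ᵥ v) * (h ⬝ᵥ v) * (h ⬝ᵥ w) - 4 * (f ⬝ᵥ u) * (g ⬝ᵥ u) * (h ⬝ᵥ v) * (h ⬝ᵥ w) + (f ⬝ᵥ u) * (h ⬝ᵥ v)) * l1 + ((f ⬝ᵥ w) * (g ⬝ᵥ u) * (h ⬝ᵥ v) + (f ⬝ᵥ u) * (g ⬝ᵥ v) * (h ⬝ᵥ w) - 4 * (f ⬝ᵥ u) * (h ⬝ᵥ v) + 1) * l2 + ((f ⬝ᵥ w) * (g ⬝ᵥ u) * (h ⬝ᵥ v) + (f ⬝ᵥ u) * (g ⬝ᵥ v) * (h ⬝ᵥ w) - 3) * l3 + (-(f ⬝ᵥ w) * (g ⬝ᵥ u) * (h ⬝ᵥ v) - (f ⬝ᵥ u) * (g ⬝ᵥ v) * (h ⬝ᵥ w) - 1) * l4 + (-1) * e)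
    exact sub_eq_zero.1 (pow_eq_zero_iff two_ne_zero |>.1 this))
  refine ⟨n3, fr3_aux a (b.smul' (c := -(g ⬝ᵥ v)) (d := -(f ⬝ᵥ w)) (by (linear_combination l1)))
    (c.smul' (c := (g ⬝ᵥ v) * (h ⬝ᵥ w)) (d := (f ⬝ᵥ w) * (g ⬝ᵥ u)) (by (linear_combination ((g ⬝ᵥ u) * (h ⬝ᵥ w)) * l1 + l2)))
    ?_ ?_ ?_ ?_ ?_ ?_ n3⟩ <;>
  simp only [smul_dotProduct, dotProduct_smul, smul_eq_mul] <;> (first | linear_combination (-1) * l1 | linear_combination (-(g ⬝ᵥ u) * (h ⬝ᵥ w)) * l1 + (-1) * l2 | linear_combination ((f ⬝ᵥ u) * (g ⬝ᵥ u) * (h ⬝ᵥ v) * (h ⬝ᵥ w)) * l1 + ((f ⬝ᵥ u) * (h ⬝ᵥ v)) * l2 + l3 | linear_combination ((f ⬝ᵥ u) * (h ⬝ᵥ v)) * l1 + l2 + l3 + (-1) * l4)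

theorem tri3 (t : Tame ρ) (L : Lam1 ρ) (h3 : (3 : K) ≠ 0) (hω : ω ^ 2 + ω + 1 = 0)
    (F : Fr ρ e x ω) (a : D ρ v f) : Ty3 ρ e x v f := by
  have P := fun (i j : Fin 3) (hij : i ≠ j) => r3_pair L h3 hω F le_rfl a hij
  have two : ∀ i j l : Fin 3, i ≠ j → l ≠ i → l ≠ j → pp e x v f i = 1 → pp e x v f j = 1 →
      Zr e x v f l → Ty3 ρ e x v f := fun i j l hij hli hlj pi pj z => by
    refine Or.inr (Or.inr (Or.inl ⟨i, j, l, hij, hli, hlj, z, pi, pj,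
      r3_two L h3 hω F le_rfl a hij hli hlj pi pj z, ?_⟩))
    have := F.two t (r3_sq_ne_one h3 hω) a hij hli hlj pi pj z
    rwa [r3_inv (r3_cube hω), show (ω + ω ^ 2) ^ 2 = 1 by (linear_combination (ω ^ 2 + ω - 1) * hω), one_smul] at this
  have mix : ∀ i j l : Fin 3, i ≠ j → l ≠ i → l ≠ j → pp e x v f i = 1 → Zr e x v f l →
      Ty3 ρ e x v f := fun i j l hij hli hlj pi z => by
    rcases P i j hij with q | q | q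
    · exact two i j l hij hli hlj pi (q ▸ pi) z
    · refine Or.inr (Or.inl ⟨i, pi, fun m hm => ?_⟩)
      by_cases hm' : m = j
      · exact hm' ▸ q.2
      · exact (show m = l by omega) ▸ z
    · exact (one_ne_zero (pi.symm.trans q.2.pp0)).elim
  rcases P 0 1 (by decide) with q | q | q
  · rcases P 0 2 (by decide) with q' | q' | q'
    · by_cases p0 : pp e x v f 0 = 0
      · refine Or.inl (F.zero t (r3_ne_one h3 hω) le_rfl a fun i => ?_)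
        fin_cases i
        exacts [p0, q ▸ p0, q' ▸ p0]
      · have k1 := r3_three L h3 hω F le_rfl a (i := 0) (j := 1) (l := 2) (by decide) (by decide)
          (by decide) q.symm q'.symm p0
        have k2 := r3_three L h3 hω F le_rfl a (i := 0) (j := 2) (l := 1) (by decide) (by decide)
          (by decide) q'.symm q.symm p0
        refine Or.inr (Or.inr (Or.inr ⟨fun i => ?_, ?_⟩))
        · fin_cases i
          exacts [k1.1, q ▸ k1.1, q' ▸ k1.1]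
        · have : ∀ i, (x i ⬝ᵥ v) ^ 3 = (x 0 ⬝ᵥ v) ^ 3 := fun i => by
            fin_cases i
            exacts [rfl, k1.2, k2.2]
          exact fun i j => (this i).trans (this j).symm
    · exact mix 0 1 2 (by decide) (by decide) (by decide) q'.1 q'.2
    · exact mix 2 1 0 (by decide) (by decide) (by decide) q'.1 q'.2
  · exact mix 0 2 1 (by decide) (by decide) (by decide) q.1 q.2
  · exact mix 1 2 0 (by decide) (by decide) (by decide) q.1 q.2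

theorem fourier (h3 : (3 : K) ≠ 0) (hω : ω ^ 2 + ω + 1 = 0) (F : Fr ρ e x ω)
    (h1 : ∀ i, 3 * pp e x v f i = 1) (h2 : ∀ i j, (x i ⬝ᵥ v) ^ 3 = (x j ⬝ᵥ v) ^ 3) :
    ∃ E X : Fin 3 → V5 K, Fr ρ E X ω ∧ pp E X v f 0 = 1 ∧ ∀ j, j ≠ 0 → Zr E X v f j := by
  have p0 := h1 0
  have p1 := h1 1
  have p2 := h1 2
  have q1 := h2 0 1
  have q2 := h2 1 2
  have c3 := r3_cube hω
  simp only [pp] at p0 p1 p2
  obtain ⟨a0, ha0⟩ : ∃ a, x 0 ⬝ᵥ v = a := ⟨_, rfl⟩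
  obtain ⟨a1, ha1⟩ : ∃ a, x 1 ⬝ᵥ v = a := ⟨_, rfl⟩
  obtain ⟨a2, ha2⟩ : ∃ a, x 2 ⬝ᵥ v = a := ⟨_, rfl⟩
  obtain ⟨b0, hb0⟩ : ∃ a, f ⬝ᵥ e 0 = a := ⟨_, rfl⟩
  obtain ⟨b1, hb1⟩ : ∃ a, f ⬝ᵥ e 1 = a := ⟨_, rfl⟩
  obtain ⟨b2, hb2⟩ : ∃ a, f ⬝ᵥ e 2 = a := ⟨_, rfl⟩
  rw [ha0, hb0] at p0
  rw [ha1, hb1] at p1
  rw [ha2, hb2] at p2
  rw [ha0, ha1] at q1
  rw [ha1, ha2] at q2
  have d := F.du
  have r0 : a0 * b0 = a1 * b1 := mul_left_cancel₀ h3 (p0.trans p1.symm)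
  have r1 : a1 * b1 = a2 * b2 := mul_left_cancel₀ h3 (p1.trans p2.symm)
  refine ⟨![a0 • e 0 + a1 • e 1 + a2 • e 2, a0 • e 0 + (ω * a1) • e 1 + (ω ^ 2 * a2) • e 2,
      a0 • e 0 + (ω ^ 2 * a1) • e 1 + (ω * a2) • e 2],
    ![b0 • x 0 + b1 • x 1 + b2 • x 2, b0 • x 0 + (ω ^ 2 * b1) • x 1 + (ω * b2) • x 2,
      b0 • x 0 + (ω * b1) • x 1 + (ω ^ 2 * b2) • x 2], Fr.mk3 ?_ ⟨one_ne_zero, ?_⟩
      ⟨F.ne (i := 0) (j := 1) (by decide), ?_⟩ ⟨one_ne_zero, ?_⟩, ?_, ?_⟩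
  · intro i j
    fin_cases i <;> fin_cases j <;> simp [add_dotProduct, dotProduct_add, d _ _] <;> (first | linear_combination p2 + r0 + (2) * r1 | linear_combination (a2 * b2) * hω + r0 + (ω + 1) * r1 | linear_combination (a1 * b1) * hω + r0 + (-ω) * r1 | linear_combination (a1 * b1 * ω + a2 * b2 * ω - a1 * b1 - a2 * b2) * hω + p2 + r0 + (2) * r1 | linear_combination (a1 * b1 * ω ^ 2 - a1 * b1 * ω + a2 * b2) * hω + r0 + (ω + 1) * r1 | linear_combination (a2 * b2 * ω ^ 2 - a2 * b2 * ω + a1 * b1) * hω + r0 + (-ω) * r1)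
  · refine (F.r3_root hω le_rfl (i := 1) (j := 2) (by decide) (b := (1 - ω) * a1)
      (c := (1 - ω ^ 2) * a2) (β := (1 - ω ^ 2) * b1) (γ := (1 - ω) * b2) (by (linear_combination (a1 * b1 * ω - 2 * a1 * b1) * hω + p2 + (3) * r1)) (by (linear_combination (a2 * b2 * ω - 2 * a2 * b2) * hω + p2))
      (by (linear_combination (-a2 ^ 3 * ω ^ 4 + a2 ^ 3 * ω ^ 3 + 3 * a2 ^ 3 * ω ^ 2 - a1 ^ 3 * ω - 4 * a2 ^ 3 * ω + 4 * a1 ^ 3 - 2 * a2 ^ 3) * hω + (-6 * ω - 3) * q2))).of_eq ?_ ?_ <;> simp <;> module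
  · refine (F.r3_root hω le_rfl (i := 0) (j := 1) (by decide) (b := (1 - ω) * a0)
      (c := (1 - ω ^ 2) * a1) (β := (1 - ω ^ 2) * b0) (γ := (1 - ω) * b1) (by (linear_combination (a0 * b0 * ω - 2 * a0 * b0) * hω + p2 + (3) * r0 + (3) * r1)) (by (linear_combination (a1 * b1 * ω - 2 * a1 * b1) * hω + p2 + (3) * r1))
      (by (linear_combination (-a1 ^ 3 * ω ^ 4 + a1 ^ 3 * ω ^ 3 + 3 * a1 ^ 3 * ω ^ 2 - a0 ^ 3 * ω - 4 * a1 ^ 3 * ω + 4 * a0 ^ 3 - 2 * a1 ^ 3) * hω + (-6 * ω - 3) * q1))).of_eq ?_ ?_ <;> simp [r3_inv c3] <;> match_scalars <;> (first | ring1 | linear_combination (-a2 * ω + a2) * hω | linear_combination (-b1 * ω ^ 2 + b1 * ω) * hω | linear_combination (-b2 * ω + b2) * hω)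
  · refine (F.r3_root hω le_rfl (i := 1) (j := 2) (by decide) (b := (1 - ω ^ 2) * a1)
      (c := (1 - ω) * a2) (β := (1 - ω) * b1) (γ := (1 - ω ^ 2) * b2) (by (linear_combination (a1 * b1 * ω - 2 * a1 * b1) * hω + p2 + (3) * r1)) (by (linear_combination (a2 * b2 * ω - 2 * a2 * b2) * hω + p2))
      (by (linear_combination (-a1 ^ 3 * ω ^ 4 + a1 ^ 3 * ω ^ 3 + 3 * a1 ^ 3 * ω ^ 2 - 4 * a1 ^ 3 * ω - a2 ^ 3 * ω - 2 * a1 ^ 3 + 4 * a2 ^ 3) * hω + (6 * ω + 3) * q2))).of_eq ?_ ?_ <;> simp <;> module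
  · simp [pp, add_dotProduct, dotProduct_add, ha0, ha1, ha2, hb0, hb1, hb2]
    apply mul_left_cancel₀ (mul_ne_zero h3 h3)
    linear_combination (27 * a2 * b2 + 9) * p2 + (9 * a0 * b0 - 9 * a1 * b1 + 54 * a2 * b2) * r0 + (36 * a0 * b0 + 72 * a2 * b2) * r1
  · intro j hj
    fin_cases j
    · exact (hj rfl).elim
    all_goals
      simp [Zr, add_dotProduct, dotProduct_add, ha0, ha1, ha2, hb0, hb1, hb2]
      constructor <;> (first | linear_combination (a1 * b1) * hω + r0 + (-ω) * r1 | linear_combination (a2 * b2) * hω + r0 + (ω + 1) * r1)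

end Cfsg.Agent.D5
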