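import Cfsg.Agent.DIM5.R3f

/-!
Frames of type `G(3, 3, k)`: types of roots for all `k`, standard coordinates.
-/

set_option autoImplicit false

open Matrix

namespace Cfsg.Agent.D5

variable {K : Type*} [Field K] {Γ : Type*} [Group Γ] {ρ : Γ →* M5 K} {u v w f g h : V5 K}
variable {ω : K} {k : ℕ} {e x : Fin k → V5 K} {i j l : Fin k}

theorem r3_third (hk : 3 ≤ k) (i j : Fin k) : ∃ l, l ≠ i ∧ l ≠ j := by
  by_contra hc
  push Not at hc
  have : (Finset.univ : Finset (Fin k)) ⊆ {i, j} := fun l _ => by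
    by_cases h : l = i
    · simp [h]
    · simp [hc l h]
  have h1 := Finset.card_le_card this
  have h2 : ({i, j} : Finset (Fin k)).card ≤ 2 := Finset.card_le_two
  simp at h1
  omega

theorem r3_inj (hij : i ≠ j) (hli : l ≠ i) (hlj : l ≠ j) : Function.Injective ![i, j, l] := by
  intro a b hab
  fin_cases a <;> fin_cases b <;> simp_all [eq_comm]

theorem Zr.ne_one (z : Zr e x v f l) (p : pp e x v f i = 1) : l ≠ i := by
  rintro rfl
  exact one_ne_zero (p.symm.trans z.pp0)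

/-- The types of roots. -/
theorem r3_gen (t : Tame ρ) (L : Lam1 ρ) (h3 : (3 : K) ≠ 0) (hω : ω ^ 2 + ω + 1 = 0)
    (F : Fr ρ e x ω) (hk : 3 ≤ k) (a : D ρ v f) : (∀ i, Zr e x v f i) ∨
    ((∀ i, 3 * pp e x v f i = 1) ∧ ∀ i j, (x i ⬝ᵥ v) ^ 3 = (x j ⬝ᵥ v) ^ 3) ∨
    ((∃ i, pp e x v f i = 1) ∧ (∃ l, Zr e x v f l) ∧ (∀ j, Zr e x v f j ∨ pp e x v f j = 1) ∧
      ∀ i j l, i ≠ j → pp e x v f i = 1 → pp e x v f j = 1 → Zr e x v f l →
        (x j ⬝ᵥ v) ^ 3 = -(x i ⬝ᵥ v) ^ 3 ∧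
        ((v = (x i ⬝ᵥ v) • e i + (x j ⬝ᵥ v) • e j ∧ f = (f ⬝ᵥ e i) • x i + (f ⬝ᵥ e j) • x j) ∨
          ((2 : K) = 0 ∧ D ρ (v - ((x i ⬝ᵥ v) • e i + (x j ⬝ᵥ v) • e j))
            (f - ((f ⬝ᵥ e i) • x i + (f ⬝ᵥ e j) • x j))))) := by
  have P := fun (i j : Fin k) (hij : i ≠ j) => r3_pair L h3 hω F hk a hij
  by_cases hc : ∀ i j, pp e x v f i = pp e x v f j
  · by_cases p0 : ∀ i, pp e x v f i = 0
    · exact Or.inl (F.zero t (r3_ne_one h3 hω) hk a p0)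
    · push Not at p0
      obtain ⟨i0, p0⟩ := p0
      have key : ∀ i j, i ≠ j → 3 * pp e x v f i = 1 ∧ (x j ⬝ᵥ v) ^ 3 = (x i ⬝ᵥ v) ^ 3 :=
        fun i j hij => by
          obtain ⟨l, hli, hlj⟩ := r3_third hk i j
          exact r3_three L h3 hω F hk a hij hli hlj (hc _ _) (hc _ _) (hc i0 i ▸ p0)
      refine Or.inr (Or.inl ⟨fun i => ?_, fun i j => ?_⟩)
      · obtain ⟨l, hl, -⟩ := r3_third hk i i
        exact (key i l hl.symm).1
      · by_cases hij : i = j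
        · rw [hij]
        · exact (key j i (Ne.symm hij)).2
  · push Not at hc
    obtain ⟨i0, l0, hc⟩ := hc
    obtain ⟨i0, l0, p0, z0⟩ : ∃ i l, pp e x v f i = 1 ∧ Zr e x v f l := by
      rcases P i0 l0 (fun e => hc (e ▸ rfl)) with q | q | q
      exacts [(hc q).elim, ⟨_, _, q⟩, ⟨_, _, q⟩]
    refine Or.inr (Or.inr ⟨⟨i0, p0⟩, ⟨l0, z0⟩, fun j => ?_, fun i j l hij pi pj z => ?_⟩)
    · by_cases hj : i0 = j
      · exact Or.inr (hj ▸ p0)
      · rcases P i0 j hj with q | q | q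
        exacts [Or.inr (q ▸ p0), Or.inl q.2, Or.inr q.1]
    · have hli := z.ne_one pi
      have hlj := z.ne_one pj
      refine ⟨r3_two L h3 hω F hk a hij hli hlj pi pj z, ?_⟩
      have := (F.comp _ (r3_inj hij hli hlj)).two t (r3_sq_ne_one h3 hω) a (i := 0) (j := 1)
        (l := 2) (by decide) (by decide) (by decide) pi pj z
      rw [r3_inv (r3_cube hω), show (ω + ω ^ 2) ^ 2 = 1 by
        linear_combination (ω ^ 2 + ω - 1) * hω, one_smul] at this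
      have e1 : rs (e ∘ ![i, j, l]) (x ∘ ![i, j, l]) v =
          v - ((x i ⬝ᵥ v) • e i + (x j ⬝ᵥ v) • e j) := by
        simp [rs, Fin.sum_univ_three, z.1]
      have e2 : rs (x ∘ ![i, j, l]) (e ∘ ![i, j, l]) f =
          f - ((f ⬝ᵥ e i) • x i + (f ⬝ᵥ e j) • x j) := by
        simp [rs, Fin.sum_univ_three, dotProduct_comm _ f, z.2]
      rwa [e1, e2, sub_eq_zero, sub_eq_zero] at this

theorem Lam1.cnj (L : Lam1 ρ) (B : (M5 K)ˣ) : Lam1 (cnj ρ B) := fun v f w g u h a b c n => by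
  have k := fun φ v => dot_cnj B⁻¹ φ v
  simp only [inv_inv] at k
  have := L _ _ _ _ _ _ ((D.cnj_iff B).1 a) ((D.cnj_iff B).1 b) ((D.cnj_iff B).1 c)
    (by simpa only [NS, k] using n)
  simpa only [lam, k] using this

theorem r3_std {E X : Fin 5 → V5 K} (d : Du E X) (ρ : Γ →* M5 K) : ∃ B : (M5 K)ˣ,
    ∀ v f, D (cnj ρ B) v f ↔ D ρ (∑ i, v i • E i) (∑ i, f i • X i) := by
  obtain ⟨B, hB⟩ := d.basis
  exact ⟨B, fun v f => by rw [D.cnj_iff, (hB v f).1, (hB v f).2]⟩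

theorem Fr.r3_cnj {E X : Fin 5 → V5 K} {ρ' : Γ →* M5 K} {θ : K}
    (hB : ∀ v f, D ρ' v f ↔ D ρ (∑ i, v i • E i) (∑ i, f i • X i)) (s : Fin k → Fin 5)
    (hs : Function.Injective s) (F : Fr ρ (E ∘ s) (X ∘ s) θ) :
    Fr ρ' (fun i => Pi.single (s i) 1) (fun i => Pi.single (s i) 1) θ := by
  have key : ∀ i j φ, Sw ρ (E ∘ s) (X ∘ s) i j φ →
      Sw ρ' (fun i => Pi.single (s i) 1) (fun i => Pi.single (s i) 1) i j φ := fun i j φ a =>
    ⟨a.1, (hB _ _).2 (a.2.of_eq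
      (by simp [sub_smul, Finset.sum_sub_distrib, Pi.single_apply])
      (by simp [sub_smul, Finset.sum_sub_distrib, Pi.single_apply]))⟩
  exact ⟨fun i j => by simp [Pi.single_apply, hs.eq_iff, eq_comm], fun i j h => key _ _ _ (F.one i j h),
    fun i j h => key _ _ _ (F.th i j h)⟩

/-- A root of type `T` for a `3`-frame yields a `4`-frame. -/
theorem r3_four {e x : Fin 3 → V5 K} (h3 : (3 : K) ≠ 0) (hω : ω ^ 2 + ω + 1 = 0) (F : Fr ρ e x ω)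
    (a : D ρ v f) (h1 : ∀ i, 3 * pp e x v f i = 1) (h2 : ∀ i j, (x i ⬝ᵥ v) ^ 3 = (x j ⬝ᵥ v) ^ 3) :
    ∃ E X : Fin 4 → V5 K, Fr ρ E X ω := by
  obtain ⟨E, X, F', p, z⟩ := fourier h3 hω F h1 h2
  exact F'.snoc (by norm_num) a p z

theorem r3_rs_pair (d : Du e x) (i j : Fin k) (a b : K) : rs e x (a • e i + b • e j) = 0 := by
  have : Inn e x (a • e i + b • e j) 0 :=
    ⟨Submodule.add_mem _ (Submodule.smul_mem _ _ (Submodule.subset_span ⟨i, rfl⟩))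
      (Submodule.smul_mem _ _ (Submodule.subset_span ⟨j, rfl⟩)), Submodule.zero_mem _⟩
  exact (d.inn_iff.1 this).1

theorem r3_mon (hij : i ≠ j) (pi : pp e x v f i = 1) (pj : pp e x v f j = 1)
    (h : v = (x i ⬝ᵥ v) • e i + (x j ⬝ᵥ v) • e j ∧ f = (f ⬝ᵥ e i) • x i + (f ⬝ᵥ e j) • x j) :
    Mon e x v f :=
  Or.inl ⟨i, j, _, _, hij, left_ne_zero_of_mul_eq_one pi, left_ne_zero_of_mul_eq_one pj, h.1, by
    rw [← eq_inv_of_mul_eq_one_right pi, ← eq_inv_of_mul_eq_one_right pj]; exact h.2⟩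

theorem v5_ext (h0 : v 0 = w 0) (h1 : v 1 = w 1) (h2 : v 2 = w 2) (h3 : v 3 = w 3)
    (h4 : v 4 = w 4) : v = w := by
  ext i
  fin_cases i
  exacts [h0, h1, h2, h3, h4]

theorem v5_dot (f v : V5 K) :
    f ⬝ᵥ v = f 0 * v 0 + f 1 * v 1 + f 2 * v 2 + f 3 * v 3 + f 4 * v 4 := by
  simp [dotProduct, Fin.sum_univ_five]

end Cfsg.Agent.D5
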