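import Cfsg.Agent.DIM5.R3g

/-!
Odd characteristic: a reflection group with a frame `G(3, 3, 3)` is `G₃₃`.
-/

set_option autoImplicit false

open Matrix

namespace Cfsg.Agent.D5

variable {K : Type*} [Field K] {Γ : Type*} [Group Γ] {ρ : Γ →* M5 K} {u v w f g h : V5 K}

section aux

variable {ω : K}

theorem r3o_no5 (r : RH ρ) (L : Lam1 ρ) (h2 : (2 : K) ≠ 0) (h3 : (3 : K) ≠ 0)
    (hω : ω ^ 2 + ω + 1 = 0) {e x : Fin 5 → V5 K} (F : Fr ρ e x ω) : False := by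
  refine r.mono_false F (r3_ne_one h3 hω) fun v f a => ?_
  have s : ∑ i, pp e x v f i = 2 := by
    have := F.du.dot_eq f v
    rw [F.du.five v, dotProduct_zero, add_zero, a.1] at this
    exact this.symm
  rcases r3_gen r.toTame L h3 hω F (by norm_num) a with q | q | ⟨⟨i, pi⟩, ⟨l, z⟩, q, q'⟩
  · simp only [fun i => (q i).pp0, Finset.sum_const_zero] at s
    exact (h2 s.symm).elim
  · rw [Fin.sum_univ_five] at s
    exact (one_ne_zero (α := K)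
      (by linear_combination q.1 0 + q.1 1 + q.1 2 + q.1 3 + q.1 4 - 3 * s)).elim
  · by_cases hj : ∃ j, j ≠ i ∧ pp e x v f j = 1
    · obtain ⟨j, hj, pj⟩ := hj
      exact r3_mon hj.symm pi pj ((q' i j l hj.symm pi pj z).2.resolve_right fun e => h2 e.1)
    · push Not at hj
      rw [Finset.sum_eq_single i (fun j _ h => ((q j).resolve_right (hj j h)).pp0) (by simp),
        pi] at s
      exact (one_ne_zero (α := K) (by linear_combination -s)).elim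

theorem r3o_four (r : RH ρ) (L : Lam1 ρ) (h2 : (2 : K) ≠ 0) (h3 : (3 : K) ≠ 0)
    (hω : ω ^ 2 + ω + 1 = 0) {e x : Fin 3 → V5 K} (F : Fr ρ e x ω) :
    ∃ E X : Fin 4 → V5 K, Fr ρ E X ω := by
  obtain ⟨v, f, a, ⟨i, hi⟩, hv⟩ := r.outer F.du (by norm_num) (by norm_num)
  rcases tri3 r.toTame L h3 hω F a with q | ⟨j, p, z⟩ | ⟨_, _, _, -, -, -, -, -, -, -, q⟩ | q
  · exact (hi (q i).2).elim
  · exact F.snoc (by norm_num) a p z
  · exact (q.elim (fun q => hv q.1) fun q => h2 q.1).elim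
  · exact r3_four h3 hω F a q.1 q.2

/-- The types of roots with respect to a `4`-frame. -/
theorem r3o_ty (r : RH ρ) (L : Lam1 ρ) (h2 : (2 : K) ≠ 0) (h3 : (3 : K) ≠ 0)
    (hω : ω ^ 2 + ω + 1 = 0) {e x : Fin 4 → V5 K} (F : Fr ρ e x ω) (a : D ρ v f) :
    (∀ i, Zr e x v f i) ∨
    ((∀ i, 3 * pp e x v f i = 1) ∧ ∀ i j, (x i ⬝ᵥ v) ^ 3 = (x j ⬝ᵥ v) ^ 3) ∨
    ∃ i j, i ≠ j ∧ pp e x v f i = 1 ∧ pp e x v f j = 1 ∧ (x j ⬝ᵥ v) ^ 3 = -(x i ⬝ᵥ v) ^ 3 ∧
      v = (x i ⬝ᵥ v) • e i + (x j ⬝ᵥ v) • e j ∧ f = (f ⬝ᵥ e i) • x i + (f ⬝ᵥ e j) • x j := by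
  rcases r3_gen r.toTame L h3 hω F (by norm_num) a with q | q | ⟨⟨i, pi⟩, ⟨l, z⟩, q, q'⟩
  · exact Or.inl q
  · exact Or.inr (Or.inl q)
  · by_cases hj : ∃ j, j ≠ i ∧ pp e x v f j = 1
    · obtain ⟨j, hj, pj⟩ := hj
      have := q' i j l hj.symm pi pj z
      exact Or.inr (Or.inr ⟨i, j, hj.symm, pi, pj, this.1, this.2.resolve_right fun e => h2 e.1⟩)
    · push Not at hj
      obtain ⟨E, X, F'⟩ := F.snoc (by norm_num) a pi fun j h => (q j).resolve_right (hj j h)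
      exact (r3o_no5 r L h2 h3 hω F').elim

theorem r3o_norm (r : RH ρ) (L : Lam1 ρ) (h2 : (2 : K) ≠ 0) (h3 : (3 : K) ≠ 0)
    (hω : ω ^ 2 + ω + 1 = 0) {e x : Fin 4 → V5 K} (F : Fr ρ e x ω) :
    ∃ (e x : Fin 4 → V5 K) (v f : V5 K), Fr ρ e x ω ∧ D ρ v f ∧ (∀ i, x i ⬝ᵥ v = 1) ∧
      ∀ i, 3 * (f ⬝ᵥ e i) = 1 := by
  obtain ⟨v, f, a, ⟨i, hi⟩, hv⟩ := r.outer F.du (by norm_num) (by norm_num)
  rcases r3o_ty r L h2 h3 hω F a with q | ⟨q, q'⟩ | ⟨i, j, -, -, -, -, q, -⟩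
  · exact (hi (q i).2).elim
  · simp only [pp] at q
    have key : ∀ i, (3 * (f ⬝ᵥ e 0) * (x i ⬝ᵥ v)) ^ 3 = 1 := fun i => by
      have q0 := q 0
      have q1 := q' i 0
      linear_combination (9 * (f ⬝ᵥ e 0) ^ 2 * (x 0 ⬝ᵥ v) ^ 2 + 3 * (f ⬝ᵥ e 0) * (x 0 ⬝ᵥ v) + 1) * q0 + (27 * (f ⬝ᵥ e 0) ^ 3) * q1
    choose n hn using fun i => r3_cases hω (key i)
    refine ⟨_, _, _, _, F.scale (by norm_num) n,
      a.smul' (c := 3 * (f ⬝ᵥ e 0)) (d := x 0 ⬝ᵥ v) (by linear_combination q 0), fun i => ?_,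
      fun i => ?_⟩
    · have := key i
      simp only [smul_dotProduct, dotProduct_smul, smul_eq_mul, ← hn, r3_inv this]
      linear_combination this
    · have q0 := q 0
      have q1 := q i
      simp only [smul_dotProduct, dotProduct_smul, smul_eq_mul, ← hn]
      linear_combination (3 * (f ⬝ᵥ e i) * (x i ⬝ᵥ v)) * q0 + q1
  · exact (hv (q ▸ r3_rs_pair F.du i j _ _)).elim

/-- The standard `4`-frame. -/
def r3s (K : Type*) [Field K] (i : Fin 4) : V5 K := Pi.single i.castSucc 1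

theorem r3s_dot (i : Fin 4) (v : V5 K) : r3s K i ⬝ᵥ v = v i.castSucc := by simp [r3s]

theorem dot_r3s (i : Fin 4) (v : V5 K) : v ⬝ᵥ r3s K i = v i.castSucc := by simp [r3s]

theorem rs_r3s (v : V5 K) : rs (r3s K) (r3s K) v = Pi.single 4 (v 4) := by
  ext i
  fin_cases i <;> simp [rs, r3s, Fin.sum_univ_four]

theorem r3o_dg (hω : ω ^ 2 + ω + 1 = 0) (F : Fr ρ (r3s K) (r3s K) ω) (a : D ρ v f) {d0 d1 d2 d3 : K}
    (h0 : d0 ^ 3 = 1) (h1 : d1 ^ 3 = 1) (h2 : d2 ^ 3 = 1) (h3 : d3 ^ 3 = 1)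
    (hp : d0 * d1 * d2 * d3 = 1) : D ρ ![d0 * v 0, d1 * v 1, d2 * v 2, d3 * v 3, v 4]
      ![d0 ^ 2 * f 0, d1 ^ 2 * f 1, d2 ^ 2 * f 2, d3 ^ 2 * f 3, f 4] := by
  obtain ⟨v', f', a', e1, e2, e3, e4⟩ := F.r3_dg hω (by norm_num) a (d := ![d0, d1, d2, d3])
    (fun i => by fin_cases i <;> simpa) (by simpa [Fin.prod_univ_four] using hp)
  refine r3_ext (e := r3s K) (x := r3s K) a' (fun l => ?_) (fun l => ?_) ?_ ?_
  · rw [e1, r3s_dot, r3s_dot]; fin_cases l <;> rfl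
  · rw [e2, dot_r3s, dot_r3s]; fin_cases l <;> rfl
  · rw [e3]; simp [rs_r3s]
  · rw [e4]; simp [rs_r3s]

theorem r3o_key (r : RH ρ) (L : Lam1 ρ) (h2 : (2 : K) ≠ 0) (h3 : (3 : K) ≠ 0)
    (hω : ω ^ 2 + ω + 1 = 0) (F : Fr ρ (r3s K) (r3s K) ω) {t s σ : K} (ht : 3 * t = 1)
    (a0 : D ρ ![1, 1, 1, 1, 1] ![t, t, t, t, 2 * t]) (a : D ρ ![1, 1, 1, 1, s] ![t, t, t, t, σ]) :
    s = 1 ∧ σ = 2 * t := by
  have c3 := r3_cube hω
  have hs := r3_sq_ne h3 hω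
  have h1 : s * σ = 2 * t := by
    have := a.1
    simp [dotProduct, Fin.sum_univ_five] at this
    linear_combination this + (-2) * ht
  suffices s = 1 from ⟨this, by rw [← h1, this, one_mul]⟩
  have b := (r3o_dg hω F a0 c3 c3 (d2 := ω ^ 2) (d3 := ω ^ 2) (by (linear_combination (ω ^ 4 - ω ^ 3 + ω - 1) * hω)) (by (linear_combination (ω ^ 4 - ω ^ 3 + ω - 1) * hω))
    (by (linear_combination (ω ^ 4 - ω ^ 3 + ω - 1) * hω))).act a
  obtain ⟨τ, hτ⟩ : ∃ τ, τ = 2 * t * (s - 1) := ⟨_, rfl⟩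
  obtain ⟨τ', hτ'⟩ : ∃ τ, τ = σ - 2 * t := ⟨_, rfl⟩
  replace b : D ρ ![1 - τ * ω, 1 - τ * ω, 1 - τ * ω ^ 2, 1 - τ * ω ^ 2, s - τ]
      ![t * (1 - τ' * ω ^ 2), t * (1 - τ' * ω ^ 2), t * (1 - τ' * ω), t * (1 - τ' * ω),
        σ - τ' * (2 * t)] := by
    refine b.of_eq ?_ ?_ <;> apply v5_ext <;>
      simp only [v5_dot, cons_val, Pi.sub_apply, Pi.smul_apply, smul_eq_mul, hτ, hτ'] <;> (first | linear_combination (2 * t * ω ^ 3 - 2 * t * ω ^ 2 + 2 * t * ω) * hω | linear_combination (2 * t * ω ^ 4 - 2 * t * ω ^ 3 + 2 * t * ω ^ 2) * hω | linear_combination (2 * t * ω ^ 2 - 2 * t * ω + 2 * t) * hω | linear_combination (2 * t ^ 2 * ω ^ 2) * hω | linear_combination (2 * t ^ 2 * ω ^ 4 - 2 * t ^ 2 * ω ^ 2 + t * σ * ω ^ 2 + 2 * t ^ 2 * ω - t * σ * ω) * hω | linear_combination (4 * t ^ 2) * hω)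
  have n1 : 1 - τ * ω = 0 → 1 - τ * ω ^ 2 = 0 → False := fun e1 e2 => hs (by (linear_combination (ω ^ 2) * e1 + (-ω) * e2))
  have n2 : ∀ y : K, y ^ 3 = -y ^ 3 → y = 0 := fun y e =>
    pow_eq_zero_iff (n := 3) (by norm_num) |>.1 (mul_left_cancel₀ h2 (by (linear_combination e)))
  rcases r3o_ty r L h2 h3 hω F b with q | ⟨q, -⟩ | ⟨i, j, hij, -, -, q, q', -⟩
  · have q0 := (q 0).1
    have q2 := (q 2).1
    simp only [r3s_dot] at q0 q2
    exact (n1 q0 q2).elim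
  · have q0 := q 0
    have q2 := q 2
    simp only [pp, r3s_dot, dot_r3s] at q0 q2
    replace q0 : 3 * ((1 - τ * ω) * (t * (1 - τ' * ω ^ 2))) = 1 := q0
    replace q2 : 3 * ((1 - τ * ω ^ 2) * (t * (1 - τ' * ω))) = 1 := q2
    have e1 : τ = τ' := mul_left_cancel₀ hs (by (linear_combination q0 + (-1) * q2 + (-τ * ω ^ 2 + τ' * ω ^ 2 + τ * ω - τ' * ω) * ht))
    have e2 : τ * (τ + 1) = 0 := by (linear_combination q0 + (3 * t * τ * ω ^ 3 - 3 * t * ω ^ 2) * e1 + (-τ ^ 2 * ω ^ 3 - τ - 1) * ht + (-τ ^ 2 * ω + 3 * t * τ + τ ^ 2) * hω)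
    have e3 : (s - 1) * (s + 1) = 0 := mul_left_cancel₀ h2 (by (linear_combination (3 * s) * e1 + (-3 * s) * hτ + (3 * s) * hτ' + (3) * h1 + (-2 * s ^ 2 + 2) * ht))
    rcases mul_eq_zero.1 e3 with e | e
    · exact sub_eq_zero.1 e
    · exact (mul_ne_zero h2 h2 (by (linear_combination (-18 * t * τ + 6 * t) * e + (9) * e2 + (-9 * τ + 3) * hτ + (12 * τ - 4) * ht))).elim
  · exfalso
    simp only [r3s_dot] at q q'
    have q0 := congrFun q' 0
    have q1 := congrFun q' 1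
    have q2 := congrFun q' 2
    have q3 := congrFun q' 3
    fin_cases i <;> fin_cases j <;> simp [r3s] at hij q q0 q1 q2 q3 <;>
      first | exact n1 (n2 _ q) q2 | exact n1 q0 (n2 _ q) | exact n1 q0 q2 | exact n1 q0 q3 |
        exact n1 q1 q2 | exact n1 q1 q3

theorem r3o_main (r : RH ρ) (L : Lam1 ρ) (h2 : (2 : K) ≠ 0) (h3 : (3 : K) ≠ 0)
    (hω : ω ^ 2 + ω + 1 = 0) (F : Fr ρ (r3s K) (r3s K) ω) {t : K} (ht : 3 * t = 1)
    (a0 : D ρ ![1, 1, 1, 1, 1] ![t, t, t, t, 2 * t]) (v f : V5 K) : D ρ v f ↔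
      ∃ (c : K) (v' f' : V5 K), c ≠ 0 ∧ G33R v' f' ∧ v = c • v' ∧ f = c⁻¹ • f' := by
  have ht' : (3 : K)⁻¹ = t := inv_eq_of_mul_eq_one_right ht
  constructor
  · intro a
    rcases r3o_ty r L h2 h3 hω F a with q | ⟨q, q'⟩ | ⟨i, j, hij, pi, pj, q, q1, q2⟩
    · exfalso
      simp only [Zr, r3s_dot, dot_r3s] at q
      have v0 : v 0 = 0 := (q 0).1
      have v1 : v 1 = 0 := (q 1).1
      have v2 : v 2 = 0 := (q 2).1
      have v3 : v 3 = 0 := (q 3).1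
      have f0 : f 0 = 0 := (q 0).2
      have f1 : f 1 = 0 := (q 1).2
      have f2 : f 2 = 0 := (q 2).2
      have f3 : f 3 = 0 := (q 3).2
      have h4 := a.1
      simp [dotProduct, Fin.sum_univ_five, v0, v1, v2, v3] at h4
      have := (r3o_key r L h2 h3 hω F ht a0 (s := -1) (σ := -(2 * t)) ((a.act a0).of_eq ?_ ?_)).1
      · exact h2 (by linear_combination -this)
      all_goals
        ext i
        fin_cases i <;> simp [dotProduct, Fin.sum_univ_five, v0, v1, v2, v3, f0, f1, f2, f3]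
        first | linear_combination h4 | linear_combination (2 * t) * h4
    · simp only [pp, r3s_dot, dot_r3s] at q q'
      have p0 : v 0 * f 0 = t := mul_left_cancel₀ h3 ((q 0).trans ht.symm)
      have p1 : v 1 * f 1 = t := mul_left_cancel₀ h3 ((q 1).trans ht.symm)
      have p2 : v 2 * f 2 = t := mul_left_cancel₀ h3 ((q 2).trans ht.symm)
      have p3 : v 3 * f 3 = t := mul_left_cancel₀ h3 ((q 3).trans ht.symm)
      obtain ⟨y, hy⟩ : ∃ y, y = 3 * f 0 := ⟨_, rfl⟩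
      have y0 : v 0 * y = 1 := by (linear_combination ((v 0)) * hy + (3) * p0 + ht)
      have c1 : (v 1 * y) ^ 3 = 1 := by have : v 1 ^ 3 = v 0 ^ 3 := q' 1 0; (linear_combination (y ^ 3) * this + ((v 0) ^ 2 * y ^ 2 + (v 0) * y + 1) * y0)
      have c2 : (v 2 * y) ^ 3 = 1 := by have : v 2 ^ 3 = v 0 ^ 3 := q' 2 0; (linear_combination (y ^ 3) * this + ((v 0) ^ 2 * y ^ 2 + (v 0) * y + 1) * y0)
      have c3 : (v 3 * y) ^ 3 = 1 := by have : v 3 ^ 3 = v 0 ^ 3 := q' 3 0; (linear_combination (y ^ 3) * this + ((v 0) ^ 2 * y ^ 2 + (v 0) * y + 1) * y0)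
      obtain ⟨P, hP⟩ : ∃ P, P = v 1 * y * (v 2 * y) * (v 3 * y) := ⟨_, rfl⟩
      have P3 : P ^ 3 = 1 := by rw [hP, mul_pow, mul_pow, c1, c2, c3]; ring
      obtain ⟨c, hc⟩ : ∃ c, c = v 0 * P := ⟨_, rfl⟩
      obtain ⟨c', hc'⟩ : ∃ c, c = y * P ^ 2 := ⟨_, rfl⟩
      have cc : c' * c = 1 := by rw [hc, hc']; (linear_combination (P ^ 3) * y0 + P3)
      have P6 : (P ^ 2) ^ 3 = 1 := by (linear_combination (P ^ 3 + 1) * P3)
      have b0 : (v 0 * c') ^ 3 = 1 := by rw [hc', ← mul_assoc, y0, one_mul, P6]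
      have b1 : (v 1 * c') ^ 3 = 1 := by rw [hc', ← mul_assoc, mul_pow, c1, P6, one_mul]
      have b2 : (v 2 * c') ^ 3 = 1 := by rw [hc', ← mul_assoc, mul_pow, c2, P6, one_mul]
      have b3 : (v 3 * c') ^ 3 = 1 := by rw [hc', ← mul_assoc, mul_pow, c3, P6, one_mul]
      have bp : v 0 * c' * (v 1 * c') * (v 2 * c') * (v 3 * c') = 1 := by
        have : v 0 * c' * (v 1 * c') * (v 2 * c') * (v 3 * c') =
            v 0 * y * (v 1 * y * (v 2 * y) * (v 3 * y)) * P ^ 8 := by rw [hc']; ring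
        rw [this, ← hP, y0]
        linear_combination (P ^ 6 + P ^ 3 + 1) * P3
      have sq : ∀ {z : K}, z ^ 3 = 1 → (z ^ 2) ^ 3 = 1 := fun e => by
        rw [← pow_mul, mul_comm, pow_mul, e, one_pow]
      have k := r3o_key r L h2 h3 hω F ht a0 (s := c' * v 4) (σ := c * f 4)
        ((r3o_dg hω F (a.smul' cc) (sq b0) (sq b1) (sq b2) (sq b3)
          (by rw [← mul_pow, ← mul_pow, ← mul_pow, bp, one_pow])).of_eq ?_ ?_)
      · have k1 := k.1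
        have k2 := k.2
        refine ⟨c, _, _, right_ne_zero_of_mul_eq_one cc,
          Or.inr ⟨_, _, _, _, b0, b1, b2, b3, bp, rfl, rfl⟩, ?_, ?_⟩
        · apply v5_ext <;> simp only [v5_dot, cons_val, Pi.sub_apply, Pi.smul_apply, smul_eq_mul] <;> (first | linear_combination (-(v 0)) * cc | linear_combination (-(v 1)) * cc | linear_combination (-(v 2)) * cc | linear_combination (-(v 3)) * cc | linear_combination (-(v 4)) * cc + (c) * k1)
        · rw [← eq_inv_of_mul_eq_one_left cc, ht']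
          apply v5_ext <;> simp only [v5_dot, cons_val, Pi.sub_apply, Pi.smul_apply, smul_eq_mul]
          · linear_combination (-(f 0)) * b0 + ((v 0) ^ 2 * c' ^ 3) * p0
          · linear_combination (-(f 1)) * b1 + ((v 1) ^ 2 * c' ^ 3) * p1
          · linear_combination (-(f 2)) * b2 + ((v 2) ^ 2 * c' ^ 3) * p2
          · linear_combination (-(f 3)) * b3 + ((v 3) ^ 2 * c' ^ 3) * p3
          · linear_combination (-(f 4)) * cc + (c') * k2
      · apply v5_ext <;> simp only [v5_dot, cons_val, Pi.sub_apply, Pi.smul_apply, smul_eq_mul] <;> (first | linear_combination (-1) * b0 | linear_combination (-1) * b1 | linear_combination (-1) * b2 | linear_combination (-1) * b3)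
      · apply v5_ext <;> simp only [v5_dot, cons_val, Pi.sub_apply, Pi.smul_apply, smul_eq_mul]
        · linear_combination (-(f 0) * (v 0) * c * c') * b0 + (-c * c') * p0 + (-t) * cc
        · linear_combination (-(f 1) * (v 1) * c * c') * b1 + (-c * c') * p1 + (-t) * cc
        · linear_combination (-(f 2) * (v 2) * c * c') * b2 + (-c * c') * p2 + (-t) * cc
        · linear_combination (-(f 3) * (v 3) * c * c') * b3 + (-c * c') * p3 + (-t) * cc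
    · simp only [pp] at pi pj
      generalize r3s K i ⬝ᵥ v = a1 at *
      generalize r3s K j ⬝ᵥ v = a2 at *
      generalize f ⬝ᵥ r3s K i = b1 at *
      generalize f ⬝ᵥ r3s K j = b2 at *
      refine ⟨a1, _, _, left_ne_zero_of_mul_eq_one pi, Or.inl ⟨i.castSucc, j.castSucc, -(a2 * b1),
        fun e => hij (Fin.castSucc_injective _ e), (Fin.castSucc_lt_last i).ne,
        (Fin.castSucc_lt_last j).ne, by (linear_combination (a1 ^ 2 * b1 ^ 2 + a1 * b1 + 1) * pi + (-b1 ^ 3) * q), rfl, rfl⟩, ?_, ?_⟩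
      · rw [q1]; simp only [r3s]; match_scalars <;> (first | ring1 | linear_combination (-a2) * pi)
      · rw [q2, ← eq_inv_of_mul_eq_one_right pi]; simp only [r3s]; match_scalars <;> (first | ring1 | linear_combination (-a1 ^ 2 * b1 ^ 2 * b2 - a1 * b1 * b2 - b2) * pi + (-a2 ^ 2 * b1 ^ 3) * pj + (b1 ^ 3 * b2) * q)
  · rintro ⟨c, v', f', hc, G, rfl, rfl⟩
    refine D.smul ?_ hc
    rcases G with ⟨i, j, a, hij, hi, hj, ha, rfl, rfl⟩ | ⟨a, b, c, d, ha, hb, hc, hd, hp, rfl, rfl⟩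
    · obtain ⟨i, rfl⟩ := Fin.exists_castSucc_eq.2 hi
      obtain ⟨j, rfl⟩ := Fin.exists_castSucc_eq.2 hj
      exact F.r3_sw hω (by norm_num) (fun e => hij (congrArg _ e)) ha
    · refine (r3o_dg hω F a0 ha hb hc hd hp).of_eq ?_ ?_
      · simp
      · rw [ht']
        ext i
        fin_cases i <;> simp [mul_comm]

end aux

variable {e x : Fin 3 → V5 K} {ω : K}

theorem RH.g33 (r : RH ρ) (L : Lam1 ρ) (h2 : (2 : K) ≠ 0) (h3 : (3 : K) ≠ 0)
    (hω : ω ^ 2 + ω + 1 = 0) (F : Fr ρ e x ω) : IsG33 ρ := by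
  obtain ⟨e, x, F⟩ := r3o_four r L h2 h3 hω F
  obtain ⟨e, x, v, f, F, a, h4, h5⟩ := r3o_norm r L h2 h3 hω F
  obtain ⟨t, ht⟩ : ∃ t : K, 3 * t = 1 := ⟨3⁻¹, mul_inv_cancel₀ h3⟩
  obtain ⟨s, hs⟩ : ∃ s : K, 2 * s = 1 := ⟨2⁻¹, mul_inv_cancel₀ h2⟩
  have h6 : ∀ i, f ⬝ᵥ e i = t := fun i => mul_left_cancel₀ h3 ((h5 i).trans ht.symm)
  have d := F.du
  have h7 : rs x e f ⬝ᵥ rs e x v = 2 * t := by
    have := d.dot_eq f v
    simp only [h4, h6, a.1, Fin.sum_univ_four] at this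
    linear_combination (-1) * this + (-2) * ht
  have d5 : Du ![e 0, e 1, e 2, e 3, rs e x v] ![x 0, x 1, x 2, x 3, (3 * s) • rs x e f] := by
    intro i j
    fin_cases i <;> fin_cases j <;> simp [d _ _, d.dot_rs, d.rs_dot, h7]
    linear_combination (6 * s - 2) * ht + (-6 * t + 3) * hs
  obtain ⟨B, hB⟩ := r3_std d5 ρ
  refine ⟨h2, h3, ⟨ω, hω⟩, B, r3o_main (r.cnj B) (L.cnj B) h2 h3 hω
    (Fr.r3_cnj hB Fin.castSucc (Fin.castSucc_injective _) ?_) ht ((hB _ _).2 (a.of_eq ?_ ?_))⟩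
  · convert F using 1 <;> ext1 i <;> fin_cases i <;> rfl
  · conv_rhs => rw [← sum_add_rs e x v]
    simp [Fin.sum_univ_five, Fin.sum_univ_four, h4]
  · conv_rhs => rw [← sum_add_rs' e x f]
    simp only [Fin.sum_univ_five, Fin.sum_univ_four, h6]
    simp
    match_scalars <;> (linear_combination (6 * s - 2) * ht + (-6 * t + 3) * hs)

end Cfsg.Agent.D5
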