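import Cfsg.Agent.DIM5.RFr

/-!
The types of reflections with respect to a frame `G(4, 4, 3)`.
-/

set_option autoImplicit false

open Matrix

namespace Cfsg.Agent.D5

variable {K : Type*} [Field K] {Γ : Type*} [Group Γ] {ρ : Γ →* M5 K} {u v w f g h : V5 K}

namespace R4

variable {k : ℕ} {e x : Fin k → V5 K} {y φ ψ : K} {i j l : Fin k}

/-- Four values in `{1, 2}`. -/
theorem four (h2 : (2 : K) ≠ 0) (hy : y ^ 2 = -1) {P s t : K}
    (a : P - s - t = 1 ∨ P - s - t = 2) (b : P + s + t = 1 ∨ P + s + t = 2)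
    (c : P - y * s + y * t = 1 ∨ P - y * s + y * t = 2)
    (d : P + y * s - y * t = 1 ∨ P + y * s - y * t = 2) :
    (s = 0 ∧ t = 0 ∧ (P = 1 ∨ P = 2)) ∨ (2 * P = 3 ∧ 8 * (s * t) = 1 ∧ s ^ 2 + t ^ 2 = 0) := by
  have c2 : ∀ {a b : K}, 2 * a = 2 * b → a = b := fun h => mul_left_cancel₀ h2 h
  have c4 : ∀ {a b : K}, 2 * (2 * a) = 2 * (2 * b) → a = b := fun h => c2 (c2 h)
  have z : ∀ {r : K}, r = 1 ∨ r = 2 → P - s - t = r → P + s + t = r → P - y * s + y * t = r →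
      P + y * s - y * t = r → s = 0 ∧ t = 0 ∧ (P = 1 ∨ P = 2) := fun {r} hc a b c d =>
    ⟨c4 (by linear_combination b - a + y * (c - d) + 2 * (s - t) * hy),
      c4 (by linear_combination b - a - y * (c - d) - 2 * (s - t) * hy),
      by rwa [c2 (show 2 * P = 2 * r by linear_combination a + b)]⟩
  have q : 2 * P = 3 → (2 * (s + t)) ^ 2 = 1 → (2 * (y * s - y * t)) ^ 2 = 1 →
      2 * P = 3 ∧ 8 * (s * t) = 1 ∧ s ^ 2 + t ^ 2 = 0 := fun a b c =>
    ⟨a, c2 (by linear_combination b + c - 4 * (s - t) ^ 2 * hy),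
      c2 (c4 (by linear_combination b - c + 4 * (s - t) ^ 2 * hy))⟩
  have n1 : ∀ {Q : Prop}, (1 : K) = 0 → Q := fun h => (one_ne_zero h).elim
  rcases a with a | a <;> rcases b with b | b <;> rcases c with c | c <;> rcases d with d | d
  all_goals first
    | exact Or.inl (z (Or.inl rfl) a b c d)
    | exact Or.inl (z (Or.inr rfl) a b c d)
    | exact n1 (by linear_combination a + b - c - d)
    | exact n1 (by linear_combination c + d - a - b)
    | exact (h2 (by linear_combination a + b - c - d)).elim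
    | exact (h2 (by linear_combination c + d - a - b)).elim
    | exact Or.inr (q (by linear_combination a + b)
        (by first
          | linear_combination (2 * (s + t) + 1) * (b - a)
          | linear_combination (2 * (s + t) - 1) * (b - a))
        (by first
          | linear_combination (2 * (y * s - y * t) + 1) * (d - c)
          | linear_combination (2 * (y * s - y * t) - 1) * (d - c)))

/-- The roots of the frame group. -/
theorem nrt (F : Fr ρ e x y) (hk : 3 ≤ k) (hy : y ^ 2 = -1) (hij : i ≠ j) (hφ : φ ^ 4 = 1)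
    (hψ : φ * ψ = 1) : D ρ (e i - φ • e j) (x i - ψ • x j) := by
  have : (φ - 1) * (φ - y) * (φ - y ^ 2) * (φ - y ^ 3) = 0 := by
    rw [show y ^ 3 = -y by linear_combination y * hy, hy]
    linear_combination hφ - (φ ^ 2 - 1) * hy
  simp only [mul_eq_zero, sub_eq_zero] at this
  rw [eq_inv_of_mul_eq_one_right hψ]
  rcases this with ((rfl | rfl) | rfl) | rfl
  exacts [(F.one _ _ hij).2, (F.th _ _ hij).2, ((F.pow hk 2).th _ _ hij).2,
    ((F.pow hk 3).th _ _ hij).2]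

theorem lam_sw (a b : V5 K) : lam (e i - φ • e j) (x i - ψ • x j) a b =
    (x i ⬝ᵥ a - ψ * (x j ⬝ᵥ a)) * (b ⬝ᵥ e i - φ * (b ⬝ᵥ e j)) := by
  simp [lam]

theorem y4 (hy : y ^ 2 = -1) : y ^ 4 = 1 := by linear_combination (y ^ 2 - 1) * hy

theorem y0 (hy : y ^ 2 = -1) : y ≠ 0 := by rintro rfl; simp at hy

theorem y1 (h2 : (2 : K) ≠ 0) (hy : y ^ 2 = -1) : y ≠ 1 := by
  rintro rfl; exact h2 (by linear_combination hy)

theorem y2 (h2 : (2 : K) ≠ 0) (hy : y ^ 2 = -1) : y ^ 2 ≠ 1 := fun h =>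
  h2 (by linear_combination hy - h)

/-- Different diagonal entries give non-symmetric triangles. -/
theorem lam_ne (L : Lam ρ) (h2 : (2 : K) ≠ 0) (F : Fr ρ e x y) (hk : 3 ≤ k) (hy : y ^ 2 = -1)
    (a : D ρ v f) (hij : i ≠ j) (hp : pp e x v f i ≠ pp e x v f j) (hφ : φ ^ 4 = 1)
    (hψ : φ * ψ = 1) : lam (e i - φ • e j) (x i - ψ • x j) v f = 1 ∨
      lam (e i - φ • e j) (x i - ψ • x j) v f = 2 := by
  have d := F.du
  refine L _ _ _ _ _ _ (nrt F hk hy hij hφ hψ) a (nrt (φ := y * φ) (ψ := -(y * ψ)) F hk hy hij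
    (by rw [mul_pow, y4 hy, hφ, mul_one]) (by linear_combination hψ - φ * ψ * hy)) fun h => hp ?_
  simp only [sub_dotProduct, dotProduct_sub, smul_dotProduct, dotProduct_smul, d.eq, d.ne hij,
    d.ne hij.symm, smul_eq_mul] at h
  refine mul_left_cancel₀ (mul_ne_zero h2 (y0 hy)) ?_
  simp only [pp]
  grind

/-- A third non-zero entry gives non-symmetric triangles. -/
theorem lam_third (L : Lam ρ) (h2 : (2 : K) ≠ 0) (F : Fr ρ e x y) (hk : 3 ≤ k) (hy : y ^ 2 = -1)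
    (a : D ρ v f) (hij : i ≠ j) (hli : l ≠ i) (hlj : l ≠ j) (hp : pp e x v f l ≠ 0)
    (hφ : φ ^ 4 = 1) (hψ : φ * ψ = 1) (hX : x i ⬝ᵥ v - ψ * (x j ⬝ᵥ v) ≠ 0) :
    lam (e i - φ • e j) (x i - ψ • x j) v f = 1 ∨ lam (e i - φ • e j) (x i - ψ • x j) v f = 2 := by
  have d := F.du
  by_contra hc
  have k : ∀ c c' : K, c ^ 4 = 1 → c * c' = 1 →
      (x i ⬝ᵥ v - ψ * (x j ⬝ᵥ v)) * (f ⬝ᵥ e j - c * (f ⬝ᵥ e l)) * φ =
      (f ⬝ᵥ e i - φ * (f ⬝ᵥ e j)) * (x j ⬝ᵥ v - c' * (x l ⬝ᵥ v)) * ψ := fun c c' h1 h3 => by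
    by_contra h
    refine hc (L _ _ _ _ _ _ (nrt F hk hy hij hφ hψ) a (nrt F hk hy hlj.symm h1 h3) fun h' => h ?_)
    simp only [sub_dotProduct, dotProduct_sub, smul_dotProduct, dotProduct_smul, d.eq, d.ne hij,
      d.ne hij.symm, d.ne hli, d.ne hlj, d.ne hli.symm, d.ne hlj.symm, smul_eq_mul] at h'
    linear_combination -h'
  have k1 := k 1 1 (by ring) (by ring)
  have k2 := k (-1) (-1) (by ring) (by ring)
  have k3 := k y (-y) (y4 hy) (by linear_combination -hy)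
  refine mul_ne_zero (mul_ne_zero (mul_ne_zero (mul_ne_zero h2 h2) (y0 hy)) hX)
    (mul_ne_zero (right_ne_zero_of_mul hp) (left_ne_zero_of_mul_eq_one hψ)) ?_
  linear_combination (k1 + k2) - 2 * k3 + y * (k2 - k1)

/-- A root of weight two orthogonal to another frame vector is diagonal. -/
theorem mon_two (t : Tame ρ) (h2 : (2 : K) ≠ 0) (F : Fr ρ e x y) (hy : y ^ 2 = -1) (a : D ρ v f)
    (hij : i ≠ j) (p : pp e x v f i = 2) (z : Zr e x v f j) : Mon e x v f := by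
  have d := F.du
  have h0 := y0 hy
  simp only [pp] at p
  have ha : x i ⬝ᵥ v ≠ 0 := left_ne_zero_of_mul (p ▸ h2)
  have x1 := Sw.in_dg d hij (F.one i j hij) (F.th i j hij)
  set c : Fin k → K := Pi.mulSingle i y * Pi.mulSingle j y⁻¹ with hc
  have c0 : ∀ m, c m ≠ 0 := fun m => by
    simp only [hc, Pi.mul_apply, Pi.mulSingle_apply]; split_ifs <;> simp [h0]
  have ci : c i = y := by simp [hc, hij]
  have e1 : ∀ (e x : Fin k → V5 K) (c : Fin k → K), (∀ m, m ≠ i → m ≠ j → c m = 1) → ∀ w,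
      x j ⬝ᵥ w = 0 → dg e x c *ᵥ w = w + ((c i - 1) * (x i ⬝ᵥ w)) • e i := fun e x c hc w hw => by
    rw [dg, sum_two hij _ fun l a b => by simp [hc l a b]]
    simp [add_mulVec, smul_mulVec, vv_mulVec, hw, smul_smul]
  have c1 : ∀ m, m ≠ i → m ≠ j → c m = 1 := fun m a b => by simp [hc, a, b]
  have c2 : ∀ m, m ≠ i → m ≠ j → c⁻¹ m = 1 := fun m a b => by simp [c1 m a b]
  have q := a.dg d c0 x1
  rw [vecMul_dg_eq, e1 _ _ _ c1 _ z.1, e1 _ _ _ c2 _ (by rw [dotProduct_comm]; exact z.2),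
    Pi.inv_apply, ci, dotProduct_comm (e i)] at q
  obtain ⟨g, x2⟩ := x1
  have x3 := rho_inv_dg d c0 x2
  set A := (x i ⬝ᵥ v) • e i with hA
  set α := (f ⬝ᵥ e i) • x i with hα
  have p1 : D ρ (A + (v - A)) (α + (f - α)) := by simpa using a
  have q1 : D ρ (y • A + (v - A)) (y⁻¹ • α + (f - α)) :=
    q.of_eq (by rw [hA]; module) (by rw [hα]; module)
  have e0 : (f - α) ⬝ᵥ (v - A) = 0 := by
    simp only [hA, hα, sub_dotProduct, dotProduct_sub, smul_dotProduct, dotProduct_smul, d.eq, a.1,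
      smul_eq_mul]
    linear_combination -p
  have e2 : α ⬝ᵥ (v - A) = 0 := by simp [hA, hα, d.eq, mul_comm]
  have e3 : (f - α) ⬝ᵥ A = 0 := by simp [hA, hα, d.eq]
  obtain ⟨r, hr⟩ := p1.mul_scale h0 q1 e0 e2 e3
  have T1 := hs_kill e0 (by rw [smul_dotProduct, e2, smul_zero]) (by simp [e3]) hr (x := g)
    (by rw [x2, e1 _ _ _ c1 _ (by simp [hA, z.1, d.ne hij.symm])]; simp [hA, d.eq])
    (by rw [x2, vecMul_dg_eq, e1 _ _ _ c1 _ (by
          rw [dotProduct_comm]; simp [hα, z.2, d.ne hij]), dotProduct_comm]; simp [hα, d.eq])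
  have e4 : ∀ n : Fin k → K, α ⬝ᵥ (dg e x n *ᵥ A) = 2 * n i := fun n => by
    simp only [hα, hA, smul_dotProduct, d.dot_dg, dotProduct_smul, d.eq, smul_eq_mul]
    linear_combination n i * p
  simp only [x2, x3, mulVec_smul, smul_dotProduct, dotProduct_smul, e4, smul_eq_mul,
    Pi.inv_apply, ci] at T1
  have hb : v - A = 0 ∨ f - α = 0 := by
    by_contra hb
    push Not at hb
    refine t.notv h2 _ _ ⟨T1, hb.1, smul_ne_zero (fun h => ?_) hb.2⟩
    field_simp at h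
    exact mul_ne_zero (mul_ne_zero (mul_ne_zero h2 h2) h2) h0 (by grind)
  obtain ⟨b1, b2⟩ := t.outer_zero h0 (y1 h2 hy) p1 q1 hb
  refine Or.inr ⟨i, x i ⬝ᵥ v, ha, sub_eq_zero.1 b1, ?_⟩
  rw [sub_eq_zero.1 b2, hα]
  congr 1
  field_simp
  linear_combination p

/-- The rule for a pair of frame vectors. -/
theorem pair (t : Tame ρ) (L : Lam ρ) (h2 : (2 : K) ≠ 0) (F : Fr ρ e x y) (hk : 3 ≤ k)
    (hy : y ^ 2 = -1) (a : D ρ v f) (hij : i ≠ j) : pp e x v f i = pp e x v f j ∨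
      (pp e x v f i = 1 ∧ Zr e x v f j) ∨ (pp e x v f j = 1 ∧ Zr e x v f i) ∨ Mon e x v f ∨
      (2 * (pp e x v f i + pp e x v f j) = 3 ∧ 8 * (pp e x v f i * pp e x v f j) = 1 ∧
        (7 : K) ≠ 0) := by
  by_cases hp : pp e x v f i = pp e x v f j
  · exact Or.inl hp
  refine Or.inr ?_
  have k := fun φ ψ => lam_ne (φ := φ) (ψ := ψ) L h2 F hk hy a hij hp
  have zr : ∀ {i j}, pp e x v f i ≠ 0 → (x i ⬝ᵥ v) * (f ⬝ᵥ e j) = 0 → (x j ⬝ᵥ v) * (f ⬝ᵥ e i) = 0 →
      Zr e x v f j := fun h s t => ⟨(mul_eq_zero.1 t).resolve_right (right_ne_zero_of_mul h),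
        (mul_eq_zero.1 s).resolve_left (left_ne_zero_of_mul h)⟩
  simp only [lam_sw] at k
  rcases four (P := pp e x v f i + pp e x v f j) (s := (x i ⬝ᵥ v) * (f ⬝ᵥ e j))
    (t := (x j ⬝ᵥ v) * (f ⬝ᵥ e i)) h2 hy
    (by convert k 1 1 (by ring) (by ring) using 2 <;> simp only [pp] <;> ring)
    (by convert k (-1) (-1) (by ring) (by ring) using 2 <;> simp only [pp] <;> ring)
    (by convert k y (-y) (y4 hy) (by linear_combination -hy) using 2 <;> simp only [pp] <;>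
          linear_combination (x j ⬝ᵥ v) * (f ⬝ᵥ e j) * hy)
    (by convert k (-y) y (by rw [← y4 hy]; ring) (by linear_combination -hy) using 2 <;>
          simp only [pp] <;> linear_combination (x j ⬝ᵥ v) * (f ⬝ᵥ e j) * hy)
    with ⟨s, r, h⟩ | ⟨h1, h3, -⟩
  · have : pp e x v f i * pp e x v f j = 0 := by
      simp only [pp]; linear_combination (x j ⬝ᵥ v) * (f ⬝ᵥ e i) * s
    rcases mul_eq_zero.1 this with c | c
    · rw [c, zero_add] at h
      have z := zr (fun h0 => hp (c.trans h0.symm)) r s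
      exact h.elim (fun h => Or.inr (Or.inl ⟨h, z⟩))
        fun h => Or.inr (Or.inr (Or.inl (mon_two t h2 F hy a hij.symm h z)))
    · rw [c, add_zero] at h
      have z := zr (fun h0 => hp (h0.trans c.symm)) s r
      exact h.elim (fun h => Or.inl ⟨h, z⟩)
        fun h => Or.inr (Or.inr (Or.inl (mon_two t h2 F hy a hij h z)))
  · have h4 : 8 * (pp e x v f i * pp e x v f j) = 1 := by
      simp only [pp]; linear_combination h3
    refine Or.inr (Or.inr (Or.inr ⟨h1, h4, fun h7 => hp (sub_eq_zero.1 (pow_eq_zero_iff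
      two_ne_zero |>.1 (mul_left_cancel₀ (mul_ne_zero h2 h2) ?_)))⟩))
    linear_combination (2 * (pp e x v f i + pp e x v f j) + 3) * h1 - 2 * h4 + h7

/-- Equal non-zero entries. -/
theorem eqp (L : Lam ρ) (h2 : (2 : K) ≠ 0) (F : Fr ρ e x y) (hk : 3 ≤ k) (hy : y ^ 2 = -1)
    (a : D ρ v f) (hij : i ≠ j) (hli : l ≠ i) (hlj : l ≠ j) (hl : pp e x v f l ≠ 0)
    (hi : pp e x v f i ≠ 0) (hp : pp e x v f i = pp e x v f j) : 2 * pp e x v f i = 1 ∨
      ((3 : K) = 0 ∧ pp e x v f i = 1) ∨ ((7 : K) = 0 ∧ (x i ⬝ᵥ v) ^ 4 + (x j ⬝ᵥ v) ^ 4 = 0) := by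
  have k := fun φ ψ => lam_third (φ := φ) (ψ := ψ) L h2 F hk hy a hij hli hlj hl
  simp only [lam_sw] at k
  have hj := hp ▸ hi
  simp only [pp] at hi hj hp ⊢
  have a0 := left_ne_zero_of_mul hi
  have a1 := left_ne_zero_of_mul hj
  generalize x i ⬝ᵥ v = A, x j ⬝ᵥ v = B, f ⬝ᵥ e i = C, f ⬝ᵥ e j = E at *
  by_cases h : B ^ 4 = A ^ 4
  · have k1 := k (-(B / A)) (-(A / B)) (by field_simp; exact h) (by field_simp)
      (by rw [show A - -(A / B) * B = 2 * A by field_simp; ring]; exact mul_ne_zero h2 a0)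
    have k2 := k (y * (B / A)) (-(y * (A / B))) (by rw [mul_pow, y4 hy]; field_simp; exact h)
      (by field_simp; linear_combination -hy) (by
        rw [show A - -(y * (A / B)) * B = (1 + y) * A by field_simp; ring]
        exact mul_ne_zero (fun h => h2 (by linear_combination (1 - y) * h + hy)) a0)
    rw [show (A - -(A / B) * B) * (C - -(B / A) * E) = 2 * (2 * (A * C)) by
      field_simp; linear_combination -2 * hp] at k1
    rw [show (A - -(y * (A / B)) * B) * (C - y * (B / A) * E) = 2 * (A * C) by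
      field_simp; linear_combination (y + y ^ 2) * hp - A * C * hy] at k2
    rcases k2 with k2 | k2
    · exact Or.inl k2
    have k3 : A * C = 1 := mul_left_cancel₀ h2 (by linear_combination k2)
    rcases k1 with k1 | k1
    · exact Or.inr (Or.inl ⟨by linear_combination k1 - 2 * k2, k3⟩)
    · exact (h2 (by linear_combination k1 - 2 * k2)).elim
  have n : ∀ ψ : K, ψ ^ 4 = 1 → A - ψ * B ≠ 0 := fun ψ h1 h0 =>
    h (by rw [sub_eq_zero.1 h0, mul_pow, h1, one_mul])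
  have ny : (-y) ^ 4 = 1 := by rw [← y4 hy]; ring
  rcases four (P := A * C + B * E) (s := A * E) (t := B * C) h2 hy
    (by convert k 1 1 (by ring) (by ring) (n _ (by ring)) using 2 <;> ring)
    (by convert k (-1) (-1) (by ring) (by ring) (n _ (by ring)) using 2 <;> ring)
    (by convert k y (-y) (y4 hy) (by linear_combination -hy) (n _ ny) using 2 <;>
          linear_combination B * E * hy)
    (by convert k (-y) y ny (by linear_combination -hy) (n _ (y4 hy)) using 2 <;>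
          linear_combination B * E * hy) with ⟨s, -, -⟩ | ⟨h1, h3, h4⟩
  · exact (mul_ne_zero a0 (right_ne_zero_of_mul hj) s).elim
  · refine Or.inr (Or.inr ⟨?_, mul_left_cancel₀ (pow_ne_zero 2 hi) ?_⟩)
    · linear_combination 2 * h3 - (2 * (A * C + B * E) + 3) * h1 + 4 * (A * C - B * E) * hp
    · linear_combination A ^ 2 * B ^ 2 * h4 + A ^ 4 * (A * C + B * E) * hp

/-- The arithmetic of three non-zero entries. -/
theorem full (h2 : (2 : K) ≠ 0) (p q : Fin 3 → K) (hq : q 0 ≠ 0) (R : ∀ i j, i ≠ j →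
    (p i = p j ∧ (2 * p i = 1 ∨ ((3 : K) = 0 ∧ p i = 1) ∨ ((7 : K) = 0 ∧ q i + q j = 0))) ∨
      (2 * (p i + p j) = 3 ∧ 8 * (p i * p j) = 1 ∧ (7 : K) ≠ 0)) :
    (∀ i, 2 * p i = 1) ∨ ((3 : K) = 0 ∧ ∀ i, p i = 1 ∨ p i = 2) := by
  by_cases h3 : (3 : K) = 0
  · refine Or.inr ⟨h3, fun i => ?_⟩
    obtain ⟨j, hj, -⟩ := exists_third le_rfl i i
    rcases R i j hj.symm with ⟨-, h | ⟨-, h⟩ | ⟨h, -⟩⟩ | ⟨a, b, -⟩
    · exact Or.inr (by linear_combination 2 * h - p i * h3)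
    · exact Or.inl h
    · exact (one_ne_zero (α := K) (by linear_combination h - 2 * h3)).elim
    · have : (p i - 1) * (p i - 2) = 0 := by grind
      simpa only [mul_eq_zero, sub_eq_zero] using this
  refine Or.inl ?_
  have r01 := R 0 1 (by decide)
  have r02 := R 0 2 (by decide)
  have r12 := R 1 2 (by decide)
  simp only [h3, false_and, false_or] at r01 r02 r12
  suffices 2 * p 0 = 1 ∧ 2 * p 1 = 1 ∧ 2 * p 2 = 1 from fun i => by
    fin_cases i; exacts [this.1, this.2.1, this.2.2]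
  have n : ∀ {a b : K}, 2 * (a + b) = 3 → 8 * (a * b) = 1 → 2 * a ≠ 1 ∧ 2 * b ≠ 1 := fun h1 h4 =>
    ⟨fun h => h3 (by grind), fun h => h3 (by grind)⟩
  by_cases h7 : (7 : K) = 0
  · simp only [h7, ne_eq, not_true, and_false, or_false, true_and] at r01 r02 r12
    rcases r01.2 with a | a
    · exact ⟨a, r01.1 ▸ a, r02.1 ▸ a⟩
    rcases r02.2 with b | b
    · exact ⟨b, r01.1 ▸ b, r02.1 ▸ b⟩
    rcases r12.2 with c | c
    · exact ⟨r01.1 ▸ c, c, r12.1 ▸ c⟩
    exact (mul_ne_zero h2 hq (by linear_combination a + b - c)).elim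
  simp only [h7, false_and, or_false] at r01 r02 r12
  rcases r01 with ⟨a, b⟩ | ⟨a, b, -⟩
  · rcases r02 with ⟨c, -⟩ | ⟨c, d, -⟩
    · exact ⟨b, a ▸ b, c ▸ b⟩
    · exact ((n c d).1 b).elim
  rcases r02 with ⟨-, c⟩ | ⟨c, -, -⟩
  · exact ((n a b).1 c).elim
  rcases r12 with ⟨-, d⟩ | ⟨d, d', -⟩
  · exact ((n a b).2 d).elim
  exact (h7 (by linear_combination 2 * d' - (2 * (p 1 + p 2) + 3) * d +
    2 * (p 1 - p 2) * (a - c))).elim

end R4

open R4 in
theorem tri4 (t : Tame ρ) (L : Lam ρ) (h2 : (2 : K) ≠ 0) {e x : Fin 3 → V5 K} {i : K}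
    (hi : i ^ 2 = -1) (F : Fr ρ e x i) (a : D ρ v f) : Ty4 e x v f := by
  by_cases m : Mon e x v f
  · exact Or.inr (Or.inr (Or.inl m))
  have P := fun j l (h : j ≠ l) => pair t L h2 F le_rfl hi a h
  simp only [m, false_or] at P
  have z0 : ∀ {j}, Zr e x v f j → pp e x v f j = 0 := fun z => by rw [pp, z.1, zero_mul]
  by_cases h0 : ∀ j, pp e x v f j ≠ 0
  · refine Or.inr (Or.inr (Or.inr (full h2 _ (fun j => (x j ⬝ᵥ v) ^ 4)
      (pow_ne_zero _ (left_ne_zero_of_mul (h0 0))) fun j l h => ?_)))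
    obtain ⟨n, n1, n2⟩ := exists_third le_rfl j l
    rcases P j l h with c | c | c | c
    · exact Or.inl ⟨c, eqp L h2 F le_rfl hi a h n1 n2 (h0 n) (h0 j) c⟩
    · exact (h0 _ (z0 c.2)).elim
    · exact (h0 _ (z0 c.2)).elim
    · exact Or.inr c
  push Not at h0
  obtain ⟨l, hl⟩ := h0
  have Q : ∀ j, j ≠ l → pp e x v f j = 0 ∨ (pp e x v f j = 1 ∧ Zr e x v f l) := fun j h => by
    rcases P j l h with c | c | c | c
    · exact Or.inl (c.trans hl)
    · exact Or.inr c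
    · exact (zero_ne_one (hl.symm.trans c.1)).elim
    · exact (zero_ne_one (α := K) (by linear_combination c.2.1 - 8 * pp e x v f j * hl)).elim
  by_cases h1 : ∀ j, pp e x v f j = 0
  · exact Or.inl (F.zero t (y1 h2 hi) le_rfl a h1)
  obtain ⟨j, hj⟩ := not_forall.1 h1
  have jl : j ≠ l := by rintro rfl; exact hj hl
  obtain ⟨pj, z⟩ := (Q j jl).resolve_left hj
  obtain ⟨n, n1, n2⟩ := exists_third le_rfl j l
  have all : ∀ s, s ≠ j → s ≠ n → s = l := by
    clear * - jl n1 n2; revert j l n; decide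
  rcases Q n n2 with c | ⟨c, -⟩
  · refine Or.inr (Or.inl ⟨j, pj, fun s hs => ?_⟩)
    by_cases h : s = n
    · exact h ▸ F.zero_of t (y1 h2 hi) a n2 c z
    · exact all s hs h ▸ z
  · exact (m (F.du.mon n1.symm (((F.two t (y2 h2 hi) a n1.symm jl.symm n2.symm pj c z).resolve_right
      fun h => h2 h.1)) pj c fun s h1 h3 => all s h1 h3 ▸ z)).elim

end Cfsg.Agent.D5
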