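import Cfsg.Agent.DIM5.R4a

/-!
The group does not contain `G(4, 4, 3)`.
-/

set_option autoImplicit false

open Matrix

namespace Cfsg.Agent.D5

variable {K : Type*} [Field K] {Γ : Type*} [Group Γ] {ρ : Γ →* M5 K} {u v w f g h : V5 K}

namespace R4

variable {k : ℕ} {e x : Fin k → V5 K} {y : K} {i j l : Fin k}

theorem zr_pp (z : Zr e x v f i) : pp e x v f i = 0 := by rw [pp, z.1, zero_mul]

/-- The types of roots on a longer frame. -/
theorem tyk (t : Tame ρ) (L : Lam ρ) (h2 : (2 : K) ≠ 0) (hy : y ^ 2 = -1) (F : Fr ρ e x y)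
    (hk : 3 ≤ k) (a : D ρ v f) : (∀ i, Zr e x v f i) ∨
      (∃ i, pp e x v f i = 1 ∧ ∀ j, j ≠ i → Zr e x v f j) ∨ Mon e x v f ∨
      (∀ i, 2 * pp e x v f i = 1) ∨ ((3 : K) = 0 ∧ ∀ i, pp e x v f i = 1 ∨ pp e x v f i = 2) := by
  have T := fun s hs => tri4 t L h2 hy (F.comp s hs) a
  by_cases m : Mon e x v f
  · exact Or.inr (Or.inr (Or.inl m))
  have nz : ∀ {s : Fin 3 → Fin k}, (∀ i, 2 * pp (e ∘ s) (x ∘ s) v f i = 1) ∨ ((3 : K) = 0 ∧
      ∀ i, pp (e ∘ s) (x ∘ s) v f i = 1 ∨ pp (e ∘ s) (x ∘ s) v f i = 2) →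
      ∀ i, ¬ Zr e x v f (s i) := fun {s} h i z => by
    have z' : pp (e ∘ s) (x ∘ s) v f i = 0 := zr_pp z
    rcases h with h | ⟨-, h⟩
    · simpa [z'] using h i
    · simpa [z', h2.symm] using h i
  by_cases hz : ∃ j, Zr e x v f j
  · obtain ⟨j, z⟩ := hz
    have := three_types hk fun s hs => by
      rcases T s hs with h | h | h | h
      exacts [Or.inl h, Or.inr (Or.inl h), Or.inr (Or.inr h), by
        have n := nz h
        have n0 : s 0 ≠ j := fun e => n 0 (e ▸ z)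
        have n1 : s 1 ≠ j := fun e => n 1 (e ▸ z)
        have hs' := inj_three (hs.ne (show (0 : Fin 3) ≠ 1 by decide)) n0.symm n1.symm
        rcases T _ hs' with h | ⟨a, -, h⟩ | h | h
        · exact (n 0 (h 0)).elim
        · by_cases h0 : a = 0
          · exact (n 1 (h 1 (by rw [h0]; decide))).elim
          · exact (n 0 (h 0 (Ne.symm h0))).elim
        · exact (m (h.comp _ hs')).elim
        · exact (nz h 2 z).elim]
    exact this.imp_right fun h => h.imp_right Or.inl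
  have key : ∀ i, 2 * pp e x v f i = 1 ∨ ((3 : K) = 0 ∧
      (pp e x v f i = 1 ∨ pp e x v f i = 2)) := fun i => by
    obtain ⟨j, h1, -⟩ := exists_third hk i i
    obtain ⟨l, h3, h4⟩ := exists_third hk i j
    have hs := inj_three h1.symm h3 h4
    rcases T _ hs with h | ⟨a, -, h⟩ | h | h | h
    · exact (hz ⟨_, h 0⟩).elim
    · obtain ⟨b, hb, -⟩ := exists_third le_rfl a a
      exact (hz ⟨_, h b hb⟩).elim
    · exact (m (h.comp _ hs)).elim
    · exact Or.inl (h 0)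
    · exact Or.inr ⟨h.1, h.2 0⟩
  refine Or.inr (Or.inr (Or.inr ?_))
  by_cases h3 : (3 : K) = 0
  · exact Or.inr ⟨h3, fun i => (key i).elim
      (fun h => Or.inr (by linear_combination 2 * h - pp e x v f i * h3)) fun h => h.2⟩
  · exact Or.inl fun i => (key i).resolve_right fun h => h3 h.1

/-- The image of a diagonal conjugate under the reflection. -/
theorem cj (du : Du e x) (a : D ρ v f) {d : Fin k → K} (hd : ∀ m, d m ≠ 0)
    (h : In ρ (dg e x d)) {σ τ : K} (hσ : σ = 2 + ∑ m, (d m - 1) * pp e x v f m)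
    (hτ : τ = 2 + ∑ m, ((d m)⁻¹ - 1) * pp e x v f m) : ∃ v' f', D ρ v' f' ∧
      (∀ m, x m ⬝ᵥ v' = (d m - σ) * (x m ⬝ᵥ v)) ∧ (∀ m, f' ⬝ᵥ e m = ((d m)⁻¹ - τ) * (f ⬝ᵥ e m)) ∧
      rs e x v' = (1 - σ) • rs e x v := by
  have e0 := du.dot_eq f v
  have e1 : f ⬝ᵥ (dg e x d *ᵥ v) = σ := by
    rw [du.dot_eq, du.rs_dg, hσ, ← a.1, e0]
    simp only [du.dot_dg, pp, sub_mul, one_mul, Finset.sum_sub_distrib, mul_assoc]
    ring
  have e2 : (f ᵥ* dg e x d⁻¹) ⬝ᵥ v = τ := by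
    rw [du.dot_eq, du.rs_dg', hτ, ← a.1, e0]
    simp only [du.dg_dot, pp, sub_mul, one_mul, Finset.sum_sub_distrib, mul_left_comm, Pi.inv_apply]
    ring
  refine ⟨_, _, a.act (a.dg du hd h), fun m => ?_, fun m => ?_, ?_⟩
  · rw [e1, dotProduct_sub, du.dot_dg, dotProduct_smul, sub_mul, smul_eq_mul]
  · rw [e2, sub_dotProduct, du.dg_dot, smul_dotProduct, sub_mul, smul_eq_mul, Pi.inv_apply]
  · rw [e1, rs_sub, rs_smul, du.rs_dg, sub_smul, one_smul]

theorem mon_supp (m : Mon e x v f) (d : Du e x) : ∃ i j, ∀ l, l ≠ i → l ≠ j → x l ⬝ᵥ v = 0 := by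
  rcases m with ⟨i, j, a, b, -, -, -, rfl, -⟩ | ⟨i, a, -, rfl, -⟩
  · exact ⟨i, j, fun l h1 h2 => by simp [d.ne h1, d.ne h2]⟩
  · exact ⟨i, i, fun l h1 _ => by simp [d.ne h1]⟩

/-- The outcome: the frame extends, or the root is inner and the frame is short. -/
def Otc (ρ : Γ →* M5 K) (e x : Fin k → V5 K) (v : V5 K) : Prop :=
  (∃ v' f' i, D ρ v' f' ∧ pp e x v' f' i = 1 ∧ ∀ j, j ≠ i → Zr e x v' f' j) ∨
    (rs e x v = 0 ∧ k ≠ 5)

theorem Otc.of {c : K} (o : Otc ρ e x w) (hc : c ≠ 0) (h : rs e x w = c • rs e x v) :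
    Otc ρ e x v :=
  o.imp_right fun o => ⟨(smul_eq_zero.1 (h.symm.trans o.1)).resolve_left hc, o.2⟩

theorem out_two (t : Tame ρ) (L : Lam ρ) (h2 : (2 : K) ≠ 0) (hy : y ^ 2 = -1) (F : Fr ρ e x y)
    (hk : 3 ≤ k) (a : D ρ v f) (z : Zr e x v f i) (n : ∀ m, m ≠ i → m ≠ j → x m ⬝ᵥ v ≠ 0) :
    Otc ρ e x v := by
  rcases tyk t L h2 hy F hk a with h | ⟨l, h⟩ | h | h | ⟨-, h⟩
  · obtain ⟨l, h1, h3⟩ := exists_third hk i j
    exact (n l h1 h3 (h l).1).elim
  · exact Or.inl ⟨v, f, l, a, h⟩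
  · refine Or.inr ⟨(h.rs_eq F.du).1, ?_⟩
    rintro rfl
    obtain ⟨c, d, h⟩ := mon_supp h F.du
    obtain ⟨m, h1, h3, h4, h5⟩ : ∃ m : Fin 5, m ≠ i ∧ m ≠ j ∧ m ≠ c ∧ m ≠ d := by
      clear * -; revert i j c d; decide
    exact n m h1 h3 (h m h4 h5)
  · simpa [zr_pp z] using h i
  · simpa [zr_pp z, h2.symm] using h i

theorem sum3 {M : Type*} [AddCommMonoid M] (hij : i ≠ j) (hli : l ≠ i) (hlj : l ≠ j)
    (t : Fin k → M) (z : ∀ m, m ≠ i → m ≠ j → m ≠ l → t m = 0) : ∑ m, t m = t i + t j + t l := by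
  rw [← Finset.sum_subset (Finset.subset_univ {i, j, l}) fun m _ hm => by
      simp only [Finset.mem_insert, Finset.mem_singleton, not_or] at hm
      exact z m hm.1 hm.2.1 hm.2.2,
    Finset.sum_insert (by simp [hij, hli.symm]), Finset.sum_pair hlj.symm, add_assoc]

/-- Conjugation by `diag (y, y, -1)`. -/
theorem cjY (hy : y ^ 2 = -1) (F : Fr ρ e x y) (hk : 3 ≤ k) (a : D ρ v f) (hij : i ≠ j)
    (hli : l ≠ i) (hlj : l ≠ j) {p : K} (hp : ∀ m, pp e x v f m = p) :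
    ∃ (v' f' : V5 K) (d d' : Fin k → K), D ρ v' f' ∧ (d i = y ∧ d' i = -y) ∧
      (∀ m, (m = i ∨ m = j) ∧ d m = y ∧ d' m = -y ∨ d m = -1 ∧ d' m = -1 ∨ d m = 1 ∧ d' m = 1) ∧
      (∀ m, x m ⬝ᵥ v' = (d m - (2 + (2 * y - 4) * p)) * (x m ⬝ᵥ v)) ∧
      (∀ m, f' ⬝ᵥ e m = (d' m - (2 + (-2 * y - 4) * p)) * (f ⬝ᵥ e m)) ∧
      rs e x v' = (1 - (2 + (2 * y - 4) * p)) • rs e x v := by
  have h0 := y0 hy
  have hi : y⁻¹ = -y := (eq_inv_of_mul_eq_one_right (by linear_combination -hy)).symm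
  let n : Fin k → ℤ := fun m => if m = i ∨ m = j then 1 else if m = l then 2 else 0
  have s3 := fun {M : Type _} [AddCommMonoid M] => sum3 (M := M) hij hli hlj
  have hy' : y ^ (2 : ℤ) = -1 := by exact_mod_cast hy
  have x1 := F.in_dg hk n (by
    rw [sum3 hij hli hlj _ fun m a b c => by simp [n, a, b, c]]
    simp only [n, true_or, or_true, if_true, hli, hlj, or_self, if_false]
    exact_mod_cast y4 hy)
  obtain ⟨v', f', b, h⟩ := cj F.du a (fun _ => zpow_ne_zero _ h0) x1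
    (σ := 2 + (2 * y - 4) * p) (τ := 2 + (-2 * y - 4) * p)
    (by rw [s3 _ fun m a b c => by simp [n, a, b, c]]; simp [n, hli, hlj, hp, hy']; ring)
    (by rw [s3 _ fun m a b c => by simp [n, a, b, c]]; simp [n, hli, hlj, hp, hy', hi]; ring)
  refine ⟨v', f', _, _, b, by simp [n, hi], fun m => ?_, h⟩
  simp only [n]
  split_ifs with h1 h3
  · simp [h1, hi]
  · simp [hy']
  · simp

theorem out_half (t : Tame ρ) (L : Lam ρ) (h2 : (2 : K) ≠ 0) (hy : y ^ 2 = -1) (F : Fr ρ e x y)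
    (hk : 3 ≤ k) (a : D ρ v f) (hp : ∀ m, 2 * pp e x v f m = 1) : Otc ρ e x v := by
  obtain ⟨j, h1, -⟩ := exists_third hk ⟨0, by omega⟩ ⟨0, by omega⟩
  obtain ⟨l, h3, h4⟩ := exists_third hk ⟨0, by omega⟩ j
  obtain ⟨v', f', d, d', b, di, hd, e1, e2, e3⟩ := cjY hy F hk a h1.symm h3 h4 (p := 2⁻¹)
    fun m => eq_inv_of_mul_eq_one_right (hp m)
  rw [show 2 + (2 * y - 4) * 2⁻¹ = y by field_simp; ring] at e1 e3
  rw [show 2 + (-2 * y - 4) * 2⁻¹ = -y by field_simp; ring] at e2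
  have n1 : 1 - y ≠ 0 := sub_ne_zero.2 (y1 h2 hy).symm
  refine (out_two (i := ⟨0, by omega⟩) (j := j) t L h2 hy F hk b
    ⟨by simp [e1, di.1], by simp [e2, di.2]⟩
    fun m c c' => ?_).of n1 e3
  rw [e1]
  refine mul_ne_zero ?_ (left_ne_zero_of_mul (right_ne_zero_of_mul_eq_one (hp m)))
  rcases hd m with h | h | h
  · exact (h.1.elim c c').elim
  · rw [h.1]; exact fun h => h2 (by linear_combination (y - 1) * h + hy)
  · rwa [h.1]

theorem out_mix (t : Tame ρ) (L : Lam ρ) (h2 : (2 : K) ≠ 0) (hy : y ^ 2 = -1) (F : Fr ρ e x y)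
    (hk : 3 ≤ k) (a : D ρ v f) (h3 : (3 : K) = 0) (hp : ∀ m, pp e x v f m = 1 ∨ pp e x v f m = 2)
    (pj : pp e x v f j = 2) : Otc ρ e x v := by
  by_cases h : ∀ m, pp e x v f m = 2
  · exact out_half t L h2 hy F hk a fun m => by rw [h]; linear_combination h3
  obtain ⟨i, hi⟩ := not_forall.1 h
  have pi := (hp i).resolve_right hi
  have hij : i ≠ j := by rintro rfl; exact hi pj
  let n : Fin k → ℤ := fun m => if m = i ∨ m = j then 2 else 0
  have hy' : y ^ (2 : ℤ) = -1 := by exact_mod_cast hy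
  have x1 := F.in_dg hk n (by
    rw [sum_two hij _ fun m a b => by simp [n, a, b]]
    simp only [n, true_or, or_true, if_true]
    exact_mod_cast y4 hy)
  obtain ⟨v', f', b, e1, e2, e3⟩ := cj F.du a (fun _ => zpow_ne_zero _ (y0 hy)) x1
    (σ := -1) (τ := -1)
    (by rw [sum_two hij _ fun m a b => by simp [n, a, b]]; simp [n, pi, pj, hy']
        linear_combination h3)
    (by rw [sum_two hij _ fun m a b => by simp [n, a, b]]; simp [n, pi, pj, hy']
        linear_combination h3)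
  have n1 : (1 : K) - -1 ≠ 0 := by rwa [show (1 : K) - -1 = 2 by ring]
  refine (out_two (i := i) (j := j) t L h2 hy F hk b ⟨by simp [e1, n, hy'], by simp [e2, n, hy']⟩
    fun m c c' => ?_).of n1 e3
  rw [e1]
  refine mul_ne_zero (by simpa [n, c, c'] using n1) (left_ne_zero_of_mul (b := f ⬝ᵥ e m) ?_)
  rcases hp m with h | h <;> rw [pp] at h <;> simp [h, h2]

theorem out_three (t : Tame ρ) (L : Lam ρ) (h2 : (2 : K) ≠ 0) (hy : y ^ 2 = -1) (F : Fr ρ e x y)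
    (hk : 3 ≤ k) (a : D ρ v f) (h3 : (3 : K) = 0)
    (hp : ∀ m, pp e x v f m = 1 ∨ pp e x v f m = 2) : Otc ρ e x v := by
  by_cases h : ∃ j, pp e x v f j = 2
  · exact h.elim fun j pj => out_mix t L h2 hy F hk a h3 hp pj
  have p1 : ∀ m, pp e x v f m = 1 := fun m => (hp m).resolve_right fun c => h ⟨m, c⟩
  obtain ⟨j, h1, -⟩ := exists_third hk ⟨0, by omega⟩ ⟨0, by omega⟩
  obtain ⟨l, h4, h5⟩ := exists_third hk ⟨0, by omega⟩ j
  obtain ⟨v', f', d, d', b, di, hd, e1, e2, e3⟩ := cjY hy F hk a h1.symm h4 h5 p1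
  have e4 : ∀ m, pp e x v' f' m = (d m - (2 * y - 2)) * (d' m - (-2 * y - 2)) := fun m => by
    have := p1 m
    rw [pp] at this ⊢
    rw [e1, e2]
    linear_combination (d m - (2 * y - 2)) * (d' m - (-2 * y - 2)) * this
  refine (out_mix (j := ⟨0, by omega⟩) t L h2 hy F hk b h3 (fun m => ?_) ?_).of (fun h => ?_) e3
  · rw [e4]
    rcases hd m with ⟨-, c, c'⟩ | ⟨c, c'⟩ | ⟨c, c'⟩ <;> rw [c, c']
    · exact Or.inr (by linear_combination h3 - hy)
    · exact Or.inr (by linear_combination h3 - 4 * hy)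
    · exact Or.inl (by linear_combination 4 * h3 - 4 * hy)
  · rw [e4, di.1, di.2]; linear_combination h3 - hy
  · exact mul_ne_zero h2 (y0 hy) (by linear_combination h3 - h)

end R4

open R4 in
theorem RH.not_four (r : RH ρ) (L : Lam ρ) (h2 : (2 : K) ≠ 0) {e x : Fin 3 → V5 K} {i : K}
    (hi : i ^ 2 = -1) (F : Fr ρ e x i) : False := by
  have t := r.toTame
  have up : ∀ {k} {e x : Fin k → V5 K}, 3 ≤ k → k < 5 → Fr ρ e x i →
      ∃ e' x' : Fin (k + 1) → V5 K, Fr ρ e' x' i := fun {k e x} h3 h5 F => by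
    obtain ⟨v, f, a, ⟨j, hj⟩, h⟩ := r.outer F.du (by omega) h5
    have o : Otc ρ e x v → ∃ e' x' : Fin (k + 1) → V5 K, Fr ρ e' x' i := fun o =>
      let ⟨_, _, _, b, p, z⟩ := o.resolve_right fun o => h o.1
      F.snoc (by omega) b p z
    rcases tyk t L h2 hi F h3 a with c | ⟨j, p, z⟩ | c | c | c
    · exact (hj (c j).2).elim
    · exact F.snoc (by omega) a p z
    · exact (h (c.rs_eq F.du).1).elim
    · exact o (out_half t L h2 hi F h3 a c)
    · exact o (out_three t L h2 hi F h3 a c.1 c.2)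
  obtain ⟨e, x, F⟩ := up le_rfl (by omega) F
  obtain ⟨e, x, F⟩ := up (by omega) (by omega) F
  have s : ∀ v f j, D ρ v f → pp e x v f j = 1 → ¬ ∀ l, l ≠ j → Zr e x v f l := fun v f j a p z => by
    have := F.du.dot_eq f v
    rw [F.du.five v, dotProduct_zero, Fintype.sum_eq_single j fun i h => by simp [(z i h).1], a.1,
      show (x j ⬝ᵥ v) * (f ⬝ᵥ e j) = 1 from p] at this
    exact one_ne_zero (α := K) (by linear_combination this)
  have o : ∀ v, ¬ Otc ρ e x v := fun v o =>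
    o.elim (fun ⟨_, _, _, b, p, z⟩ => s _ _ _ b p z) fun o => o.2 rfl
  refine r.mono_false F (y1 h2 hi) fun v f a => ?_
  rcases tyk t L h2 hi F (by omega) a with c | ⟨j, p, z⟩ | c | c | c
  · have := sum_add_rs e x v
    rw [F.du.five] at this
    exact (a.2.1 (by simpa [fun i => (c i).1] using this.symm)).elim
  · exact (s _ _ _ a p z).elim
  · exact c
  · exact (o _ (out_half t L h2 hi F (by omega) a c)).elim
  · exact (o _ (out_three t L h2 hi F (by omega) a c.1 c.2)).elim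

end Cfsg.Agent.D5
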