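import Cfsg.Agent.DIM5.RFr
import Cfsg.Agent.DIM5.DK

/-!
A non-symmetric triangle of reflections lies in a non-degenerate block of dimension three.
-/

set_option autoImplicit false

open Matrix

namespace Cfsg.Agent.D5

variable {K : Type*} [Field K] {Γ : Type*} [Group Γ] {ρ : Γ →* M5 K} {u v w f g h : V5 K}

/-- The Gram determinant of a triangle. -/
def gram3 (v f w g u h : V5 K) : K := 8 - 2 * (lam v f w g + lam w g u h + lam u h v f) +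
  (f ⬝ᵥ w) * (g ⬝ᵥ u) * (h ⬝ᵥ v) + (g ⬝ᵥ v) * (h ⬝ᵥ w) * (f ⬝ᵥ u)

theorem gram3_rot : gram3 w g u h v f = gram3 v f w g u h := by unfold gram3; ring

theorem gb_of (a : D ρ v f) (b : D ρ w g) (c : D ρ u h) (n : NS v f w g u h)
    (d : gram3 v f w g u h ≠ 0) :
    ∃ e x, GB ρ e x ∧ Inn e x v f ∧ Inn e x w g ∧ Inn e x u h := by
  let e : Fin 3 → V5 K := ![v, w, u]
  let F : Fin 3 → V5 K := ![f, g, h]
  let G : Matrix (Fin 3) (Fin 3) K := of fun i j => F i ⬝ᵥ e j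
  have hG : G.det ≠ 0 := by
    convert d using 1
    simp [G, e, F, det_fin_three, gram3, lam, a.1, b.1, c.1]; ring
  have hU := (isUnit_iff_isUnit_det G).2 hG.isUnit
  let x : Fin 3 → V5 K := fun i => ∑ j, G⁻¹ i j • F j
  have du : Du e x := fun i j => by
    have := congrFun (congrFun (nonsing_inv_mul G hG.isUnit) i) j
    rw [mul_apply, one_apply] at this
    simpa [x, sum_dotProduct, G] using this
  have hI : ∀ i, Inn e x (e i) (F i) := fun i => ⟨Submodule.subset_span ⟨i, rfl⟩, by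
    have : F i = ∑ j, G i j • x j := by
      simp only [x, Finset.smul_sum, smul_smul]
      rw [Finset.sum_comm]
      simp only [← Finset.sum_smul, ← mul_apply, mul_nonsing_inv G hG.isUnit, one_apply]
      simp
    rw [this]
    exact sum_mem fun j _ => Submodule.smul_mem _ _ (Submodule.subset_span ⟨j, rfl⟩)⟩
  exact ⟨e, x, ⟨du, e, F, fun i => ⟨by fin_cases i; exacts [a, b, c], hI i⟩, n, hG⟩,
    hI 0, hI 1, hI 2⟩

/-- Two roots which differ only in a Heisenberg direction. -/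
theorem heis_pair (n : NoTv ρ) {b β : V5 K} {s t : K} {x : Γ} (a : D ρ v f)
    (a' : D ρ (v + s • b) (f + t • β)) (h0 : β ⬝ᵥ b = 0) (h1 : f ⬝ᵥ b = 0) (h2 : β ⬝ᵥ v = 0)
    (x1 : ρ x *ᵥ b = b) (x2 : β ᵥ* ρ x = β) (hx : f ⬝ᵥ (ρ x *ᵥ v) ≠ f ⬝ᵥ (ρ x⁻¹ *ᵥ v)) :
    (s = 0 ∨ b = 0) ∧ (t = 0 ∨ β = 0) := by
  obtain ⟨k, hk⟩ := a.isIn.mul a'.isIn
  have e : ρ k = 1 + vecMulVec b ((-s) • f) + vecMulVec (t • v) β + (-(s * t)) • vecMulVec b β := by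
    simp only [hk, mul_sub, sub_mul, one_mul, mul_one, vv_mul, dotProduct_add, a.1, h1,
      dotProduct_smul, smul_zero, add_zero]
    simp only [add_vecMulVec, vecMulVec_add, smul_vecMulVec, vecMulVec_smul]
    module
  by_cases hs : s = 0
  · subst hs
    refine ⟨Or.inl rfl, by_contra fun hc => ?_⟩
    push Not at hc
    exact n (t • v) β ⟨⟨by simp [h2], k, by simpa using e⟩, smul_ne_zero hc.1 a.2.1, hc.2⟩
  by_cases ht : t = 0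
  · subst ht
    refine ⟨Or.inr (by_contra fun hc => ?_), Or.inl rfl⟩
    exact n b ((-s) • f) ⟨⟨by simp [h1], k, by simpa using e⟩, hc,
      smul_ne_zero (neg_ne_zero.2 hs) a.2.2.1⟩
  have T := hs_kill h0 (by simp [h1]) (by simp [h2]) e x1 x2
  have := n.kill h0 (by simp [h1]) (by simp [h2]) e (by
    simp only [mulVec_smul, smul_dotProduct, dotProduct_smul, smul_eq_mul, ← mul_sub]
    exact mul_ne_zero ht (mul_ne_zero (neg_ne_zero.2 hs) (sub_ne_zero.2 hx))) T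
    (smul_ne_zero (neg_ne_zero.2 hs) a.2.2.1) (smul_ne_zero ht a.2.1)
  exact ⟨Or.inr this.1, Or.inr this.2⟩

/-- The product of two reflections distinguishes a non-symmetric triangle. -/
theorem heis_tri (n : NoTv ρ) {b β : V5 K} {s t : K} (a : D ρ v f) (a1 : D ρ w g) (a2 : D ρ u h)
    (ns : NS v f w g u h) (a' : D ρ (v + s • b) (f + t • β)) (h0 : β ⬝ᵥ b = 0) (h1 : f ⬝ᵥ b = 0)
    (h2 : β ⬝ᵥ v = 0) (h3 : g ⬝ᵥ b = 0) (h4 : β ⬝ᵥ w = 0) (h5 : h ⬝ᵥ b = 0) (h6 : β ⬝ᵥ u = 0) :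
    (s = 0 ∨ b = 0) ∧ (t = 0 ∨ β = 0) := by
  obtain ⟨k, k1, k2⟩ := a1.elt
  obtain ⟨l, l1, l2⟩ := a2.elt
  refine heis_pair n (x := k * l) a a' h0 h1 h2 ?_ ?_ fun e => ns ?_
  · simp [← mulVec_mulVec, k1, l1, sub_mulVec, vv_mulVec, h3, h5]
  · simp [← vecMul_vecMul, k1, l1, vecMul_sub, vecMul_vv, h4, h6]
  · simp only [_root_.mul_inv_rev, map_mul, ← mulVec_mulVec, k1, k2, l1, l2, sub_mulVec,
      one_mulVec, vv_mulVec, dotProduct_sub, dotProduct_smul, smul_eq_mul] at e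
    linear_combination e

theorem du_pair (a : D ρ v f) (b : D ρ w g) (l : lam v f w g ≠ 4) :
    Du ![v, w] ![(4 - lam v f w g)⁻¹ • ((2 : K) • f - (f ⬝ᵥ w) • g),
      (4 - lam v f w g)⁻¹ • ((2 : K) • g - (g ⬝ᵥ v) • f)] := fun i j => by
  have := sub_ne_zero.2 l.symm
  fin_cases i <;> fin_cases j <;> simp [a.1, b.1, mul_comm] <;> field_simp <;> simp only [lam] <;>
    ring

variable [IsAlgClosed K]

theorem exists_neg (lf : LF K) (h2 : (2 : K) ≠ 0) {e x : Fin 2 → V5 K} (d : Du e x) {b β : V5 K}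
    {ε : Fin 3 → K} {p q : Fin 3 → Fin 2 → K} (h0 : β ⬝ᵥ b = 0) (h1 : ∀ i, x i ⬝ᵥ b = 0)
    (h3 : ∀ i, β ⬝ᵥ e i = 0)
    (a : ∀ i, D ρ (p i 0 • e 0 + p i 1 • e 1 + ε i • b) (q i 0 • x 0 + q i 1 • x 1 + ε i • β))
    (hm : (-1 : Matrix (Fin 2) (Fin 2) K) ∈
      Submonoid.closure (Set.range fun i => 1 - vecMulVec (p i) (q i))) :
    ∃ (k : Γ) (c0 c1 y0 y1 c : K), ρ k = 1 - (2 : K) • vecMulVec (e 0) (x 0) -
      (2 : K) • vecMulVec (e 1) (x 1) + vecMulVec b (c0 • x 0 + c1 • x 1) +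
      vecMulVec (y0 • e 0 + y1 • e 1) β + c • vecMulVec b β := by
  let Y : Matrix (Fin 2) (Fin 2) K → K → K → K → K → K → M5 K := fun M c0 c1 y0 y1 c =>
    1 + (M 0 0 - 1) • vecMulVec (e 0) (x 0) + M 0 1 • vecMulVec (e 0) (x 1) +
      M 1 0 • vecMulVec (e 1) (x 0) + (M 1 1 - 1) • vecMulVec (e 1) (x 1) +
      c0 • vecMulVec b (x 0) + c1 • vecMulVec b (x 1) + y0 • vecMulVec (e 0) β +
      y1 • vecMulVec (e 1) β + c • vecMulVec b β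
  have key : ∀ M ∈ Submonoid.closure (Set.range fun i => 1 - vecMulVec (p i) (q i)),
      ∃ c0 c1 y0 y1 c, In ρ (Y M c0 c1 y0 y1 c) := fun M hM => by
    induction hM using Submonoid.closure_induction with
    | mem _ hx =>
      obtain ⟨i, rfl⟩ := hx
      refine ⟨-(ε i * q i 0), -(ε i * q i 1), -(ε i * p i 0), -(ε i * p i 1), -(ε i * ε i), ?_⟩
      convert (a i).isIn using 1
      simp only [Y, add_vecMulVec, vecMulVec_add, smul_vecMulVec, vecMulVec_smul]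
      simp [vecMulVec_apply]
      module
    | one => exact ⟨0, 0, 0, 0, 0, 1, by simp [Y]⟩
    | mul M N _ _ ha hb =>
      obtain ⟨c0, c1, y0, y1, c, ha⟩ := ha
      obtain ⟨c0', c1', y0', y1', c', hb⟩ := hb
      refine ⟨c0 * N 0 0 + c1 * N 1 0 + c0', c0 * N 0 1 + c1 * N 1 1 + c1',
        y0 + M 0 0 * y0' + M 0 1 * y1', y1 + M 1 0 * y0' + M 1 1 * y1',
        c + c' + c0 * y0' + c1 * y1', ?_⟩
      convert ha.mul hb using 1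
      simp only [Y, mul_add, add_mul, one_mul, mul_one, smul_mul_assoc, mul_smul_comm, vv_mul,
        d.eq, d.ne (show (0 : Fin 2) ≠ 1 by decide), d.ne (show (1 : Fin 2) ≠ 0 by decide), h0, h1,
        h3, mul_apply, Fin.sum_univ_two, zero_smul, smul_zero, add_zero, one_smul]
      module
  obtain ⟨c0, c1, y0, y1, c, k, hk⟩ := key _ hm
  refine ⟨k, c0, c1, y0, y1, c, hk.trans ?_⟩
  simp only [Y, add_vecMulVec, vecMulVec_add, smul_vecMulVec, vecMulVec_smul]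
  simp
  module

theorem planar (t : Tame ρ) (lf : LF K) (h2 : (2 : K) ≠ 0) (a : D ρ v f) (b : D ρ w g)
    (c : D ρ u h) (n : NS v f w g u h) (d : gram3 v f w g u h = 0) (l : lam v f w g ≠ 4) :
    ∃ s t s' t' : K, u = s • v + t • w ∧ h = s' • f + t' • g := by
  have du := du_pair a b l
  have l4 := sub_ne_zero.2 l.symm
  obtain ⟨x0, x1, hx0, hx1, du⟩ : ∃ x0 x1 : V5 K,
      x0 = (4 - lam v f w g)⁻¹ • ((2 : K) • f - (f ⬝ᵥ w) • g) ∧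
      x1 = (4 - lam v f w g)⁻¹ • ((2 : K) • g - (g ⬝ᵥ v) • f) ∧ Du ![v, w] ![x0, x1] :=
    ⟨_, _, rfl, rfl, du⟩
  have ef : f = (2 : K) • x0 + (f ⬝ᵥ w) • x1 := by
    conv_lhs => rw [← one_smul K f, ← inv_mul_cancel₀ l4]
    rw [hx0, hx1]; unfold lam; module
  have eg : g = (g ⬝ᵥ v) • x0 + (2 : K) • x1 := by
    conv_lhs => rw [← one_smul K g, ← inv_mul_cancel₀ l4]
    rw [hx0, hx1]; unfold lam; module
  have d00 : x0 ⬝ᵥ v = 1 := du.eq 0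
  have d11 : x1 ⬝ᵥ w = 1 := du.eq 1
  have d01 : x0 ⬝ᵥ w = 0 := du.ne (show (0 : Fin 2) ≠ 1 by decide)
  have d10 : x1 ⬝ᵥ v = 0 := du.ne (show (1 : Fin 2) ≠ 0 by decide)
  obtain ⟨y, eu, b0, b1⟩ : ∃ y, u = (x0 ⬝ᵥ u) • v + (x1 ⬝ᵥ u) • w + y ∧ x0 ⬝ᵥ y = 0 ∧ x1 ⬝ᵥ y = 0 :=
    ⟨u - (x0 ⬝ᵥ u) • v - (x1 ⬝ᵥ u) • w, by abel, by simp [d00, d01], by simp [d10, d11]⟩
  obtain ⟨β, eh, c0, c1⟩ : ∃ β, h = (h ⬝ᵥ v) • x0 + (h ⬝ᵥ w) • x1 + β ∧ β ⬝ᵥ v = 0 ∧ β ⬝ᵥ w = 0 :=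
    ⟨h - (h ⬝ᵥ v) • x0 - (h ⬝ᵥ w) • x1, by abel, by simp [d00, d10], by simp [d01, d11]⟩
  have fu : f ⬝ᵥ u = 2 * (x0 ⬝ᵥ u) + (f ⬝ᵥ w) * (x1 ⬝ᵥ u) := by
    conv_lhs => rw [ef]
    simp
  have gu : g ⬝ᵥ u = (g ⬝ᵥ v) * (x0 ⬝ᵥ u) + 2 * (x1 ⬝ᵥ u) := by
    conv_lhs => rw [eg]
    simp
  have βu : β ⬝ᵥ u = β ⬝ᵥ y := by rw [eu]; simp [c0, c1]
  have hu : h ⬝ᵥ v * (x0 ⬝ᵥ u) + h ⬝ᵥ w * (x1 ⬝ᵥ u) + β ⬝ᵥ y = 2 := by
    rw [← c.1]; conv_rhs => rw [eh]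
    simp [βu]
  have h0 : β ⬝ᵥ y = 0 := by
    refine (mul_eq_zero.1 ?_).resolve_left l4
    simp only [gram3, lam, fu, gu] at d ⊢
    linear_combination d + (4 - f ⬝ᵥ w * g ⬝ᵥ v) * hu
  have fy : f ⬝ᵥ y = 0 := by rw [ef]; simp [b0, b1]
  have gy : g ⬝ᵥ y = 0 := by rw [eg]; simp [b0, b1]
  have hy : h ⬝ᵥ y = 0 := by rw [eh]; simp [b0, b1, h0]
  obtain ⟨n1, n2⟩ := n.ne t a b
  obtain ⟨n3, n4⟩ := n.rot.ne t b c
  obtain ⟨n5, n6⟩ := n.rot.rot.ne t c a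
  obtain ⟨k, z0, z1, y0, y1, z, hk⟩ := exists_neg (ρ := ρ) lf h2 du (b := y) (β := β)
    (ε := ![0, 0, 1]) (p := ![![1, 0], ![0, 1], ![x0 ⬝ᵥ u, x1 ⬝ᵥ u]])
    (q := ![![2, f ⬝ᵥ w], ![g ⬝ᵥ v, 2], ![h ⬝ᵥ v, h ⬝ᵥ w]]) h0
    (fun i => by fin_cases i; exacts [b0, b1]) (fun i => by fin_cases i; exacts [c0, c1])
    (fun i => by
      fin_cases i
      · exact a.of_eq (by simp) (by simpa using ef.symm)
      · exact b.of_eq (by simp) (by simpa using eg.symm)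
      · exact c.of_eq (by simpa using eu.symm) (by simpa using eh.symm))
    (dk1 lf h2 (fun i => by fin_cases i <;> simp; linear_combination hu - h0)
      (fun i j => by
        fin_cases i <;> fin_cases j <;> simp [h2, n1, n2, n4, n5, ← fu, ← gu, n3, n6]
        rw [show h ⬝ᵥ v * x0 ⬝ᵥ u + h ⬝ᵥ w * x1 ⬝ᵥ u = 2 by linear_combination hu - h0]; exact h2)
      (by simpa [lam] using l) (by simpa [← fu, ← gu, NS] using n))
  simp only [cons_val_zero, cons_val_one] at hk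
  have key : ∀ {p q : V5 K} {p0 p1 q0 q1 ε : K}, D ρ p q → p = p0 • v + p1 • w + ε • y →
      q = q0 • x0 + q1 • x1 + ε • β → D ρ (p + (-(2 * ε + z0 * p0 + z1 * p1)) • y)
        (q + (-(2 * ε + q0 * y0 + q1 * y1)) • β) := by
    intro p q p0 p1 q0 q1 ε a ep eq
    refine (a.conj k).neg.of_eq ?_ ?_
    · simp only [hk, ep, add_mulVec, sub_mulVec, smul_mulVec, one_mulVec, vv_mulVec,
        dotProduct_add, add_dotProduct, dotProduct_smul, smul_dotProduct, d00, d01, d10, d11, b0,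
        b1, c0, c1, h0, smul_eq_mul]
      module
    · rw [← neg_vecMul, eq_comm, ← vecMul_one (q + _), ← mul_inv_rho ρ k, ← vecMul_vecMul]
      congr 1
      simp only [hk, eq, vecMul_add, vecMul_sub, vecMul_smul, vecMul_one, vecMul_vv,
        dotProduct_add, add_dotProduct, dotProduct_smul, smul_dotProduct, d00, d01, d10, d11, b0,
        b1, c0, c1, h0, smul_eq_mul]
      module
  have nt := t.notv h2
  have r1 := heis_tri nt a b c n (key (p0 := 1) (p1 := 0) (ε := 0) a (by simp) (by simpa using ef))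
    h0 fy c0 gy c1 hy (βu.trans h0)
  have r2 := heis_tri nt b c a n.rot
    (key (p0 := 0) (p1 := 1) (ε := 0) b (by simp) (by simpa using eg)) h0 gy c1 hy (βu.trans h0) fy c0
  have r3 := heis_tri nt c a b n.rot.rot (key (ε := 1) c (by simpa using eu) (by simpa using eh))
    h0 hy (βu.trans h0) fy c0 gy c1
  have e1 : y = 0 := by
    by_contra hh
    have a1 := r1.1.resolve_right hh
    have a2 := r2.1.resolve_right hh
    have a3 := r3.1.resolve_right hh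
    exact h2 (by linear_combination -a3 + (x0 ⬝ᵥ u) * a1 + (x1 ⬝ᵥ u) * a2)
  have e2 : β = 0 := by
    by_contra hh
    have a1 := r1.2.resolve_right hh
    have a2 := r2.2.resolve_right hh
    have a3 := r3.2.resolve_right hh
    have a4 : y0 = 0 := (mul_eq_zero.1 (by
      unfold lam; linear_combination -2 * a1 + (f ⬝ᵥ w) * a2)).resolve_left l4
    have a5 : y1 = 0 := (mul_eq_zero.1 (by
      unfold lam; linear_combination -2 * a2 + (g ⬝ᵥ v) * a1)).resolve_left l4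
    exact h2 (by rw [a4, a5] at a3; linear_combination -a3)
  refine ⟨x0 ⬝ᵥ u, x1 ⬝ᵥ u, (4 - lam v f w g)⁻¹ * (2 * h ⬝ᵥ v - h ⬝ᵥ w * g ⬝ᵥ v),
    (4 - lam v f w g)⁻¹ * (2 * h ⬝ᵥ w - h ⬝ᵥ v * f ⬝ᵥ w), by simpa [e1] using eu, ?_⟩
  conv_lhs => rw [eh, e2, hx0, hx1]
  module

omit [IsAlgClosed K] in
theorem sym_step (O : V5 K → Prop) (a : f ⬝ᵥ v = 2) (b : g ⬝ᵥ w = 2) (n1 : h ⬝ᵥ v ≠ 0)
    (n2 : h ⬝ᵥ w ≠ 0) (h1 : ∀ z, O z → f ⬝ᵥ z = 0 ∨ g ⬝ᵥ z = 0 ∨ h ⬝ᵥ z = 0)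
    (h2 : ∀ z, O z → h ⬝ᵥ z = 0 → f ⬝ᵥ z ≠ 0 ∧ g ⬝ᵥ z ≠ 0)
    (c1 : ∀ z, O z → f ⬝ᵥ z ≠ 0 → O (z - (f ⬝ᵥ z) • v))
    (c2 : ∀ z, O z → g ⬝ᵥ z ≠ 0 → O (z - (g ⬝ᵥ z) • w)) (hz : ∃ z, O z ∧ h ⬝ᵥ z = 0) :
    lam v f w g = 1 ∧ (∃ z, O z ∧ f ⬝ᵥ z = 0) ∧ ∃ z, O z ∧ g ⬝ᵥ z = 0 := by
  obtain ⟨z, hz, e⟩ := hz
  obtain ⟨p, q⟩ := h2 z hz e
  have k1 : g ⬝ᵥ (z - (f ⬝ᵥ z) • v) = 0 := by
    rcases h1 _ (c1 z hz p) with k | k | k
    · simp [a] at k; exact absurd (by linear_combination -k) p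
    · exact k
    · simp [e, p, n1] at k
  have k2 : f ⬝ᵥ (z - (g ⬝ᵥ z) • w) = 0 := by
    rcases h1 _ (c2 z hz q) with k | k | k
    · exact k
    · simp [b] at k; exact absurd (by linear_combination -k) q
    · simp [e, q, n2] at k
  refine ⟨mul_left_cancel₀ p ?_, ⟨_, c2 z hz q, k2⟩, _, c1 z hz p, k1⟩
  simp only [dotProduct_sub, dotProduct_smul, smul_eq_mul] at k1 k2
  unfold lam
  linear_combination -k2 - (f ⬝ᵥ w) * k1

omit [IsAlgClosed K] in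
theorem par_ne (t : Tame ρ) (a : D ρ v f) (c : D ρ u h) (n : NS v f w g u h) (s : K) :
    u ≠ s • v ∧ h ≠ s • f := by
  constructor
  · rintro rfl
    have h0 : s ≠ 0 := by rintro rfl; exact c.2.1 (zero_smul _ _)
    obtain rfl := t.ctr (a.smul h0) c
    exact n (by simp [a.1]; field_simp)
  · rintro rfl
    have h0 : s ≠ 0 := by rintro rfl; exact c.2.2.1 (zero_smul _ _)
    obtain rfl := t.axs (a.smul' (inv_mul_cancel₀ h0)) c
    exact n (by simp [a.1]; field_simp)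

omit [IsAlgClosed K] in
theorem Inn.lin {e x : Fin 3 → V5 K} (s t s' t' : K) (a : Inn e x v f) (b : Inn e x w g)
    (e1 : u = s • v + t • w) (e2 : h = s' • f + t' • g) : Inn e x u h :=
  e1 ▸ e2 ▸ ⟨add_mem (Submodule.smul_mem _ _ a.1) (Submodule.smul_mem _ _ b.1),
    add_mem (Submodule.smul_mem _ _ a.2) (Submodule.smul_mem _ _ b.2)⟩

theorem ext_blk (t : Tame ρ) (lf : LF K) (h2 : (2 : K) ≠ 0) {P : Submodule K (V5 K)}
    (a : D ρ v f) (b : D ρ w g) (c : D ρ u h) (n : NS v f w g u h) (l : lam v f w g ≠ 4)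
    (hv : v ∈ P) (hw : w ∈ P) (hz : u ∉ P) : ∃ e x, GB ρ e x ∧ Inn e x v f ∧ Inn e x w g := by
  by_cases d : gram3 v f w g u h = 0
  · obtain ⟨s, t, -, -, rfl, -⟩ := planar t lf h2 a b c n d l
    exact absurd (add_mem (P.smul_mem _ hv) (P.smul_mem _ hw)) hz
  · obtain ⟨e, x, h1, h2, h3, -⟩ := gb_of a b c n d
    exact ⟨e, x, h1, h2, h3⟩

omit [IsAlgClosed K] in
theorem sym_false (t : Tame ρ) {P : Submodule K (V5 K)} {s1 s2 : K} (a : D ρ v f) (b : D ρ w g)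
    (c : D ρ u h) (n : NS v f w g u h) (d : gram3 v f w g u h = 0) (s10 : s1 ≠ 0) (s20 : s2 ≠ 0)
    (eu : u = s1 • v + s2 • w) (vP : v ∈ P) (wP : w ∈ P)
    (m : ∀ z η, D ρ z η → z ∉ P → ¬ NS v f w g z η ∧ ¬ NS w g u h z η ∧ ¬ NS u h v f z η)
    {z0 η0 : V5 K} (o1 : D ρ z0 η0) (o2 : ¬ (η0 ⬝ᵥ v = 0 ∧ η0 ⬝ᵥ w = 0)) (o3 : z0 ∉ P) :
    False := by
  have uP : u ∈ P := eu ▸ add_mem (P.smul_mem _ vP) (P.smul_mem _ wP)
  obtain ⟨O, hO⟩ : ∃ O : V5 K → Prop, ∀ z, O z ↔ ∃ η, D ρ z η ∧ z ∉ P ∧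
    ¬ (η ⬝ᵥ v = 0 ∧ η ⬝ᵥ w = 0) := ⟨_, fun _ => Iff.rfl⟩
  have h1 : ∀ z, O z → f ⬝ᵥ z = 0 ∨ g ⬝ᵥ z = 0 ∨ h ⬝ᵥ z = 0 := fun z hz => by
    obtain ⟨η, o, oP, -⟩ := (hO z).1 hz
    obtain ⟨m1, m2, m3⟩ := m z η o oP
    by_contra hh
    push Not at hh
    obtain ⟨A1, A2, A3⟩ := hh
    have B1 := t.ne a o A1
    have B2 := t.ne b o A2
    have B3 := t.ne c o A3
    simp only [NS, not_not] at m1 m2 m3
    refine n (mul_left_cancel₀ (mul_ne_zero (mul_ne_zero (mul_ne_zero A1 A2) A3)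
      (mul_ne_zero (mul_ne_zero B1 B2) B3)) ?_)
    calc _ = (f ⬝ᵥ w * g ⬝ᵥ z * η ⬝ᵥ v) * (g ⬝ᵥ u * h ⬝ᵥ z * η ⬝ᵥ w) *
          (h ⬝ᵥ v * f ⬝ᵥ z * η ⬝ᵥ u) := by ring
      _ = _ := by rw [m1, m2, m3]; ring
  have ηu : ∀ η : V5 K, η ⬝ᵥ u = s1 * η ⬝ᵥ v + s2 * η ⬝ᵥ w := fun η => by rw [eu]; simp
  have g12 : ∀ z, O z → f ⬝ᵥ z = 0 → g ⬝ᵥ z ≠ 0 := fun z hz e e' =>
    let ⟨_, o, _, m⟩ := (hO z).1 hz; m ⟨t.zero a o e, t.zero b o e'⟩
  have g13 : ∀ z, O z → f ⬝ᵥ z = 0 → h ⬝ᵥ z ≠ 0 := fun z hz e e' =>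
    let ⟨_, o, _, m⟩ := (hO z).1 hz
    m ⟨t.zero a o e, by simpa [ηu, t.zero a o e, s20] using t.zero c o e'⟩
  have g23 : ∀ z, O z → g ⬝ᵥ z = 0 → h ⬝ᵥ z ≠ 0 := fun z hz e e' =>
    let ⟨_, o, _, m⟩ := (hO z).1 hz
    m ⟨by simpa [ηu, t.zero b o e, s10] using t.zero c o e', t.zero b o e⟩
  have cl : ∀ {p q : V5 K}, D ρ p q → p ∈ P → (∀ η : V5 K, η ⬝ᵥ v = 0 → η ⬝ᵥ w = 0 → η ⬝ᵥ p = 0) →
      ∀ z, O z → q ⬝ᵥ z ≠ 0 → O (z - (q ⬝ᵥ z) • p) := fun {p q} a pP hp z hz e => by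
    obtain ⟨η, o, oP, -⟩ := (hO z).1 hz
    refine (hO _).2 ⟨_, a.act o, fun m => oP ?_, fun m => t.ne a o e ?_⟩
    · simpa using add_mem m (P.smul_mem (q ⬝ᵥ z) pP)
    · have := hp _ m.1 m.2
      rw [sub_dotProduct, smul_dotProduct, a.1, smul_eq_mul] at this
      linear_combination -this
  have c1 := cl a vP fun _ e _ => e
  have c2 := cl b wP fun _ _ e => e
  have c3 := cl c uP fun η e e' => by simp [ηu, e, e']
  obtain ⟨n1, n2⟩ := n.ne t a b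
  obtain ⟨n3, n4⟩ := n.rot.ne t b c
  obtain ⟨n5, n6⟩ := n.rot.rot.ne t c a
  have S3 := sym_step O a.1 b.1 n5 n4 h1 (fun z o e => ⟨fun e' => g13 z o e' e,
    fun e' => g23 z o e' e⟩) c1 c2
  have S1 := sym_step O b.1 c.1 n1 n6 (fun z o => or_rotate.1 (h1 z o))
    (fun z o e => ⟨g12 z o e, g13 z o e⟩) c2 c3
  have S2 := sym_step O c.1 a.1 n3 n2 (fun z o => or_rotate.2 (h1 z o))
    (fun z o e => ⟨g23 z o e, fun e' => g12 z o e' e⟩) c3 c1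
  have o0 : O z0 := (hO _).2 ⟨η0, o1, o3, o2⟩
  have T3 : ∃ z, O z ∧ h ⬝ᵥ z = 0 := by
    rcases h1 z0 o0 with e | e | e
    exacts [(S1 ⟨z0, o0, e⟩).2.2, (S2 ⟨z0, o0, e⟩).2.1, ⟨z0, o0, e⟩]
  obtain ⟨e1, T1, T2⟩ := S3 T3
  have e2 := (S1 T1).1
  have e3 := (S2 T2).1
  rw [gram3, e1, e2, e3] at d
  refine n (sub_eq_zero.1 (pow_eq_zero_iff two_ne_zero |>.1 ?_))
  unfold lam at e1 e2 e3
  generalize f ⬝ᵥ w = a1, g ⬝ᵥ v = a2, g ⬝ᵥ u = a3, h ⬝ᵥ w = a4, h ⬝ᵥ v = a5, f ⬝ᵥ u = a6 at *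
  linear_combination (a1 * a3 * a5 + a2 * a4 * a6 - 2) * d - 4 * (a3 * a4 * a5 * a6) * e1 -
    4 * (a5 * a6) * e2 - 4 * e3

theorem RH.blk_aux (r : RH ρ) (h2 : (2 : K) ≠ 0) (a : D ρ v f) (b : D ρ w g) (c : D ρ u h)
    (n : NS v f w g u h) (d : gram3 v f w g u h = 0) (l : lam v f w g ≠ 4) :
    ∃ e x, GB ρ e x ∧ Inn e x v f ∧ Inn e x w g ∧ Inn e x u h := by
  have t := r.toTame
  obtain ⟨s1, s2, t1, t2, eu, eh⟩ := planar t r.lf h2 a b c n d l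
  have s20 : s2 ≠ 0 := fun e => (par_ne t a c n s1).1 (by simpa [e] using eu)
  have t20 : t2 ≠ 0 := fun e => (par_ne t a c n t1).2 (by simpa [e] using eh)
  have s10 : s1 ≠ 0 := fun e => (par_ne t b c n.swap s2).1 (by simpa [e] using eu)
  have t10 : t1 ≠ 0 := fun e => (par_ne t b c n.swap t2).2 (by simpa [e] using eh)
  have l4 := sub_ne_zero.2 l.symm
  have hc2 := c.1
  have l2 : lam w g u h ≠ 4 := fun e => mul_ne_zero (mul_ne_zero s10 t10) l4 (by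
    simp only [lam, eu, eh, dotProduct_add, add_dotProduct, dotProduct_smul, smul_dotProduct,
      smul_eq_mul, a.1, b.1] at e hc2 ⊢
    linear_combination 2 * hc2 - e)
  have l3 : lam u h v f ≠ 4 := fun e => mul_ne_zero (mul_ne_zero s20 t20) l4 (by
    simp only [lam, eu, eh, dotProduct_add, add_dotProduct, dotProduct_smul, smul_dotProduct,
      smul_eq_mul, a.1, b.1] at e hc2 ⊢
    linear_combination 2 * hc2 - e)
  have du := du_pair a b l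
  obtain ⟨z0, η0, o1, ⟨i, hi⟩, o3⟩ := r.outer du (by decide) (by decide)
  have o4 := fun m => o3 (du.mem_iff.1 m)
  have vP : v ∈ Submodule.span K (Set.range ![v, w]) := Submodule.subset_span ⟨0, rfl⟩
  have wP : w ∈ Submodule.span K (Set.range ![v, w]) := Submodule.subset_span ⟨1, rfl⟩
  generalize Submodule.span K (Set.range ![v, w]) = P at o4 vP wP
  have uP : u ∈ P := eu ▸ add_mem (P.smul_mem _ vP) (P.smul_mem _ wP)
  by_contra hc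
  refine sym_false t a b c n d s10 s20 eu vP wP
    (fun z η o oP => ⟨fun m => hc ?_, fun m => hc ?_, fun m => hc ?_⟩) o1 (fun m => ?_) o4
  · obtain ⟨e, x, h1, h2, h3⟩ := ext_blk t r.lf h2 a b o m l vP wP oP
    exact ⟨e, x, h1, h2, h3, h2.lin _ _ _ _ h3 eu eh⟩
  · obtain ⟨e, x, h1, h2, h3⟩ := ext_blk t r.lf h2 b c o m l2 wP uP oP
    refine ⟨e, x, h1, h2.lin (-(s2 / s1)) s1⁻¹ (-(t2 / t1)) t1⁻¹ h3 ?_ ?_, h2, h3⟩
    · rw [eu]; match_scalars <;> field_simp; ring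
    · rw [eh]; match_scalars <;> field_simp; ring
  · obtain ⟨e, x, h1, h2, h3⟩ := ext_blk t r.lf h2 c a o m l3 uP vP oP
    refine ⟨e, x, h1, h3, h2.lin s2⁻¹ (-(s1 / s2)) t2⁻¹ (-(t1 / t2)) h3 ?_ ?_, h2⟩
    · rw [eu]; match_scalars <;> field_simp; ring
    · rw [eh]; match_scalars <;> field_simp; ring
  · fin_cases i
    exacts [hi m.1, hi m.2]

variable [Finite Γ]

theorem RH.blk (r : RH ρ) (a : D ρ v f) (b : D ρ w g) (c : D ρ u h) (n : NS v f w g u h) :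
    ∃ e x, GB ρ e x ∧ Inn e x v f ∧ Inn e x w g ∧ Inn e x u h := by
  by_cases d : gram3 v f w g u h = 0
  swap
  · exact gb_of a b c n d
  have h2 : (2 : K) ≠ 0 := fun e => n (by unfold gram3 at d; grind)
  by_cases l1 : lam v f w g = 4
  swap
  · exact r.blk_aux h2 a b c n d l1
  by_cases l2 : lam w g u h = 4
  swap
  · obtain ⟨e, x, h1, h2, h3, h4⟩ := r.blk_aux h2 b c a n.rot (gram3_rot.trans d) l2
    exact ⟨e, x, h1, h4, h2, h3⟩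
  by_cases l3 : lam u h v f = 4
  swap
  · obtain ⟨e, x, h1, h2, h3, h4⟩ := r.blk_aux h2 c a b n.rot.rot (gram3_rot.symm.trans d) l3
    exact ⟨e, x, h1, h3, h4, h2⟩
  rw [gram3, l1, l2, l3] at d
  refine absurd (sub_eq_zero.1 (pow_eq_zero_iff two_ne_zero |>.1 ?_)) n
  unfold lam at l1 l2 l3
  generalize f ⬝ᵥ w = a1, g ⬝ᵥ v = a2, g ⬝ᵥ u = a3, h ⬝ᵥ w = a4, h ⬝ᵥ v = a5, f ⬝ᵥ u = a6 at *
  linear_combination (a1 * a3 * a5 + a2 * a4 * a6 + 16) * d - 4 * (a3 * a4 * a5 * a6) * l1 -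
    16 * (a5 * a6) * l2 - 64 * l3

end Cfsg.Agent.D5
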