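import Cfsg.Agent.DIM5.RFr2

/-!
Frames: outer roots, monomial groups, climbing.
-/

set_option autoImplicit false

open Matrix

namespace Cfsg.Agent.D5

variable {K : Type*} [Field K] {Γ : Type*} [Group Γ] {ρ : Γ →* M5 K} {u v w f g h : V5 K}
variable {k : ℕ} {e x : Fin k → V5 K} {θ φ ψ : K} {i j l : Fin k}

theorem RH.outer (r : RH ρ) (d : Du e x) (h0 : 0 < k) (h5 : k < 5) :
    ∃ v f, D ρ v f ∧ (∃ i, f ⬝ᵥ e i ≠ 0) ∧ rs e x v ≠ 0 := by
  by_contra hc
  rcases r.irr (Submodule.span K (Set.range e)) (fun v f a y hy hf => by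
    refine d.mem_iff.2 (by_contra fun h1 => hc ⟨v, f, a, by_contra fun h2 => hf ?_, h1⟩)
    obtain ⟨c, rfl⟩ := (Submodule.mem_span_range_iff_exists_fun K).1 hy
    push Not at h2
    simp [dotProduct_sum, h2]) with h | h
  · have := d.eq ⟨0, h0⟩
    rw [(Submodule.span_eq_bot.1 h) _ ⟨⟨0, h0⟩, rfl⟩] at this
    simp at this
  · have := finrank_range_le_card (R := K) e
    rw [Set.finrank, h] at this
    simp at this; omega

/-- The normal subgroup generated by the reflections. -/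
theorem RH.refl_gen (r : RH ρ) (a : D ρ v f) (H : Subgroup Γ)
    (hH : ∀ k v f, D ρ v f → ρ k = 1 - vecMulVec v f → k ∈ H) (g : Γ) :
    ∃ n ∈ H, ∃ c : K, ρ g = c • ρ n := by
  let S : Set Γ := {k | ∃ v f, D ρ v f ∧ ρ k = 1 - vecMulVec v f}
  have hS : ∀ g, ∀ k ∈ S, g * k * g⁻¹ ∈ S := fun g k ⟨v, f, a, hk⟩ => ⟨_, _, a.conj g, by
    rw [map_mul, map_mul, hk, mul_sub, sub_mul, mul_one, mul_inv_rho, mul_vecMulVec,
      vecMulVec_mul]⟩
  have hN : (Subgroup.closure S).Normal := ⟨fun n hn g => by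
    have : (Subgroup.closure S).map (MulAut.conj g).toMonoidHom ≤ Subgroup.closure S := by
      rw [MonoidHom.map_closure]
      exact Subgroup.closure_mono (by rintro _ ⟨k, hk, rfl⟩; exact hS g k hk)
    exact this ⟨n, hn, rfl⟩⟩
  obtain ⟨k, hk⟩ := a.isIn
  obtain ⟨n, hn, t⟩ := r.simp _ hN ⟨k, Subgroup.subset_closure ⟨v, f, a, hk⟩, fun c => by
    rw [hk, sub_eq_add_neg, ← neg_vecMulVec]
    exact one_add_vv_ne (neg_ne_zero.2 a.2.1) a.2.2.1 c⟩ g
  exact ⟨n, (Subgroup.closure_le H).2 (by rintro k ⟨v, f, a, hk⟩; exact hH k v f a hk) hn, t⟩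

theorem Du.ne_zero (d : Du e x) (i : Fin k) : e i ≠ 0 := fun h => by
  simpa [h] using d.eq i

theorem Mon.line (m : Mon e x v f) (d : Du e x) (l : Fin k) :
    ∃ (j : Fin k) (c : K), c ≠ 0 ∧ (1 - vecMulVec v f) *ᵥ e l = c • e j := by
  rw [sub_mulVec, one_mulVec, vv_mulVec]
  rcases m with ⟨i, j, a, b, hij, ha, hb, rfl, rfl⟩ | ⟨i, a, ha, rfl, rfl⟩
  · by_cases h1 : i = l
    · subst h1
      exact ⟨j, -(b / a), by simp [ha, hb], by
        simp only [add_dotProduct, smul_dotProduct, d.eq, d.ne hij.symm, smul_eq_mul]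
        match_scalars <;> field_simp <;> ring⟩
    by_cases h2 : j = l
    · subst h2
      exact ⟨i, -(a / b), by simp [ha, hb], by
        simp only [add_dotProduct, smul_dotProduct, d.eq, d.ne hij, smul_eq_mul]
        match_scalars <;> field_simp <;> ring⟩
    exact ⟨l, 1, one_ne_zero, by simp [d.ne h1, d.ne h2]⟩
  · by_cases h1 : i = l
    · subst h1
      exact ⟨i, -1, by simp, by
        simp only [smul_dotProduct, d.eq, smul_eq_mul]
        match_scalars; field_simp; ring⟩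
    exact ⟨l, 1, one_ne_zero, by simp [d.ne h1]⟩

theorem rho_inv_line {g : Γ} {c : K} (hc : c ≠ 0) (h : ρ g *ᵥ v = c • w) :
    ρ g⁻¹ *ᵥ w = c⁻¹ • v := by
  rw [eq_inv_smul_iff₀ hc, ← mulVec_smul, ← h, mulVec_mulVec, inv_mul_rho, one_mulVec]

theorem RH.mono_false (r : RH ρ) {e x : Fin 5 → V5 K} (F : Fr ρ e x θ) (hθ : θ ≠ 1)
    (m : ∀ v f, D ρ v f → Mon e x v f) : False := by
  have d := F.du
  have h01 : (0 : Fin 5) ≠ 1 := by decide
  let P : Γ → Prop := fun g => ∀ i, ∃ (j : Fin 5) (c : K), c ≠ 0 ∧ ρ g *ᵥ e i = c • e j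
  have Pm : ∀ a b, P a → P b → P (a * b) := fun a b ha hb i => by
    obtain ⟨j, c, hc, h⟩ := hb i
    obtain ⟨l, c', hc', h'⟩ := ha j
    exact ⟨l, c * c', mul_ne_zero hc hc', by
      rw [map_mul, ← mulVec_mulVec, h, mulVec_smul, h', smul_smul]⟩
  let H : Subgroup Γ :=
    { carrier := {g | P g ∧ P g⁻¹}
      mul_mem' := fun a b => ⟨Pm _ _ a.1 b.1, by rw [_root_.mul_inv_rev]; exact Pm _ _ b.2 a.2⟩
      one_mem' := ⟨fun i => ⟨i, 1, by simp⟩, fun i => ⟨i, 1, by simp⟩⟩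
      inv_mem' := fun a => ⟨a.2, by rw [inv_inv]; exact a.1⟩ }
  have hP : ∀ g, P g := fun g i => by
    obtain ⟨n, hn, c, hc⟩ := r.refl_gen (F.one 0 1 h01).2 H (fun k v f a hk => ⟨fun i => by
      rw [hk]; exact (m v f a).line d i, fun i => by
      rw [rho_inv_eq (M := 1 - vecMulVec v f) (by rw [hk, refl_sq a.1])]; exact (m v f a).line d i⟩) g
    obtain ⟨j, c', h1, h2⟩ := hn.1 i
    refine ⟨j, c * c', fun h0 => rho_mulVec_ne ρ g (d.ne_zero i) ?_, ?_⟩ <;>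
      rw [hc, smul_mulVec, h2, smul_smul]
    rw [h0, zero_smul]
  let N : Subgroup Γ :=
    { carrier := {g | ∀ i, ∃ c : K, c ≠ 0 ∧ ρ g *ᵥ e i = c • e i}
      mul_mem' := fun {a b} ha hb i => by
        obtain ⟨c, hc, h⟩ := hb i
        obtain ⟨c', hc', h'⟩ := ha i
        exact ⟨c * c', mul_ne_zero hc hc', by
          rw [map_mul, ← mulVec_mulVec, h, mulVec_smul, h', smul_smul]⟩
      one_mem' := fun i => ⟨1, by simp⟩
      inv_mem' := fun ha i => let ⟨c, hc, h⟩ := ha i; ⟨_, inv_ne_zero hc, rho_inv_line hc h⟩ }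
  have hN : N.Normal := ⟨fun n hn g i => by
    obtain ⟨j, c, hc, h⟩ := hP g⁻¹ i
    obtain ⟨c', hc', h'⟩ := hn j
    refine ⟨c', hc', ?_⟩
    rw [map_mul, map_mul, ← mulVec_mulVec, ← mulVec_mulVec, h, mulVec_smul, h', smul_comm,
      mulVec_smul, ← h, mulVec_mulVec, mul_inv_rho, one_mulVec]⟩
  have h0 := F.ne h01
  obtain ⟨t, ht⟩ := Sw.in_dg d h01 (F.one 0 1 h01) (F.th 0 1 h01)
  have e1 : ∀ (c : Fin 5 → K) i, dg e x c *ᵥ e i = c i • e i := fun c i => by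
    simp [dg_mulVec, d.rs_self, d _ i, ite_smul]
  obtain ⟨s, hs⟩ := (F.one 0 1 h01).2.isIn
  obtain ⟨n, hn, c, hc⟩ := r.simp N hN ⟨t, fun i => ⟨(Pi.mulSingle (0 : Fin 5) θ *
    Pi.mulSingle (1 : Fin 5) θ⁻¹ : Fin 5 → K) i, by
    fin_cases i <;> simp [h0], by rw [ht, e1]⟩, fun c hc => by
    have k := fun i => smul_left_injective K (d.ne_zero i)
      ((e1 _ i).symm.trans (by rw [← ht, hc, smul_mulVec, one_mulVec]))
    have k0 := k 0
    have k2 := k 2
    simp at k0 k2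
    exact hθ (k0.trans k2.symm)⟩ s
  obtain ⟨c', -, h'⟩ := hn 0
  have := congrArg (fun M => x 1 ⬝ᵥ (M *ᵥ e 0)) (hs.symm.trans hc)
  simp [smul_mulVec, h', sub_mulVec, vv_mulVec, d.eq, d.ne h01, d.ne h01.symm] at this

theorem inj_three (hij : i ≠ j) (hli : l ≠ i) (hlj : l ≠ j) :
    Function.Injective (![i, j, l] : Fin 3 → Fin k) := fun a b h => by
  fin_cases a <;> fin_cases b <;> simp_all

theorem Mon.rs_eq (m : Mon e x v f) (d : Du e x) : rs e x v = 0 ∧ rs x e f = 0 :=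
  d.inn_iff.1 m.inn

/-- If on all triples a root is orthogonal, of weight one or monomial, so it is on the frame. -/
theorem three_types (hk : 3 ≤ k) (ty : ∀ s : Fin 3 → Fin k, Function.Injective s →
    (∀ i, Zr (e ∘ s) (x ∘ s) v f i) ∨ (∃ i, pp (e ∘ s) (x ∘ s) v f i = 1 ∧
      ∀ j, j ≠ i → Zr (e ∘ s) (x ∘ s) v f j) ∨ Mon (e ∘ s) (x ∘ s) v f) :
    (∀ i, Zr e x v f i) ∨ (∃ i, pp e x v f i = 1 ∧ ∀ j, j ≠ i → Zr e x v f j) ∨ Mon e x v f := by
  by_cases hm : Mon e x v f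
  · exact Or.inr (Or.inr hm)
  by_cases hz : ∀ i, Zr e x v f i
  · exact Or.inl hz
  obtain ⟨i, hi⟩ := not_forall.1 hz
  have key : ∀ j, j ≠ i → pp e x v f i = 1 ∧ Zr e x v f j := fun j hj => by
    obtain ⟨l, h1, h2⟩ := exists_third hk i j
    rcases ty _ (inj_three hj.symm h1 h2) with h | ⟨a, ha, h⟩ | h
    · exact (hi (h 0)).elim
    · obtain rfl : a = 0 := by_contra fun h0 => hi (h 0 (Ne.symm h0))
      exact ⟨ha, h 1 (by decide)⟩
    · exact (hm (h.comp _ (inj_three hj.symm h1 h2))).elim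
  obtain ⟨j, h1, -⟩ := exists_third hk i i
  exact Or.inr (Or.inl ⟨i, (key j h1).1, fun j h => (key j h).2⟩)

theorem RH.climb (r : RH ρ) {e x : Fin 3 → V5 K} (F : Fr ρ e x θ) (hθ : θ ≠ 1)
    (ty : ∀ e x : Fin 3 → V5 K, Fr ρ e x θ → ∀ v f, D ρ v f → (∀ i, Zr e x v f i) ∨
      (∃ i, pp e x v f i = 1 ∧ ∀ j, j ≠ i → Zr e x v f j) ∨ Mon e x v f) : False := by
  have up : ∀ {k} {e x : Fin k → V5 K}, 3 ≤ k → k < 5 → Fr ρ e x θ →
      ∃ e' x' : Fin (k + 1) → V5 K, Fr ρ e' x' θ := fun h3 h5 F => by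
    obtain ⟨v, f, a, ⟨i, hi⟩, h⟩ := r.outer F.du (by omega) h5
    rcases three_types h3 fun s hs => ty _ _ (F.comp s hs) v f a with t | ⟨j, p, z⟩ | t
    · exact (hi (t i).2).elim
    · exact F.snoc (by omega) a p z
    · exact (h (t.rs_eq F.du).1).elim
  obtain ⟨e, x, F⟩ := up le_rfl (by omega) F
  obtain ⟨e, x, F⟩ := up (by omega) (by omega) F
  refine r.mono_false F hθ fun v f a => ?_
  rcases three_types (by omega) fun s hs => ty _ _ (F.comp s hs) v f a with t | ⟨j, p, z⟩ | t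
  · have := sum_add_rs e x v
    rw [F.du.five] at this
    exact (a.2.1 (by simpa [fun i => (t i).1] using this.symm)).elim
  · have := F.du.dot_eq f v
    rw [F.du.five v, dotProduct_zero, Fintype.sum_eq_single j fun i h => by simp [(z i h).1], a.1,
      show (x j ⬝ᵥ v) * (f ⬝ᵥ e j) = 1 from p] at this
    exact (one_ne_zero (α := K) (by linear_combination this)).elim
  · exact t

end Cfsg.Agent.D5
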