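import Cfsg.Agent.DIM5.Defs2

/-!
Frames: basic tools.
-/

set_option autoImplicit false

open Matrix

namespace Cfsg.Agent.D5

variable {K : Type*} [Field K] {Γ : Type*} [Group Γ] {ρ : Γ →* M5 K} {u v w f g h : V5 K}
variable {k : ℕ} {e x : Fin k → V5 K} {θ φ ψ : K} {i j l : Fin k}

theorem Du.eq (d : Du e x) (i : Fin k) : x i ⬝ᵥ e i = 1 := by simpa using d i i

theorem Du.ne (d : Du e x) (h : i ≠ j) : x i ⬝ᵥ e j = 0 := by simpa [h] using d i j

theorem Du.dual (d : Du e x) : Du x e := fun i j => by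
  rw [dotProduct_comm, d j i]; simp only [eq_comm]

theorem Du.dot_sum (d : Du e x) (c : Fin k → K) (i : Fin k) : x i ⬝ᵥ ∑ j, c j • e j = c i := by
  simp [dotProduct_sum, d i]

theorem Du.sum_dot (d : Du e x) (c : Fin k → K) (i : Fin k) : (∑ j, c j • x j) ⬝ᵥ e i = c i := by
  rw [dotProduct_comm, d.dual.dot_sum]

theorem Du.dot_rs (d : Du e x) (v : V5 K) (i : Fin k) : x i ⬝ᵥ rs e x v = 0 := by
  rw [rs, dotProduct_sub, d.dot_sum, sub_self]

theorem Du.rs_dot (d : Du e x) (f : V5 K) (i : Fin k) : rs x e f ⬝ᵥ e i = 0 := by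
  rw [dotProduct_comm, d.dual.dot_rs]

theorem sum_add_rs (e x : Fin k → V5 K) (v : V5 K) : ∑ i, (x i ⬝ᵥ v) • e i + rs e x v = v := by
  simp [rs]

theorem sum_add_rs' (e x : Fin k → V5 K) (f : V5 K) :
    ∑ i, (f ⬝ᵥ e i) • x i + rs x e f = f := by
  simp [rs, dotProduct_comm]

theorem Du.dot_eq (d : Du e x) (f v : V5 K) :
    f ⬝ᵥ v = ∑ i, (x i ⬝ᵥ v) * (f ⬝ᵥ e i) + rs x e f ⬝ᵥ rs e x v := by
  have h1 : f ⬝ᵥ rs e x v = rs x e f ⬝ᵥ rs e x v := by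
    conv_lhs => rw [← sum_add_rs' e x f]
    simp [sum_dotProduct, d.dot_rs]
  conv_lhs => rw [← sum_add_rs e x v]
  rw [dotProduct_add, h1, dotProduct_sum]
  simp

theorem rs_add (e x : Fin k → V5 K) (v w : V5 K) : rs e x (v + w) = rs e x v + rs e x w := by
  simp only [rs, dotProduct_add, add_smul, Finset.sum_add_distrib]; abel

theorem rs_sub (e x : Fin k → V5 K) (v w : V5 K) : rs e x (v - w) = rs e x v - rs e x w := by
  simp only [rs, dotProduct_sub, sub_smul, Finset.sum_sub_distrib]; abel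

theorem rs_smul (e x : Fin k → V5 K) (c : K) (v : V5 K) : rs e x (c • v) = c • rs e x v := by
  simp only [rs, dotProduct_smul, smul_sub, Finset.smul_sum, smul_smul, smul_eq_mul]

theorem Du.rs_sum (d : Du e x) (c : Fin k → K) : rs e x (∑ j, c j • e j) = 0 := by
  simp [rs, d.dot_sum]

theorem Du.rs_self (d : Du e x) (i : Fin k) : rs e x (e i) = 0 := by
  simp [rs, d _ i]

theorem Du.rs_rs (d : Du e x) (v : V5 K) : rs e x (rs e x v) = rs e x v := by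
  conv_lhs => rw [rs]
  simp [d.dot_rs]

theorem Du.mem_iff (d : Du e x) : v ∈ Submodule.span K (Set.range e) ↔ rs e x v = 0 := by
  refine ⟨fun h => ?_, fun h => ?_⟩
  · obtain ⟨c, rfl⟩ := (Submodule.mem_span_range_iff_exists_fun K).1 h
    exact d.rs_sum c
  · exact (Submodule.mem_span_range_iff_exists_fun K).2 ⟨_, by simpa [h] using sum_add_rs e x v⟩

theorem Du.inn_iff (d : Du e x) : Inn e x v f ↔ rs e x v = 0 ∧ rs x e f = 0 :=
  and_congr d.mem_iff d.dual.mem_iff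

theorem Mon.inn (m : Mon e x v f) : Inn e x v f := by
  have k : ∀ (e : Fin k → V5 K) (a : K) i, a • e i ∈ Submodule.span K (Set.range e) :=
    fun e a i => Submodule.smul_mem _ _ (Submodule.subset_span ⟨i, rfl⟩)
  rcases m with ⟨i, j, a, b, -, -, -, rfl, rfl⟩ | ⟨i, a, -, rfl, rfl⟩
  · exact ⟨add_mem (k _ _ _) (k _ _ _), add_mem (k _ _ _) (k _ _ _)⟩
  · exact ⟨k _ _ _, k _ _ _⟩

theorem sum_two {M : Type*} [AddCommMonoid M] (hij : i ≠ j) (t : Fin k → M)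
    (z : ∀ l, l ≠ i → l ≠ j → t l = 0) : ∑ l, t l = t i + t j :=
  Fintype.sum_eq_add i j hij fun l h => z l h.1 h.2

theorem Du.mon (_d : Du e x) (hij : i ≠ j) (h : rs e x v = 0 ∧ rs x e f = 0)
    (pi : pp e x v f i = 1) (pj : pp e x v f j = 1) (z : ∀ l, l ≠ i → l ≠ j → Zr e x v f l) :
    Mon e x v f := by
  refine Or.inl ⟨i, j, x i ⬝ᵥ v, x j ⬝ᵥ v, hij, left_ne_zero_of_mul_eq_one pi,
    left_ne_zero_of_mul_eq_one pj, ?_, ?_⟩
  · conv_lhs => rw [← sum_add_rs e x v, h.1, add_zero]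
    exact sum_two hij _ fun l a b => by rw [(z l a b).1, zero_smul]
  · rw [← eq_inv_of_mul_eq_one_right pi, ← eq_inv_of_mul_eq_one_right pj]
    conv_lhs => rw [← sum_add_rs' e x f, h.2, add_zero]
    exact sum_two hij _ fun l a b => by rw [(z l a b).2, zero_smul]

theorem Mon.comp {m : ℕ} (s : Fin m → Fin k) (hs : Function.Injective s)
    (M : Mon (e ∘ s) (x ∘ s) v f) : Mon e x v f := by
  rcases M with ⟨i, j, a, b, h, t⟩ | ⟨i, t⟩
  · exact Or.inl ⟨s i, s j, a, b, hs.ne h, t⟩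
  · exact Or.inr ⟨s i, t⟩

theorem Du.mul_eq {e x : Fin 5 → V5 K} (d : Du e x) : (of x) * (of e)ᵀ = 1 := by
  ext i j; rw [one_apply, ← d i j]; rfl

theorem of_mulVec (e : Fin 5 → V5 K) (c : V5 K) : (of e)ᵀ *ᵥ c = ∑ i, c i • e i := by
  ext j; simp [mulVec, dotProduct, mul_comm]

theorem Du.five {e x : Fin 5 → V5 K} (d : Du e x) (v : V5 K) : rs e x v = 0 := by
  have := congrArg (· *ᵥ v) (mul_eq_one_comm.1 d.mul_eq)
  simp only [← mulVec_mulVec, one_mulVec, of_mulVec] at this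
  rw [rs, sub_eq_zero]
  exact this.symm

theorem Du.snoc (d : Du e x) (hv : ∀ i, x i ⬝ᵥ v = 0) (hf : ∀ i, f ⬝ᵥ e i = 0) (h : f ⬝ᵥ v = 1) :
    Du (Fin.snoc e v : Fin (k + 1) → V5 K) (Fin.snoc x f) := fun i j => by
  induction i using Fin.lastCases <;> induction j using Fin.lastCases <;>
    simp [h, hv, hf, d _ _, (Fin.castSucc_lt_last _).ne, (Fin.castSucc_lt_last _).ne']

theorem Du.four {e x : Fin 4 → V5 K} (d : Du e x) (hv : ∀ i, x i ⬝ᵥ v = 0)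
    (hf : ∀ i, f ⬝ᵥ e i = 0) (h : f ⬝ᵥ v = 0) : v = 0 ∨ f = 0 := by
  refine or_iff_not_imp_left.2 fun h0 => ?_
  obtain ⟨y, hy⟩ := exists_dot_ne_zero h0
  have h1 : rs x e y ⬝ᵥ v = y ⬝ᵥ v := by simp [rs, sum_dotProduct, hv]
  have D := d.snoc (v := v) (f := (y ⬝ᵥ v)⁻¹ • rs x e y) hv (fun i => by simp [d.rs_dot])
    (by simp [h1, hy])
  have := sum_add_rs' (Fin.snoc e v : Fin 5 → V5 K) (Fin.snoc x ((y ⬝ᵥ v)⁻¹ • rs x e y)) f
  rw [D.dual.five, Fin.sum_univ_castSucc] at this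
  simp only [Fin.snoc_castSucc, Fin.snoc_last, hf, h] at this
  simpa using this.symm

theorem Du.basis {e x : Fin 5 → V5 K} (d : Du e x) : ∃ B : (M5 K)ˣ, ∀ v f : V5 K,
    B.val *ᵥ v = ∑ i, v i • e i ∧ f ᵥ* B⁻¹.val = ∑ i, f i • x i :=
  ⟨⟨(of e)ᵀ, of x, mul_eq_one_comm.1 d.mul_eq, d.mul_eq⟩, fun v f => ⟨of_mulVec e v, by
    rw [← of_mulVec, mulVec_transpose]; rfl⟩⟩

theorem Sw.symm (s : Sw ρ e x i j φ) : Sw ρ e x j i φ⁻¹ := by
  have h0 := s.1
  refine ⟨inv_ne_zero h0, (s.2.smul' (c := -φ⁻¹) (d := -φ) (by field_simp)).of_eq ?_ ?_⟩ <;>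
    match_scalars <;> field_simp

theorem Sw.trans (d : Du e x) (hij : i ≠ j) (hjl : j ≠ l) (hil : i ≠ l) (s : Sw ρ e x i j φ)
    (t : Sw ρ e x j l ψ) : Sw ρ e x i l (φ * ψ) := by
  have h0 := s.1
  have h1 := t.1
  refine ⟨mul_ne_zero h0 h1, (t.2.act s.2).of_eq ?_ ?_⟩ <;>
    simp only [sub_dotProduct, dotProduct_sub, smul_dotProduct, dotProduct_smul, d.eq, d.ne hij,
      d.ne hjl, d.ne hil, d.ne hij.symm, d.ne hjl.symm, d.ne hil.symm, smul_eq_mul] <;>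
    match_scalars <;> field_simp <;> ring

theorem Sw.flip (d : Du e x) (hij : i ≠ j) (s : Sw ρ e x i j 1) (t : Sw ρ e x i j φ) :
    Sw ρ e x j i φ := by
  have h0 := t.1
  refine ⟨h0, (s.2.act t.2).of_eq ?_ ?_⟩ <;>
    simp only [sub_dotProduct, dotProduct_sub, smul_dotProduct, dotProduct_smul, d.eq, d.ne hij,
      d.ne hij.symm, smul_eq_mul] <;> match_scalars <;> field_simp <;> ring

theorem Fr.ne (F : Fr ρ e x θ) (hij : i ≠ j) : θ ≠ 0 := (F.th i j hij).1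

theorem Sw.dual (s : Sw ρ e x i j φ) : Sw (dual ρ) x e i j φ⁻¹ :=
  ⟨inv_ne_zero s.1, D.dual_iff.2 (by rw [inv_inv]; exact s.2)⟩

theorem Fr.dual (F : Fr ρ e x θ) : Fr (D5.dual ρ) x e θ where
  du := F.du.dual
  one i j h := by simpa using (F.one i j h).dual
  th i j h := by simpa using (F.th j i h.symm).symm.dual

theorem Du.comp {m : ℕ} (d : Du e x) (s : Fin m → Fin k) (hs : Function.Injective s) :
    Du (e ∘ s) (x ∘ s) := fun i j => by simp [d _ _, hs.eq_iff]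

theorem Fr.comp {m : ℕ} (F : Fr ρ e x θ) (s : Fin m → Fin k) (hs : Function.Injective s) :
    Fr ρ (e ∘ s) (x ∘ s) θ :=
  ⟨F.du.comp s hs, fun _ _ h => F.one _ _ (hs.ne h), fun _ _ h => F.th _ _ (hs.ne h)⟩

theorem exists_third (hk : 3 ≤ k) (i j : Fin k) : ∃ l, l ≠ i ∧ l ≠ j := by
  by_contra h
  have : (Finset.univ : Finset (Fin k)) ⊆ {i, j} := fun l _ => by
    simp only [Finset.mem_insert, Finset.mem_singleton]
    by_contra h'
    exact h ⟨l, not_or.1 h'⟩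
  have := (Finset.card_le_card this).trans Finset.card_le_two
  simp at this; omega

theorem Fr.sw_mul (F : Fr ρ e x θ) (hk : 3 ≤ k) (a : ∀ i j, i ≠ j → Sw ρ e x i j φ)
    (b : ∀ i j, i ≠ j → Sw ρ e x i j ψ) (i j : Fin k) (hij : i ≠ j) : Sw ρ e x i j (φ * ψ) :=
  let ⟨l, h1, h2⟩ := exists_third hk i j
  Sw.trans F.du h1.symm h2 hij (a i l h1.symm) (b l j h2)

theorem Fr.sw_pow (F : Fr ρ e x θ) (hk : 3 ≤ k) (hij : i ≠ j) (n : ℤ) :
    Sw ρ e x i j (θ ^ n) := by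
  have h0 := F.ne hij
  suffices ∀ i j, i ≠ j → Sw ρ e x i j (θ ^ n) from this _ _ hij
  induction n using Int.induction_on with
  | zero => simpa using F.one
  | succ n ih => rw [zpow_add_one₀ h0]; exact F.sw_mul hk ih F.th
  | pred n ih => rw [zpow_sub_one₀ h0]; exact F.sw_mul hk ih fun i j h => (F.th j i h.symm).symm

theorem Fr.pow (F : Fr ρ e x θ) (hk : 3 ≤ k) (n : ℕ) : Fr ρ e x (θ ^ n) :=
  ⟨F.du, F.one, fun _ _ h => zpow_natCast θ n ▸ F.sw_pow hk h n⟩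

theorem Du.scale (d : Du e x) {c : Fin k → K} (hc : ∀ i, c i ≠ 0) :
    Du (fun i => c i • e i) (fun i => (c i)⁻¹ • x i) := fun i j => by
  by_cases h : i = j
  · subst h; simp [d.eq, hc]
  · simp [d.ne h, h]

theorem Sw.scale {c : Fin k → K} (hc : ∀ i, c i ≠ 0) (h0 : ψ ≠ 0)
    (s : Sw ρ e x i j (ψ * c j / c i)) :
    Sw ρ (fun i => c i • e i) (fun i => (c i)⁻¹ • x i) i j ψ := by
  have h1 := hc i
  have h2 := hc j
  refine ⟨h0, (s.2.smul h1).of_eq ?_ ?_⟩ <;> beta_reduce <;> match_scalars <;> field_simp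

theorem Fr.scale (F : Fr ρ e x θ) (hk : 3 ≤ k) (n : Fin k → ℤ) :
    Fr ρ (fun i => θ ^ n i • e i) (fun i => (θ ^ n i)⁻¹ • x i) θ := by
  obtain ⟨l, h1, -⟩ := exists_third hk ⟨0, by omega⟩ ⟨0, by omega⟩
  have h0 := F.ne h1
  have hc : ∀ i, θ ^ n i ≠ 0 := fun i => zpow_ne_zero _ h0
  refine ⟨F.du.scale hc, fun i j h => Sw.scale hc one_ne_zero ?_, fun i j h => Sw.scale hc h0 ?_⟩
  · rw [one_mul, ← zpow_sub₀ h0]; exact F.sw_pow hk h _
  · rw [← zpow_one_add₀ h0, ← zpow_sub₀ h0]; exact F.sw_pow hk h _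

theorem Fr.mk3 {e x : Fin 3 → V5 K} (d : Du e x) (s1 : Sw ρ e x 0 1 1) (s2 : Sw ρ e x 0 1 θ)
    (s3 : Sw ρ e x 0 2 1) : Fr ρ e x θ := by
  have k : ∀ θ, Sw ρ e x 0 1 θ → ∀ i j, i ≠ j → Sw ρ e x i j θ := fun θ s => by
    have t10 : Sw ρ e x 1 0 1 := by simpa using s1.symm
    have t20 : Sw ρ e x 2 0 1 := by simpa using s3.symm
    have t12 : Sw ρ e x 1 2 1 := by
      simpa using Sw.trans d (by decide) (by decide) (by decide) t10 s3
    have a10 := Sw.flip d (by decide) s1 s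
    have a02 : Sw ρ e x 0 2 θ := by simpa using Sw.trans d (by decide) (by decide) (by decide) s t12
    have a12 : Sw ρ e x 1 2 θ := by
      simpa using Sw.trans d (by decide) (by decide) (by decide) a10 s3
    have a20 := Sw.flip d (by decide) s3 a02
    have a21 := Sw.flip d (by decide) t12 a12
    intro i j h
    fin_cases i <;> fin_cases j <;> first | exact (h rfl).elim | assumption
  exact ⟨d, k 1 s1, k θ s2⟩

theorem Fr.std (d : Du e x) (hij : i ≠ j) (hjl : j ≠ l) (hil : i ≠ l) (s1 : Sw ρ e x i j φ)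
    (s2 : Sw ρ e x i j ψ) (s3 : Sw ρ e x i l θ) :
    Fr ρ ![e i, φ • e j, θ • e l] ![x i, φ⁻¹ • x j, θ⁻¹ • x l] (ψ / φ) := by
  have h1 := s1.1
  have h2 := s2.1
  have h3 := s3.1
  refine Fr.mk3 (fun a b => ?_) ⟨one_ne_zero, by simpa using s1.2⟩
    ⟨div_ne_zero h2 h1, s2.2.of_eq ?_ ?_⟩ ⟨one_ne_zero, by simpa using s3.2⟩
  · fin_cases a <;> fin_cases b <;> simp [d.eq, d.ne hij, d.ne hjl, d.ne hil, d.ne hij.symm,
      d.ne hjl.symm, d.ne hil.symm, h1, h3]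
  · simp [smul_smul, h1]
  · simp only [cons_val_zero, cons_val_one, smul_smul]
    congr 2; field_simp

theorem Fr.snoc (F : Fr ρ e x θ) (hk : 2 ≤ k) (a : D ρ v f) (p : pp e x v f i = 1)
    (z : ∀ j, j ≠ i → Zr e x v f j) : ∃ e' x' : Fin (k + 1) → V5 K, Fr ρ e' x' θ := by
  have d := F.du
  have h0 : x i ⬝ᵥ v ≠ 0 := left_ne_zero_of_mul_eq_one p
  have h1 : f ⬝ᵥ e i = (x i ⬝ᵥ v)⁻¹ := eq_inv_of_mul_eq_one_right p
  have e1 := sum_add_rs e x v
  have e2 := sum_add_rs' e x f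
  have e3 := d.dot_eq f v
  rw [Fintype.sum_eq_single i fun j h => by simp [(z j h).1, (z j h).2]] at e1 e2 e3
  rw [a.1, show (x i ⬝ᵥ v) * (f ⬝ᵥ e i) = 1 from p] at e3
  have D := d.snoc (v := -(x i ⬝ᵥ v)⁻¹ • rs e x v) (f := -(x i ⬝ᵥ v) • rs x e f)
    (fun i => by simp [d.dot_rs]) (fun i => by simp [d.rs_dot])
    (by simp only [smul_dotProduct, dotProduct_smul, smul_eq_mul]; field_simp
        linear_combination -e3)
  set e' : Fin (k + 1) → V5 K := Fin.snoc e (-(x i ⬝ᵥ v)⁻¹ • rs e x v)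
  set x' : Fin (k + 1) → V5 K := Fin.snoc x (-(x i ⬝ᵥ v) • rs x e f)
  have s0 : Sw ρ e' x' i.castSucc (Fin.last k) 1 := by
    refine ⟨one_ne_zero, (a.smul (inv_ne_zero h0)).of_eq ?_ ?_⟩ <;>
      simp only [e', x', Fin.snoc_castSucc, Fin.snoc_last]
    · refine Eq.trans ?_ (congrArg ((x i ⬝ᵥ v)⁻¹ • ·) e1)
      match_scalars <;> field_simp
    · refine Eq.trans ?_ (congrArg ((x i ⬝ᵥ v)⁻¹⁻¹ • ·) e2)
      rw [h1]; match_scalars <;> field_simp
  have s2 : ∀ {φ i j}, Sw ρ e x i j φ → Sw ρ e' x' i.castSucc j.castSucc φ := fun s => by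
    simpa only [Sw, e', x', Fin.snoc_castSucc] using s
  have n1 : ∀ j : Fin k, j.castSucc ≠ Fin.last k := fun j => (Fin.castSucc_lt_last j).ne
  have s3 : ∀ {i j : Fin k} {φ ψ}, i ≠ j → Sw ρ e x i j φ → Sw ρ e' x' j.castSucc (Fin.last k) ψ →
      Sw ρ e' x' i.castSucc (Fin.last k) (φ * ψ) := fun h s t =>
    Sw.trans D ((Fin.castSucc_injective k).ne h) (n1 _) (n1 _) (s2 s) t
  have s1 : ∀ φ, (∀ i j, i ≠ j → Sw ρ e x i j φ) → ∀ j : Fin k,
      Sw ρ e' x' j.castSucc (Fin.last k) φ := fun φ hφ j => by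
    by_cases h : j = i
    · subst h
      haveI : Nontrivial (Fin k) := Fin.nontrivial_iff_two_le.2 hk
      obtain ⟨l, hl⟩ := exists_ne j
      simpa using s3 hl.symm (hφ _ _ hl.symm) (s3 hl (F.one _ _ hl) s0)
    · simpa using s3 h (hφ _ _ h) s0
  have s4 : ∀ φ, (∀ i j, i ≠ j → Sw ρ e x i j φ) → ∀ i j, i ≠ j → Sw ρ e' x' i j φ := by
    intro φ hφ a b h
    induction a using Fin.lastCases <;> induction b using Fin.lastCases
    · exact (h rfl).elim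
    · simpa using (s1 φ⁻¹ (fun i j h => (hφ j i h.symm).symm) _).symm
    · exact s1 φ hφ _
    · exact s2 (hφ _ _ fun e => h (congrArg _ e))
  exact ⟨e', x', D, s4 1 F.one, s4 θ F.th⟩

theorem Fr.zero_vec (F : Fr ρ e x θ) (t : Tame ρ) (hθ : θ ≠ 1) (a : D ρ v f) (hij : i ≠ j)
    (hi : x i ⬝ᵥ v = 0) (hj : x j ⬝ᵥ v = 0) : Zr e x v f i := by
  have h1 := t.zero (F.one i j hij).2 a (by simp [hi, hj])
  have h2 := t.zero (F.th i j hij).2 a (by simp [hi, hj])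
  simp only [dotProduct_sub, dotProduct_smul, smul_eq_mul] at h1 h2
  have : f ⬝ᵥ e j = 0 := (mul_eq_zero.1 (show (θ - 1) * (f ⬝ᵥ e j) = 0 by
    linear_combination h1 - h2)).resolve_left (sub_ne_zero.2 hθ)
  exact ⟨hi, by simpa [this] using h1⟩

theorem Fr.zero_cov (F : Fr ρ e x θ) (t : Tame ρ) (hθ : θ ≠ 1) (a : D ρ v f) (hij : i ≠ j)
    (hi : f ⬝ᵥ e i = 0) (hj : f ⬝ᵥ e j = 0) : Zr e x v f i := by
  have := F.dual.zero_vec t.dual hθ (D.dual_iff.2 a) hij (by rwa [dotProduct_comm])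
    (by rwa [dotProduct_comm])
  exact ⟨by rw [dotProduct_comm]; exact this.2, hi⟩

theorem Fr.zero_of (F : Fr ρ e x θ) (t : Tame ρ) (hθ : θ ≠ 1) (a : D ρ v f) (hij : i ≠ j)
    (h : pp e x v f i = 0) (z : Zr e x v f j) : Zr e x v f i :=
  (mul_eq_zero.1 h).elim (fun h => F.zero_vec t hθ a hij h z.1) fun h => F.zero_cov t hθ a hij h z.2

theorem Fr.zero (F : Fr ρ e x θ) (t : Tame ρ) (hθ : θ ≠ 1) (hk : 3 ≤ k) (a : D ρ v f)
    (h : ∀ i, pp e x v f i = 0) (i : Fin k) : Zr e x v f i := by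
  obtain ⟨j, h1, -⟩ := exists_third hk i i
  obtain ⟨l, h2, h3⟩ := exists_third hk i j
  rcases mul_eq_zero.1 (h j) with b | b <;> rcases mul_eq_zero.1 (h l) with c | c
  · exact F.zero_of t hθ a h1.symm (h i) (F.zero_vec t hθ a h3.symm b c)
  · exact (mul_eq_zero.1 (h i)).elim (fun h => F.zero_vec t hθ a h1.symm h b)
      fun h => F.zero_cov t hθ a h2.symm h c
  · exact (mul_eq_zero.1 (h i)).elim (fun h => F.zero_vec t hθ a h2.symm h c)
      fun h => F.zero_cov t hθ a h1.symm h b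
  · exact F.zero_of t hθ a h1.symm (h i) (F.zero_cov t hθ a h3.symm b c)

end Cfsg.Agent.D5
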