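import Cfsg.Agent.DIM5.RFr1

/-!
Frames: diagonal elements.
-/

set_option autoImplicit false

open Matrix

namespace Cfsg.Agent.D5

variable {K : Type*} [Field K] {Γ : Type*} [Group Γ] {ρ : Γ →* M5 K} {u v w f g h : V5 K}
variable {k : ℕ} {e x : Fin k → V5 K} {θ φ ψ : K} {i j l : Fin k}

/-- The diagonal element with entries `d` on the frame, acting trivially on the complement. -/
def dg (e x : Fin k → V5 K) (d : Fin k → K) : M5 K := 1 + ∑ i, (d i - 1) • vecMulVec (e i) (x i)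

theorem dg_mulVec (e x : Fin k → V5 K) (d : Fin k → K) (v : V5 K) :
    dg e x d *ᵥ v = ∑ i, (d i * (x i ⬝ᵥ v)) • e i + rs e x v := by
  simp only [dg, add_mulVec, one_mulVec, sum_mulVec, smul_mulVec, vv_mulVec]
  simp only [rs, smul_smul, sub_mul, one_mul]
  simp only [sub_smul, Finset.sum_sub_distrib]
  abel

theorem dg_transpose (e x : Fin k → V5 K) (d : Fin k → K) : (dg e x d)ᵀ = dg x e d := by
  simp [dg, transpose_sum]

theorem vecMul_dg_eq (e x : Fin k → V5 K) (d : Fin k → K) (f : V5 K) :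
    f ᵥ* dg e x d = dg x e d *ᵥ f := by rw [← dg_transpose, ← mulVec_transpose, dg_transpose,
      dg_transpose]

theorem vecMul_dg (e x : Fin k → V5 K) (d : Fin k → K) (f : V5 K) :
    f ᵥ* dg e x d = ∑ i, (d i * (f ⬝ᵥ e i)) • x i + rs x e f := by
  simp only [vecMul_dg_eq, dg_mulVec, dotProduct_comm]

theorem Du.dot_dg (D : Du e x) (d : Fin k → K) (v : V5 K) (i : Fin k) :
    x i ⬝ᵥ (dg e x d *ᵥ v) = d i * (x i ⬝ᵥ v) := by
  rw [dg_mulVec, dotProduct_add, D.dot_sum, D.dot_rs, add_zero]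

theorem Du.dg_dot (D : Du e x) (d : Fin k → K) (f : V5 K) (i : Fin k) :
    (f ᵥ* dg e x d) ⬝ᵥ e i = d i * (f ⬝ᵥ e i) := by
  rw [vecMul_dg, add_dotProduct, D.sum_dot, D.rs_dot, add_zero]

theorem Du.rs_dg (D : Du e x) (d : Fin k → K) (v : V5 K) :
    rs e x (dg e x d *ᵥ v) = rs e x v := by
  rw [dg_mulVec, rs_add, D.rs_sum, D.rs_rs, zero_add]

theorem Du.rs_dg' (D : Du e x) (d : Fin k → K) (f : V5 K) :
    rs x e (f ᵥ* dg e x d) = rs x e f := by rw [vecMul_dg_eq, D.dual.rs_dg]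

theorem Du.dg_mul (D : Du e x) (c d : Fin k → K) : dg e x c * dg e x d = dg e x (c * d) := by
  refine toLin'.injective (LinearMap.ext fun v => ?_)
  simp only [toLin'_apply, ← mulVec_mulVec]
  rw [dg_mulVec e x c, dg_mulVec e x (c * d), D.rs_dg]
  simp only [D.dot_dg, Pi.mul_apply, mul_assoc]

theorem dg_one (e x : Fin k → V5 K) : dg e x 1 = 1 := by simp [dg]

theorem dg_rs (D : Du e x) (d : Fin k → K) (v : V5 K) : dg e x d *ᵥ rs e x v = rs e x v := by
  simp [dg_mulVec, D.dot_rs, D.rs_rs]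

theorem rs_dg (D : Du e x) (d : Fin k → K) (f : V5 K) : rs x e f ᵥ* dg e x d = rs x e f := by
  rw [vecMul_dg_eq, dg_rs D.dual]

theorem In.mul {M N : M5 K} (a : In ρ M) (b : In ρ N) : In ρ (M * N) :=
  let ⟨g, hg⟩ := a; let ⟨k, hk⟩ := b; ⟨g * k, by rw [map_mul, hg, hk]⟩

theorem In.one : In ρ 1 := ⟨1, map_one ρ⟩

theorem D.isIn (a : D ρ v f) : In ρ (1 - vecMulVec v f) := a.2.2.2

theorem Du.in_dg_mul (D : Du e x) {c d : Fin k → K} (a : In ρ (dg e x c)) (b : In ρ (dg e x d)) :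
    In ρ (dg e x (c * d)) := D.dg_mul c d ▸ a.mul b

theorem Sw.in_dg (d : Du e x) (hij : i ≠ j) (s : Sw ρ e x i j 1) (t : Sw ρ e x i j φ) :
    In ρ (dg e x (Pi.mulSingle i φ * Pi.mulSingle j φ⁻¹)) := by
  have h0 := t.1
  convert s.2.isIn.mul t.2.isIn using 1
  rw [dg, sum_two hij _ fun l a b => by simp [a, b]]
  simp only [Pi.mul_apply, Pi.mulSingle_eq_same, Pi.mulSingle_eq_of_ne hij,
    Pi.mulSingle_eq_of_ne hij.symm, mul_sub, sub_mul, one_mul, mul_one, vv_mul, sub_dotProduct,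
    dotProduct_sub, smul_dotProduct, dotProduct_smul, d.eq, d.ne hij, d.ne hij.symm, smul_eq_mul]
  simp only [sub_vecMulVec, vecMulVec_sub, smul_vecMulVec, vecMulVec_smul]
  match_scalars <;> field_simp <;> ring

theorem Fr.in_dg (F : Fr ρ e x θ) (hk : 3 ≤ k) (n : Fin k → ℤ) (hn : θ ^ ∑ i, n i = 1) :
    In ρ (dg e x fun i => θ ^ n i) := by
  obtain ⟨l, h1, -⟩ := exists_third hk ⟨0, by omega⟩ ⟨0, by omega⟩
  have h0 := F.ne h1
  have k1 : ∀ s : Finset (Fin k), In ρ (dg e x (∏ i ∈ s,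
      Pi.mulSingle i (θ ^ n i) * Pi.mulSingle l (θ ^ n i)⁻¹)) := fun s => by
    induction s using Finset.induction_on with
    | empty => simpa [dg_one] using In.one
    | insert a s ha ih =>
      rw [Finset.prod_insert ha]
      refine F.du.in_dg_mul ?_ ih
      by_cases h : a = l
      · subst h
        rw [← Pi.mulSingle_mul, mul_inv_cancel₀ (zpow_ne_zero _ h0), Pi.mulSingle_one, dg_one]
        exact In.one
      · exact Sw.in_dg F.du h (F.one _ _ h) (F.sw_pow hk h _)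
  have k2 : ∀ s : Finset (Fin k), ∏ i ∈ s, θ ^ n i = θ ^ ∑ i ∈ s, n i := fun s => by
    induction s using Finset.induction_on with
    | empty => simp
    | insert a s ha ih => rw [Finset.prod_insert ha, Finset.sum_insert ha, zpow_add₀ h0, ih]
  convert k1 Finset.univ using 2
  funext j
  rw [Finset.prod_mul_distrib, Finset.univ_prod_mulSingle, Pi.mul_apply, Finset.prod_apply]
  by_cases h : j = l
  · subst h; simp [k2, hn]
  · simp [h]

theorem rho_inv_dg (du : Du e x) {d : Fin k → K} (hd : ∀ i, d i ≠ 0) {g : Γ}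
    (h : ρ g = dg e x d) : ρ g⁻¹ = dg e x d⁻¹ :=
  rho_inv_eq (by rw [h, du.dg_mul, ← dg_one e x]; congr 1; funext i; simp [hd i])

theorem D.dg (a : D ρ v f) (du : Du e x) {d : Fin k → K} (hd : ∀ i, d i ≠ 0)
    (h : In ρ (D5.dg e x d)) : D ρ (D5.dg e x d *ᵥ v) (f ᵥ* D5.dg e x d⁻¹) := by
  obtain ⟨g, hg⟩ := h
  rw [← rho_inv_dg du hd hg, ← hg]
  exact a.conj g

theorem D.sw (a : D ρ v f) (du : Du e x) (hij : i ≠ j) (s : Sw ρ e x i j 1) : ∃ v' f', D ρ v' f' ∧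
    (∀ l, x l ⬝ᵥ v' = x (Equiv.swap i j l) ⬝ᵥ v) ∧ (∀ l, f' ⬝ᵥ e l = f ⬝ᵥ e (Equiv.swap i j l)) ∧
    rs e x v' = rs e x v ∧ rs x e f' = rs x e f := by
  refine ⟨_, _, s.2.act a, fun l => ?_, fun l => ?_, ?_, ?_⟩
  · rw [Equiv.swap_apply_def]
    split_ifs with h1 h2
    · simp [h1, du.eq, du.ne hij]
    · simp [h2, du.eq, du.ne hij.symm]
    · simp [du.ne h1, du.ne h2]
  · rw [Equiv.swap_apply_def]
    split_ifs with h1 h2
    · simp [h1, du.eq, du.ne hij.symm]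
    · simp [h2, du.eq, du.ne hij]
    · simp [du.ne (Ne.symm h1), du.ne (Ne.symm h2)]
  · simp [rs_sub, rs_smul, du.rs_self]
  · simp [rs_sub, rs_smul, du.dual.rs_self]

theorem sum_three {M : Type*} [AddCommMonoid M] {i j l : Fin 3} (hij : i ≠ j) (hli : l ≠ i)
    (hlj : l ≠ j) (t : Fin 3 → M) : ∑ m, t m = t i + t j + t l := by
  rw [Fin.sum_univ_three]
  fin_cases i <;> fin_cases j <;> fin_cases l <;> simp at hij hli hlj ⊢ <;> abel

/-- A root and a conjugate that scales its inner part have the same line or the same axis only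
if the outer part vanishes. -/
theorem Tame.outer_zero (t : Tame ρ) {a b α β : V5 K} (hθ : θ ≠ 0) (h1 : θ ≠ 1)
    (p : D ρ (a + b) (α + β)) (q : D ρ (θ • a + b) (θ⁻¹ • α + β)) (h : b = 0 ∨ β = 0) :
    b = 0 ∧ β = 0 := by
  have k : ∀ y : V5 K, θ • y = y → y = 0 := fun y e => (smul_eq_zero.1
    (show (θ - 1) • y = 0 by rw [sub_smul, e, one_smul, sub_self])).resolve_left (sub_ne_zero.2 h1)
  rcases h with rfl | rfl
  · have := t.ctr p ((q.smul (inv_ne_zero hθ)).of_eq (by simp [hθ]) rfl)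
    rw [inv_inv, smul_add, smul_inv_smul₀ hθ, add_right_inj] at this
    exact ⟨rfl, k _ this.symm⟩
  · have := t.axs p ((q.smul' (inv_mul_cancel₀ hθ)).of_eq rfl (by simp [hθ]))
    rw [smul_add, inv_smul_smul₀ hθ, add_right_inj] at this
    exact ⟨k _ (by rw [this, smul_inv_smul₀ hθ, ← this]), rfl⟩

theorem Fr.two {e x : Fin 3 → V5 K} {i j l : Fin 3} (F : Fr ρ e x θ) (t : Tame ρ) (hθ : θ ^ 2 ≠ 1)
    (a : D ρ v f) (hij : i ≠ j) (hli : l ≠ i) (hlj : l ≠ j) (pi : pp e x v f i = 1)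
    (pj : pp e x v f j = 1) (z : Zr e x v f l) : (rs e x v = 0 ∧ rs x e f = 0) ∨
      ((2 : K) = 0 ∧ D ρ (rs e x v) ((θ + θ⁻¹) ^ 2 • rs x e f)) := by
  have d := F.du
  have h0 := F.ne hij
  have h1 : θ ≠ 1 := by rintro rfl; simp at hθ
  have e3 := d.dot_eq f v
  have s3 := fun {M : Type _} [AddCommMonoid M] => sum_three (M := M) hij hli hlj
  simp only [pp] at pi pj
  rw [s3, a.1, pi, pj, z.1] at e3
  have e0 : rs x e f ⬝ᵥ rs e x v = 0 := by linear_combination -e3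
  have x1 := F.in_dg le_rfl (fun m => if m = l then -2 else 1) (by
    rw [sum_three hij hli hlj]; simp [hli.symm, hlj.symm])
  obtain ⟨g, x2⟩ := F.in_dg le_rfl (fun m => if m = i then 1 else if m = l then -1 else 0)
    (by rw [sum_three hij hli hlj]; simp [hli, hlj.symm, hij.symm])
  have x3 := rho_inv_dg d (fun _ => zpow_ne_zero _ h0) x2
  have q := a.dg d (fun _ => zpow_ne_zero _ h0) x1
  set A := ∑ m, (x m ⬝ᵥ v) • e m with hA
  set α := ∑ m, (f ⬝ᵥ e m) • x m with hα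
  have p : D ρ (A + rs e x v) (α + rs x e f) := by rwa [sum_add_rs, sum_add_rs']
  have q' : D ρ (θ • A + rs e x v) (θ⁻¹ • α + rs x e f) := q.of_eq
    (by simp [dg_mulVec, hA, s3, hli.symm, hlj.symm, z.1, smul_smul])
    (by simp [vecMul_dg, hα, s3, hli.symm, hlj.symm, z.2, smul_smul])
  have e1 : α ⬝ᵥ rs e x v = 0 := by simp [hα, sum_dotProduct, d.dot_rs]
  have e2 : rs x e f ⬝ᵥ A = 0 := by simp [hA, dotProduct_sum, d.rs_dot]
  obtain ⟨c, hc⟩ := p.mul_scale h0 q' e0 e1 e2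
  have T1 := hs_kill e0 (by simp [e1]) (by simp [e2]) hc (x := g) (by rw [x2, dg_rs d])
    (by rw [x2, rs_dg d])
  have e4 : ∀ n : Fin 3 → K, α ⬝ᵥ (dg e x n *ᵥ A) = n i + n j := fun n => by
    rw [hα, sum_dotProduct]
    simp only [smul_dotProduct, d.dot_dg, hA, d.dot_sum, smul_eq_mul]
    rw [s3, z.1]
    linear_combination n i * pi + n j * pj
  simp only [x2, x3, mulVec_smul, smul_dotProduct, dotProduct_smul, e4, smul_eq_mul] at T1
  simp only [Pi.inv_apply, if_true, hij.symm, hlj.symm, if_false, zpow_one, zpow_zero] at T1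
  rw [show (1 - θ) * ((θ⁻¹ - 1) * (θ + 1)) - (1 - θ) * ((θ⁻¹ - 1) * (θ⁻¹ + 1⁻¹)) =
    (1 - θ) ^ 2 * (θ ^ 2 - 1) / θ ^ 2 by field_simp; ring] at T1
  have hκ : (1 - θ) ^ 2 * (θ ^ 2 - 1) / θ ^ 2 ≠ 0 := by
    exact div_ne_zero (mul_ne_zero (pow_ne_zero _ (sub_ne_zero.2 h1.symm)) (sub_ne_zero.2 hθ))
      (pow_ne_zero _ h0)
  by_cases hb : rs e x v = 0 ∨ rs x e f = 0
  · exact Or.inl (t.outer_zero h0 h1 p q' hb)
  push Not at hb
  have fl : Fl ρ _ _ := ⟨T1, hb.1, smul_ne_zero hκ hb.2⟩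
  by_cases h2 : (2 : K) = 0
  · refine Or.inr ⟨h2, ((D_iff_fl h2).2 fl).of_eq rfl ?_⟩
    congr 1
    field_simp
    linear_combination (θ ^ 3 + θ ^ 2 - θ + 1) * h2
  · exact (t.notv h2 _ _ fl).elim

end Cfsg.Agent.D5
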