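import Cfsg.Agent.DIM5.RFr

/-!
Planes on which the group induces the dihedral group of order eight.
-/

set_option autoImplicit false

open Matrix

namespace Cfsg.Agent.D5

variable {K : Type*} [Field K] {Γ : Type*} [Group Γ] {ρ : Γ →* M5 K} {u v w f g h : V5 K}
variable {e x : Fin 2 → V5 K}

theorem Du.two (h0 : x 0 ⬝ᵥ e 0 = 1) (h1 : x 0 ⬝ᵥ e 1 = 0) (h2 : x 1 ⬝ᵥ e 0 = 0) (h3 : x 1 ⬝ᵥ e 1 = 1) :
    Du e x := fun i j => by fin_cases i <;> fin_cases j <;> simpa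

theorem Du.e01 (d : Du e x) : x 0 ⬝ᵥ e 1 = 0 := d.ne (by decide)
theorem Du.e10 (d : Du e x) : x 1 ⬝ᵥ e 0 = 0 := d.ne (by decide)

theorem exists_pl (h2 : (2 : K) ≠ 0) (a : D ρ v f) (b : D ρ w g) (n : NS v f w g u h)
    (l : lam v f w g = 2) : ∃ e x, Pl ρ e x ∧ NSP e x u h := by
  rw [lam] at l
  have c0 : g ⬝ᵥ v ≠ 0 := right_ne_zero_of_mul (l ▸ h2)
  have b' := b.smul c0
  have l' : f ⬝ᵥ w = 2 / (g ⬝ᵥ v) := eq_div_of_mul_eq c0 l
  refine ⟨![v, v - (g ⬝ᵥ v) • w], ![(2 : K)⁻¹ • f, (2 : K)⁻¹ • f - (g ⬝ᵥ v)⁻¹ • g], ⟨Du.two ?_ ?_ ?_ ?_,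
    a.of_eq rfl (by simp [h2]), (b'.act a).of_eq (by simp [c0]) ?_, b'.of_eq (by simp) (by simp)⟩, fun e => n ?_⟩
  · simp [a.1, h2]
  · simp only [cons_val_zero, cons_val_one, smul_dotProduct, dotProduct_sub, dotProduct_smul, a.1, l', smul_eq_mul]
    field_simp; ring
  · simp [a.1, h2, c0]
  · simp only [cons_val_zero, cons_val_one, smul_dotProduct, dotProduct_sub, sub_dotProduct, dotProduct_smul,
      a.1, b.1, l', smul_eq_mul]
    field_simp; ring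
  · simp only [cons_val_zero, cons_val_one, dotProduct_smul, l', smul_eq_mul]
    match_scalars <;> field_simp
  · simp only [cons_val_zero, cons_val_one, smul_dotProduct, dotProduct_sub, sub_dotProduct, dotProduct_smul,
      smul_eq_mul] at e
    rw [l']
    field_simp at e ⊢
    linear_combination e

theorem Pl.two_ne (P : Pl ρ e x) : (2 : K) ≠ 0 := fun c => P.d0.2.2.1 (by rw [c, zero_smul])

theorem Pl.n2 (P : Pl ρ e x) : D ρ (e 0 + e 1) (x 0 + x 1) :=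
  (P.d1.act P.n1).of_eq (by simp only [smul_dotProduct, dotProduct_sub, P.du.eq, P.du.e10, smul_eq_mul]; module)
    (by simp only [sub_dotProduct, P.du.eq, P.du.e01]; module)

theorem Pl.swap (P : Pl ρ e x) : Pl ρ ![e 1, e 0] ![x 1, x 0] :=
  ⟨Du.two (P.du.eq 1) P.du.e10 P.du.e01 (P.du.eq 0), P.d1, P.d0, P.n1.neg.of_eq (by simp) (by simp)⟩

theorem Pl.neg (P : Pl ρ e x) : Pl ρ ![e 0, -e 1] ![x 0, -x 1] :=
  ⟨Du.two (P.du.eq 0) (by simp [P.du.e01]) (by simp [P.du.e10]) (by simp [P.du.eq]), P.d0,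
    P.d1.neg.of_eq (by simp) (by simp), P.n2.of_eq (by simp) (by simp)⟩

theorem pl_alg {a0 a1 b0 b1 : K} (h2 : (2 : K) ≠ 0) (n : a0 * b1 ≠ a1 * b0) (p0 : a0 * b0 = 1)
    (p1 : 2 * (a1 * b1) = 1) (l1 : (a0 - a1) * (b0 - b1) = 1 ∨ (a0 - a1) * (b0 - b1) = 2)
    (l2 : (a0 + a1) * (b0 + b1) = 1 ∨ (a0 + a1) * (b0 + b1) = 2) :
    (7 : K) ≠ 0 ∧ ∃ ε : K, (ε = 1 ∨ ε = -1) ∧ a0 ^ 2 - ε * (a0 * a1) + 2 * a1 ^ 2 = 0 := by
  have k : ∀ ε : K, ε ^ 2 = 1 → 2 * (a0 * b1 + a1 * b0) = ε →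
      (7 : K) ≠ 0 ∧ a0 ^ 2 - ε * (a0 * a1) + 2 * a1 ^ 2 = 0 := fun ε e1 e2 =>
    ⟨fun c => n (sub_eq_zero.1 ((pow_eq_zero_iff (n := 2) (by decide)).1 (mul_left_cancel₀ (pow_ne_zero 2 h2) (by
      linear_combination (2 * (a0 * b1 + a1 * b0) + ε) * e2 + e1 - 16 * (a1 * b1) * p0 - 8 * p1 - c)))),
      by linear_combination a0 * a1 * e2 - a0 ^ 2 * p1 - 2 * a1 ^ 2 * p0⟩
  rcases l1 with l1 | l1 <;> rcases l2 with l2 | l2
  · exact absurd (by linear_combination l1 + l2 - 2 * p0 - p1) (one_ne_zero (α := K))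
  · exact (k 1 (by ring) (by linear_combination l2 - l1)).imp_right fun h => ⟨1, .inl rfl, h⟩
  · exact (k (-1) (by ring) (by linear_combination l2 - l1)).imp_right fun h => ⟨-1, .inr rfl, h⟩
  · exact absurd (by linear_combination 2 * p0 + p1 - l1 - l2) (one_ne_zero (α := K))

theorem Pl.cases (P : Pl ρ e x) (L : Lam ρ) (a : D ρ v f) (n : NSP e x v f) :
    (2 * pp e x v f 0 = 1 ∧ 2 * pp e x v f 1 = 1 ∧ (x 0 ⬝ᵥ v) ^ 2 + (x 1 ⬝ᵥ v) ^ 2 = 0) ∨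
    (pp e x v f 0 = 1 ∧ pp e x v f 1 = 1 ∧ (x 0 ⬝ᵥ v) ^ 2 + (x 1 ⬝ᵥ v) ^ 2 = 0) ∨
    ((7 : K) ≠ 0 ∧ ∃ i j : Fin 2, i ≠ j ∧ pp e x v f i = 1 ∧ 2 * pp e x v f j = 1 ∧ ∃ ε : K,
      (ε = 1 ∨ ε = -1) ∧
      (x i ⬝ᵥ v) ^ 2 - ε * ((x i ⬝ᵥ v) * (x j ⬝ᵥ v)) + 2 * (x j ⬝ᵥ v) ^ 2 = 0) := by
  have h2 := P.two_ne
  have d := P.du
  have k : ∀ {s t : K}, 2 * s = 2 * t → s = t := mul_left_cancel₀ h2
  have n1 : NS (e 0) ((2 : K) • x 0) (e 0 - e 1) (x 0 - x 1) v f := fun c => n (k (by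
    simp only [smul_dotProduct, dotProduct_sub, sub_dotProduct, d.eq, d.e01, d.e10, smul_eq_mul] at c
    linear_combination c))
  have n2 : NS (e 1) ((2 : K) • x 1) (e 0 - e 1) (x 0 - x 1) v f := fun c => n (k (by
    simp only [smul_dotProduct, dotProduct_sub, sub_dotProduct, d.eq, d.e01, d.e10, smul_eq_mul] at c
    linear_combination -c))
  have n3 : NS (e 0) ((2 : K) • x 0) (e 0 + e 1) (x 0 + x 1) v f := fun c => n (k (by
    simp only [smul_dotProduct, dotProduct_add, add_dotProduct, d.eq, d.e01, d.e10, smul_eq_mul] at c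
    linear_combination -c))
  have l1 := L _ _ _ _ _ _ P.n1 a P.d0 n1.rot
  have l2 := L _ _ _ _ _ _ P.n2 a P.d0 n3.rot
  have p0 := L _ _ _ _ _ _ a P.d0 P.n1 n1.rot.rot
  have p1 := L _ _ _ _ _ _ a P.d1 P.n1 n2.rot.rot
  simp only [lam, smul_dotProduct, dotProduct_add, add_dotProduct, dotProduct_sub, sub_dotProduct,
    smul_eq_mul] at l1 l2 p0 p1
  simp only [pp, NSP] at n ⊢
  have o := one_ne_zero (α := K)
  rcases p0 with p0 | p0 <;> rcases p1 with p1 | p1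
  · refine .inl ⟨by linear_combination p0, by linear_combination p1, ?_⟩
    rcases l1 with l1 | l1 <;> rcases l2 with l2 | l2
    · linear_combination x 0 ⬝ᵥ v * x 1 ⬝ᵥ v * (l2 - l1) - (x 0 ⬝ᵥ v) ^ 2 * p1 - (x 1 ⬝ᵥ v) ^ 2 * p0
    · exact absurd (by linear_combination p0 + p1 - l1 - l2) o
    · exact absurd (by linear_combination p0 + p1 - l1 - l2) o
    · exact absurd (by linear_combination p0 + p1 - l1 - l2) h2
  · obtain ⟨h7, ε, t⟩ := pl_alg h2 n.symm (k (by linear_combination p1)) (by linear_combination p0)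
      (l1.imp (fun c => by linear_combination c) fun c => by linear_combination c)
      (l2.imp (fun c => by linear_combination c) fun c => by linear_combination c)
    exact .inr (.inr ⟨h7, 1, 0, by decide, k (by linear_combination p1), by linear_combination p0, ε, t⟩)
  · obtain ⟨h7, ε, t⟩ := pl_alg h2 n (k (by linear_combination p0)) (by linear_combination p1) l1 l2
    exact .inr (.inr ⟨h7, 0, 1, by decide, k (by linear_combination p0), by linear_combination p1, ε, t⟩)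
  · refine .inr (.inl ⟨k (by linear_combination p0), k (by linear_combination p1), ?_⟩)
    rcases l1 with l1 | l1 <;> rcases l2 with l2 | l2
    · exact absurd (by linear_combination l1 + l2 - p0 - p1) h2
    · exact absurd (by linear_combination l1 + l2 - p0 - p1) o
    · exact absurd (by linear_combination l1 + l2 - p0 - p1) o
    · exact k (by
        linear_combination x 0 ⬝ᵥ v * x 1 ⬝ᵥ v * (l2 - l1) - (x 0 ⬝ᵥ v) ^ 2 * p1 - (x 1 ⬝ᵥ v) ^ 2 * p0)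

theorem Pl.in_d (P : Pl ρ e x) : In ρ (dg e x ![-1, 1]) ∧ In ρ (dg e x ![1, -1]) := by
  refine ⟨?_, ?_⟩
  · convert P.d0.isIn using 1
    simp only [dg, Fin.sum_univ_two, cons_val_zero, cons_val_one, vecMulVec_smul]; module
  · convert P.d1.isIn using 1
    simp only [dg, Fin.sum_univ_two, cons_val_zero, cons_val_one, vecMulVec_smul]; module

theorem Pl.in_neg (P : Pl ρ e x) : In ρ (dg e x fun _ => -1) := by
  convert P.du.in_dg_mul P.in_d.1 P.in_d.2 using 2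
  funext i; fin_cases i <;> simp

theorem D.scal (a : D ρ v f) (d : Du e x) {θ : K} (h0 : θ ≠ 0) (h : In ρ (D5.dg e x fun _ => θ)) :
    D ρ (θ • ∑ m, (x m ⬝ᵥ v) • e m + rs e x v) (θ⁻¹ • ∑ m, (f ⬝ᵥ e m) • x m + rs x e f) :=
  (a.dg d (fun _ => h0) h).of_eq (by simp [dg_mulVec, smul_smul]) (by simp [vecMul_dg, smul_smul])

theorem Pl.inner (P : Pl ρ e x) (t : Tame ρ) (a : D ρ v f) (n : NSP e x v f)
    (h : pp e x v f 0 + pp e x v f 1 = 2) : rs e x v = 0 ∧ rs x e f = 0 := by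
  have h2 := P.two_ne
  have d := P.du
  have e3 := d.dot_eq f v
  simp only [pp] at h
  rw [Fin.sum_univ_two, a.1, h] at e3
  have e0 : rs x e f ⬝ᵥ rs e x v = 0 := by linear_combination -e3
  have m1 : (-1 : K) ≠ 0 := by simp
  have q := a.scal d m1 P.in_neg
  have p : D ρ (∑ m, (x m ⬝ᵥ v) • e m + rs e x v) (∑ m, (f ⬝ᵥ e m) • x m + rs x e f) := by
    rwa [sum_add_rs, sum_add_rs']
  have e1 : (∑ m, (f ⬝ᵥ e m) • x m) ⬝ᵥ rs e x v = 0 := by simp [d.dot_rs]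
  have e2 : rs x e f ⬝ᵥ (∑ m, (x m ⬝ᵥ v) • e m) = 0 := by simp [d.rs_dot]
  obtain ⟨c, hc⟩ := p.mul_scale m1 q e0 e1 e2
  obtain ⟨k1, a1, a2⟩ := P.d0.elt
  obtain ⟨k2, b1, b2⟩ := P.n1.elt
  have T1 := hs_kill e0 (by rw [smul_dotProduct, e1, smul_zero]) (by rw [dotProduct_smul, e2, smul_zero]) hc
    (x := k1 * k2) (by simp [a1, b1, ← mulVec_mulVec, sub_mulVec, vv_mulVec, d.dot_rs, -vecMulVec_smul])
    (by simp [a1, b1, ← vecMul_vecMul, vecMul_sub, vecMul_vv, d.rs_dot, -vecMulVec_smul])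
  by_cases hb : rs e x v = 0 ∨ rs x e f = 0
  · exact t.outer_zero m1 (fun c => h2 (by linear_combination -c)) p q hb
  push Not at hb
  refine (t.notv h2 _ _ ⟨T1, hb.1, smul_ne_zero (fun c => n ?_) hb.2⟩).elim
  simp only [_root_.mul_inv_rev, map_mul, a1, a2, b1, b2, ← mulVec_mulVec, sub_mulVec, one_mulVec, vv_mulVec,
    Fin.sum_univ_two, smul_dotProduct, dotProduct_smul, dotProduct_add, add_dotProduct, dotProduct_sub,
    sub_dotProduct, d.eq, d.e01, d.e10, smul_eq_mul, inv_neg, inv_one] at c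
  exact mul_left_cancel₀ (pow_ne_zero 3 h2) (by linear_combination -c)

theorem Pl.fr4 (P : Pl ρ e x) (a : D ρ v f) (p0 : 2 * pp e x v f 0 = 1) (p1 : 2 * pp e x v f 1 = 1)
    (h : (x 0 ⬝ᵥ v) ^ 2 + (x 1 ⬝ᵥ v) ^ 2 = 0) :
    ∃ (e x : Fin 3 → V5 K) (i : K), i ^ 2 = -1 ∧ Fr ρ e x i := by
  have h2 := P.two_ne
  have d := P.du
  have e3 := d.dot_eq f v
  have e1 := sum_add_rs e x v
  have e2 := sum_add_rs' e x f
  simp only [pp] at p0 p1
  rw [Fin.sum_univ_two] at e1 e2 e3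
  rw [a.1] at e3
  have a0 : x 0 ⬝ᵥ v ≠ 0 := fun c => by simp [c] at p0
  obtain ⟨y, hy⟩ : ∃ y, x 1 ⬝ᵥ v = y * x 0 ⬝ᵥ v := ⟨_, (div_mul_cancel₀ _ a0).symm⟩
  have y2 : y ^ 2 = -1 := mul_right_cancel₀ (pow_ne_zero 2 a0) (by rw [hy] at h; linear_combination h)
  have y0 : y ≠ 0 := fun c => by simp [c] at y2
  have yi : y⁻¹ = -y := inv_eq_of_mul_eq_one_right (by linear_combination -y2)
  have hz : f ⬝ᵥ e 1 = -y * f ⬝ᵥ e 0 := mul_left_cancel₀ (mul_ne_zero h2 (mul_ne_zero y0 a0)) (by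
    rw [hy] at p1; linear_combination p1 - p0 + 2 * x 0 ⬝ᵥ v * f ⬝ᵥ e 0 * y2)
  have q : x 0 ⬝ᵥ v * f ⬝ᵥ e 0 + x 1 ⬝ᵥ v * f ⬝ᵥ e 1 = 1 := mul_left_cancel₀ h2 (by linear_combination p0 + p1)
  have q' : x 0 ⬝ᵥ v * f ⬝ᵥ e 0 = x 1 ⬝ᵥ v * f ⬝ᵥ e 1 := mul_left_cancel₀ h2 (by linear_combination p0 - p1)
  have q'' : rs x e f ⬝ᵥ rs e x v = 1 := by linear_combination -e3 - q
  refine ⟨![(x 0 ⬝ᵥ v) • e 0 + (x 1 ⬝ᵥ v) • e 1, (x 0 ⬝ᵥ v) • e 0 - (x 1 ⬝ᵥ v) • e 1, -rs e x v],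
    ![(f ⬝ᵥ e 0) • x 0 + (f ⬝ᵥ e 1) • x 1, (f ⬝ᵥ e 0) • x 0 - (f ⬝ᵥ e 1) • x 1, -rs x e f], y, y2,
    Fr.mk3 (fun i j => ?_) ⟨one_ne_zero, (P.d1.smul' (c := 2 * x 1 ⬝ᵥ v) (d := f ⬝ᵥ e 1)
      (by linear_combination p1)).of_eq ?_ ?_⟩ ⟨y0, (P.n1.smul' (c := x 0 ⬝ᵥ v * (1 - y)) (d := f ⬝ᵥ e 0 * (1 + y))
      (by linear_combination p0 - x 0 ⬝ᵥ v * f ⬝ᵥ e 0 * y2)).of_eq ?_ ?_⟩ ⟨one_ne_zero, a.of_eq ?_ ?_⟩⟩
  · fin_cases i <;> fin_cases j <;> simp [d.eq, d.e01, d.e10, d.dot_rs, d.rs_dot, q''] <;>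
      first | linear_combination q | linear_combination q'
  · simp only [cons_val_zero, cons_val_one]; module
  · simp only [cons_val_zero, cons_val_one, inv_one]; module
  · simp only [cons_val_zero, cons_val_one, hy]
    match_scalars
    · ring
    · linear_combination x 0 ⬝ᵥ v * y2
  · simp only [cons_val_zero, cons_val_one, hz, yi]
    match_scalars
    · ring
    · linear_combination f ⬝ᵥ e 0 * y2
  · simpa using e1
  · simpa using e2

theorem Pl.plB (P : Pl ρ e x) {y : K} (y2 : y ^ 2 = -1) (a : D ρ (e 0 + y • e 1) (x 0 - y • x 1)) :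
    Pl ρ ![e 0, y • e 1] ![x 0, -y • x 1] := by
  have d := P.du
  have yy : y * -y = 1 := by linear_combination -y2
  refine ⟨Du.two (d.eq 0) (by simp [d.e01]) (by simp [d.e10]) (by simpa [d.eq] using yy), P.d0,
    (P.d1.smul' yy).of_eq rfl (smul_comm _ _ _), (P.d1.act a).of_eq ?_ ?_⟩ <;>
    simp only [cons_val_zero, cons_val_one, smul_dotProduct, dotProduct_smul, dotProduct_add, sub_dotProduct,
      d.eq, d.e01, d.e10, smul_eq_mul] <;> module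

theorem RH.fr4_key (r : RH ρ) (L : Lam ρ) (P : Pl ρ e x) {y : K} (y2 : y ^ 2 = -1)
    (a : D ρ (e 0 + y • e 1) (x 0 - y • x 1)) (b : D ρ u h) (hu : rs e x u ≠ 0) (n : NSP e x u h) :
    ∃ (e x : Fin 3 → V5 K) (i : K), i ^ 2 = -1 ∧ Fr ρ e x i := by
  have h2 := P.two_ne
  have d := P.du
  have o := one_ne_zero (α := K)
  rcases P.cases L b n with c | c | ⟨-, i, j, hij, pi, pj, ε, hε, c⟩
  · exact P.fr4 b c.1 c.2.1 c.2.2
  · exact (hu (P.inner r.toTame b n (by linear_combination c.1 + c.2.1)).1).elim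
  have B := P.plB y2 a
  have y0 : y ≠ 0 := fun c => by simp [c] at y2
  have ai : x i ⬝ᵥ u ≠ 0 := left_ne_zero_of_mul_eq_one pi
  have aj : x j ⬝ᵥ u ≠ 0 := fun c => by simp [pp, c] at pj
  have ε2 : ε ^ 2 = 1 := by rcases hε with rfl | rfl <;> ring
  have pB : ∀ m, pp ![e 0, y • e 1] ![x 0, -y • x 1] u h m = pp e x u h m := fun m => by
    fin_cases m
    · rfl
    · simp only [pp, Fin.mk_one, cons_val_one, cons_val_zero, smul_dotProduct, dotProduct_smul, smul_eq_mul]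
      linear_combination -(x 1 ⬝ᵥ u * h ⬝ᵥ e 1) * y2
  have ij : i = 0 ∧ j = 1 ∨ i = 1 ∧ j = 0 := by clear * - hij; revert i j; decide
  have nB : NSP ![e 0, y • e 1] ![x 0, -y • x 1] u h := fun k => by
    simp only [cons_val_one, cons_val_zero, smul_dotProduct, dotProduct_smul, smul_eq_mul] at k
    have k' : x 0 ⬝ᵥ u * h ⬝ᵥ e 1 + x 1 ⬝ᵥ u * h ⬝ᵥ e 0 = 0 := mul_left_cancel₀ y0 (by linear_combination k)
    refine mul_ne_zero ai aj ?_
    simp only [pp] at pi pj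
    rcases ij with ⟨rfl, rfl⟩ | ⟨rfl, rfl⟩
    · linear_combination -ε * c + 2 * ε * (x 0 ⬝ᵥ u * x 1 ⬝ᵥ u) * k' - ε * (x 0 ⬝ᵥ u) ^ 2 * pj -
        2 * ε * (x 1 ⬝ᵥ u) ^ 2 * pi - (x 0 ⬝ᵥ u * x 1 ⬝ᵥ u) * ε2
    · linear_combination -ε * c + 2 * ε * (x 0 ⬝ᵥ u * x 1 ⬝ᵥ u) * k' - ε * (x 1 ⬝ᵥ u) ^ 2 * pj -
        2 * ε * (x 0 ⬝ᵥ u) ^ 2 * pi - (x 0 ⬝ᵥ u * x 1 ⬝ᵥ u) * ε2
  rcases B.cases L b nB with c' | c' | ⟨-, i', j', hij', pi', pj', δ, hδ, c'⟩
  · exact B.fr4 b c'.1 c'.2.1 c'.2.2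
  · rw [pB, pB] at c'
    exact absurd (by rcases ij with ⟨-, rfl⟩ | ⟨-, rfl⟩ <;>
      first | linear_combination pj - 2 * c'.1 | linear_combination pj - 2 * c'.2.1) o
  exfalso
  rw [pB] at pi' pj'
  have δ2 : δ ^ 2 = 1 := by rcases hδ with rfl | rfl <;> ring
  obtain ⟨rfl, rfl⟩ : i' = i ∧ j' = j := by
    have : i' ≠ j := fun c => o (by rw [c] at pi'; linear_combination pj - 2 * pi')
    clear * - hij hij' this; revert i j i' j'; decide
  have h3 : (3 : K) = 0 := by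
    refine mul_left_cancel₀ (mul_ne_zero h2 (mul_ne_zero ai aj)) ?_
    rcases ij with ⟨rfl, rfl⟩ | ⟨rfl, rfl⟩ <;>
      simp only [cons_val_one, cons_val_zero, smul_dotProduct, smul_eq_mul] at c'
    · have k1 : 2 * x 0 ⬝ᵥ u = (ε - δ * y) * x 1 ⬝ᵥ u := mul_left_cancel₀ ai (by
        linear_combination c + c' - 2 * (x 1 ⬝ᵥ u) ^ 2 * y2)
      have k2 : 4 * x 1 ⬝ᵥ u = (ε + δ * y) * x 0 ⬝ᵥ u := mul_left_cancel₀ aj (by
        linear_combination c - c' + 2 * (x 1 ⬝ᵥ u) ^ 2 * y2)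
      linear_combination 4 * x 1 ⬝ᵥ u * k1 + (ε - δ * y) * x 1 ⬝ᵥ u * k2 +
        (x 0 ⬝ᵥ u * x 1 ⬝ᵥ u) * (ε2 - y ^ 2 * δ2 - y2)
    · have k1 : 4 * x 0 ⬝ᵥ u = (ε - δ * y) * x 1 ⬝ᵥ u := mul_left_cancel₀ aj (by
        linear_combination c + c' - (x 1 ⬝ᵥ u) ^ 2 * y2)
      have k2 : 2 * x 1 ⬝ᵥ u = (ε + δ * y) * x 0 ⬝ᵥ u := mul_left_cancel₀ ai (by
        linear_combination c - c' + (x 1 ⬝ᵥ u) ^ 2 * y2)
      linear_combination 2 * x 1 ⬝ᵥ u * k1 + (ε - δ * y) * x 1 ⬝ᵥ u * k2 +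
        (x 0 ⬝ᵥ u * x 1 ⬝ᵥ u) * (ε2 - y ^ 2 * δ2 - y2)
  have m1 : (-1 : K) ≠ 0 := by simp
  have iy : In ρ (dg e x fun _ => y) := by
    have s : Sw ρ e x 0 1 y := ⟨y0, B.n1.of_eq rfl (by
      rw [inv_eq_of_mul_eq_one_right (show y * -y = 1 by linear_combination -y2)]; rfl)⟩
    convert d.in_dg_mul (Sw.in_dg d (by decide) ⟨o, by simpa using P.n1⟩ s) P.in_d.2 using 2
    funext m; fin_cases m <;> simp
    field_simp; linear_combination y2
  obtain ⟨A, hA⟩ : ∃ A, A = ∑ m, (x m ⬝ᵥ u) • e m := ⟨_, rfl⟩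
  obtain ⟨α, hα⟩ : ∃ α, α = ∑ m, (h ⬝ᵥ e m) • x m := ⟨_, rfl⟩
  have p : D ρ (rs e x u + A) (rs x e h + α) := by
    rwa [hA, hα, add_comm, sum_add_rs, add_comm, sum_add_rs']
  have e1 : α ⬝ᵥ rs e x u = 0 := by simp [hα, d.dot_rs]
  have e2 : rs x e h ⬝ᵥ A = 0 := by simp [hA, d.rs_dot]
  have e4 : pp e x u h 0 + pp e x u h 1 = 0 := mul_left_cancel₀ h2 (by
    rcases ij with ⟨rfl, rfl⟩ | ⟨rfl, rfl⟩ <;> linear_combination 2 * pi + pj + h3)
  have e0 : α ⬝ᵥ A = 0 := by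
    simp only [pp] at e4
    simp only [hA, hα, Fin.sum_univ_two, smul_dotProduct, dotProduct_smul, dotProduct_add, add_dotProduct,
      d.eq, d.e01, d.e10, smul_eq_mul]
    linear_combination e4
  have e3 : rs x e h ⬝ᵥ rs e x u = 2 := by simpa [e0, e1, e2] using p.1
  have q : ∀ θ : K, θ ≠ 0 → In ρ (dg e x fun _ => θ) → D ρ (θ⁻¹ • rs e x u + A) (θ⁻¹⁻¹ • rs x e h + α) :=
    fun θ h0 hi => ((b.scal d h0 hi).smul (inv_ne_zero h0)).of_eq (by rw [← hA]; simp [h0, add_comm])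
      (by rw [← hα]; simp [h0, add_comm])
  obtain ⟨k, hk⟩ := p.mul_scale (inv_ne_zero m1) (q _ m1 P.in_neg) e0 e2 e1
  obtain ⟨k', hk'⟩ := p.mul_scale (inv_ne_zero y0) (q _ y0 iy) e0 e2 e1
  have T1 := hs_comm e0 (by simp [e2]) (by simp [e1]) (by simp [e2]) (by simp [e1]) hk hk'
  refine r.notv h2 _ _ ⟨T1, fun c => ai ?_, smul_ne_zero (fun c => y0 ?_) fun c => o ?_⟩
  · rw [← d.dot_sum (fun m => x m ⬝ᵥ u), ← hA, c, dotProduct_zero]
  · simp only [smul_dotProduct, dotProduct_smul, e3, smul_eq_mul, inv_neg, inv_one,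
      inv_eq_of_mul_eq_one_right (show y * -y = 1 by linear_combination -y2)] at c
    exact mul_left_cancel₀ (pow_ne_zero 3 h2) (by linear_combination -c)
  · rw [← pi, pp, ← d.sum_dot (fun m => h ⬝ᵥ e m), ← hα, c, zero_dotProduct, mul_zero]

theorem RH.fr4_of (r : RH ρ) (L : Lam ρ) (P : Pl ρ e x) (a : D ρ v f) (n : NSP e x v f)
    (h : pp e x v f 0 = pp e x v f 1) :
    ∃ (e x : Fin 3 → V5 K) (i : K), i ^ 2 = -1 ∧ Fr ρ e x i := by
  have h2 := P.two_ne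
  have d := P.du
  rcases P.cases L a n with c | ⟨p0, p1, c⟩ | ⟨-, i, j, hij, pi, pj, -⟩
  · exact P.fr4 a c.1 c.2.1 c.2.2
  swap
  · have : pp e x v f i = pp e x v f j := by
      fin_cases i <;> fin_cases j <;> first | rfl | exact h | exact h.symm
    exact absurd (by linear_combination pj - 2 * pi + 2 * this) (one_ne_zero (α := K))
  obtain ⟨r1, r2⟩ := P.inner r.toTame a n (by linear_combination p0 + p1)
  have e1 := sum_add_rs e x v
  have e2 := sum_add_rs' e x f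
  rw [Fin.sum_univ_two] at e1 e2
  simp only [pp] at p0 p1
  have a0 : x 0 ⬝ᵥ v ≠ 0 := left_ne_zero_of_mul_eq_one p0
  obtain ⟨y, hy⟩ : ∃ y, x 1 ⬝ᵥ v = y * x 0 ⬝ᵥ v := ⟨_, (div_mul_cancel₀ _ a0).symm⟩
  have y2 : y ^ 2 = -1 := mul_right_cancel₀ (pow_ne_zero 2 a0) (by rw [hy] at c; linear_combination c)
  have y0 : y ≠ 0 := fun c => by simp [c] at y2
  have yy : y * -y = 1 := by linear_combination -y2
  have ry : D ρ (e 0 + y • e 1) (x 0 - y • x 1) := by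
    refine (a.smul' (c := f ⬝ᵥ e 0) (d := x 0 ⬝ᵥ v) (by linear_combination p0)).of_eq ?_ ?_
    · refine Eq.trans ?_ (congrArg ((f ⬝ᵥ e 0) • ·) e1)
      rw [r1, hy]; match_scalars
      · linear_combination -p0
      · linear_combination -y * p0
    · refine Eq.trans ?_ (congrArg ((x 0 ⬝ᵥ v) • ·) e2)
      rw [r2]; match_scalars
      · linear_combination -p0
      · rw [hy] at p1; linear_combination y * p1 - x 0 ⬝ᵥ v * f ⬝ᵥ e 1 * y2
  have B := P.plB y2 ry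
  obtain ⟨t, ht⟩ : ∃ t : K, 2 * t = 1 := ⟨2⁻¹, mul_inv_cancel₀ h2⟩
  have A : Pl ρ ![e 0 - e 1, y • (e 0 + e 1)] ![t • (x 0 - x 1), (-y * t) • (x 0 + x 1)] := by
    refine ⟨Du.two ?_ ?_ ?_ ?_, P.n1.of_eq rfl ?_, (P.n2.smul' yy).of_eq rfl ?_,
      (B.n1.smul' (c := 1 - y) (d := t * (1 + y)) (by linear_combination ht - t * y2)).of_eq ?_ ?_⟩ <;>
      simp only [cons_val_zero, cons_val_one, smul_dotProduct, dotProduct_smul, dotProduct_add, sub_dotProduct,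
        add_dotProduct, dotProduct_sub, d.eq, d.e01, d.e10, smul_eq_mul]
    · linear_combination ht
    · ring
    · ring
    · linear_combination ht - 2 * t * y2
    · match_scalars <;> first | linear_combination ht | linear_combination -ht
    · match_scalars <;> linear_combination -y * ht
    · match_scalars
      · ring
      · linear_combination -y2
    · match_scalars
      · ring
      · linear_combination -t * y2
  obtain ⟨u, h, b, ⟨i, hi⟩, hu⟩ := r.outer d (by decide) (by decide)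
  by_cases nC : NSP e x u h
  · exact r.fr4_key L P y2 ry b hu nC
  by_cases nB : NSP ![e 0, y • e 1] ![x 0, -y • x 1] u h
  · refine r.fr4_key L B y2 (P.n1.of_eq ?_ ?_) b (fun c => hu (Eq.trans ?_ c)) nB <;>
      simp only [rs, Fin.sum_univ_two, cons_val_zero, cons_val_one, smul_dotProduct, smul_eq_mul] <;>
      match_scalars <;> first | ring1 | linear_combination y2 | linear_combination -y2 |
        linear_combination -(x 1 ⬝ᵥ u) * y2
  refine r.fr4_key L A y2 ((P.d1.smul' (c := -2) (d := -t) (by linear_combination ht)).of_eq ?_ ?_) b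
    (fun c => hu (Eq.trans ?_ c)) fun c => ?_
  · simp only [cons_val_zero, cons_val_one]; match_scalars
    · linear_combination y2
    · linear_combination y2
  · simp only [cons_val_zero, cons_val_one]; match_scalars
    · linear_combination t * y2
    · linear_combination t * y2
  · simp only [rs, Fin.sum_univ_two, cons_val_zero, cons_val_one, smul_dotProduct, sub_dotProduct,
      add_dotProduct, smul_eq_mul]
    match_scalars
    · ring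
    · linear_combination x 0 ⬝ᵥ u * ht - t * (x 0 ⬝ᵥ u + x 1 ⬝ᵥ u) * y2
    · linear_combination x 1 ⬝ᵥ u * ht - t * (x 0 ⬝ᵥ u + x 1 ⬝ᵥ u) * y2
  simp only [NSP, not_not, cons_val_zero, cons_val_one, smul_dotProduct, dotProduct_smul, dotProduct_add,
    sub_dotProduct, add_dotProduct, dotProduct_sub, smul_eq_mul] at nC nB c
  have s0 : x 0 ⬝ᵥ u * h ⬝ᵥ e 1 = 0 := mul_left_cancel₀ (mul_ne_zero h2 y0) (by linear_combination nB + y * nC)
  have s1 : pp e x u h 0 = pp e x u h 1 := mul_left_cancel₀ y0 (by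
    simp only [pp]; linear_combination c - y * (x 0 ⬝ᵥ u * h ⬝ᵥ e 0 - x 1 ⬝ᵥ u * h ⬝ᵥ e 1) * ht)
  have s2 : pp e x u h 0 = 0 := (pow_eq_zero_iff (n := 2) (by decide)).1 (by
    rw [pow_two]; nth_rw 2 [s1]; simp only [pp]; linear_combination x 1 ⬝ᵥ u * h ⬝ᵥ e 0 * s0)
  have s3 : x i ⬝ᵥ u = 0 := (mul_eq_zero.1 (show pp e x u h i = 0 by
    fin_cases i; exacts [s2, s1.symm.trans s2])).resolve_right hi
  exact hi (r.zero (show D ρ (e i) ((2 : K) • x i) by fin_cases i; exacts [P.d0, P.d1]) b (by simp [s3]))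

end Cfsg.Agent.D5
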