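import Cfsg.Agent.DIM5.Calc
import Mathlib.LinearAlgebra.Eigenspace.Pi
import Mathlib.LinearAlgebra.Eigenspace.Semisimple

set_option autoImplicit false

open Matrix
open scoped MatrixGroups

namespace Cfsg.Agent.D5

variable {K : Type*} [Field K] {Γ X : Type*} [Group Γ] [Group X] {ρ : Γ →* M5 K} {π : Γ →* X}

theorem exists_diag [IsAlgClosed K] (ρ : Γ →* M5 K) {ι : Type*} (a : ι → Γ)
    (hc : ∀ i j, a i * a j = a j * a i) (ho : ∀ i, ∃ n : ℕ, (n : K) ≠ 0 ∧ a i ^ n = 1) :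
    ∃ (B : (M5 K)ˣ) (d : ι → Fin 5 → K), ∀ i, cnj ρ B (a i) = diagonal (d i) := by
  let T : ι → Module.End K (V5 K) := fun i => toLin' (ρ (a i))
  have hss : ∀ i, (T i).IsSemisimple := fun i => by
    obtain ⟨n, hn, e⟩ := ho i
    refine Module.End.isSemisimple_of_squarefree_aeval_eq_zero (p := Polynomial.X ^ n - Polynomial.C 1)
      (Polynomial.separable_X_pow_sub_C (1 : K) hn one_ne_zero).squarefree ?_
    have : T i ^ n = 1 := by
      change toLinAlgEquiv' (ρ (a i)) ^ n = 1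
      rw [← map_pow, ← map_pow, e, map_one, map_one]
    simp [this]
  have top := Module.End.iSup_iInf_maxGenEigenspace_eq_top_of_iSup_maxGenEigenspace_eq_top_of_commute
    T (fun i j _ => by
      change toLinAlgEquiv' (ρ (a i)) * toLinAlgEquiv' (ρ (a j)) = toLinAlgEquiv' (ρ (a j)) * toLinAlgEquiv' (ρ (a i))
      rw [← map_mul, ← map_mul, hc, map_mul, map_mul]) (fun i => Module.End.iSup_maxGenEigenspace_eq_top _)
  simp only [(hss _).isFinitelySemisimple.maxGenEigenspace_eq_eigenspace] at top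
  have hs : ⊤ ≤ Submodule.span K {v : V5 K | ∀ i, ∃ c : K, ρ (a i) *ᵥ v = c • v} := by
    rw [← top]
    exact iSup_le fun χ v hv => Submodule.subset_span fun i =>
      ⟨χ i, Module.End.mem_eigenspace_iff.1 ((Submodule.mem_iInf _).1 hv i)⟩
  let b0 := Module.Basis.ofSpan hs
  let b := b0.reindex (b0.indexEquiv (Pi.basisFun K (Fin 5)))
  have hb : ∀ k i, ∃ c : K, ρ (a i) *ᵥ b k = c • b k := fun k => by
    rw [Module.Basis.reindex_apply]
    exact Module.Basis.ofSpan_subset hs ⟨_, rfl⟩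
  choose d hd using hb
  have hu : IsUnit (Matrix.of fun i j => b j i) := linearIndependent_cols_iff_isUnit.1 b.linearIndependent
  refine ⟨hu.unit, fun i k => d k i, fun i => ?_⟩
  rw [cnj_apply, mul_assoc, Units.inv_mul_eq_iff_eq_mul, IsUnit.unit_spec]
  ext k l
  rw [mul_diagonal, of_apply, mul_comm]
  exact congrFun (hd l i) k

theorem wt_perm (ρ : Γ →* M5 K) (n : Γ) : ∃ τ : Equiv.Perm (Fin 5), (∀ k, ρ n (τ k) k ≠ 0) ∧
    ∀ (a : Γ) (d d' : Fin 5 → K), ρ a = diagonal d → ρ (n * a * n⁻¹) = diagonal d' →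
      ∀ k, d' (τ k) = d k := by
  have h : (ρ n).det ≠ 0 := ((isUnit_iff_isUnit_det _).1 (isUnit_rho ρ n)).ne_zero
  rw [det_apply'] at h
  obtain ⟨τ, -, hτ⟩ := Finset.exists_ne_zero_of_sum_ne_zero h
  have h1 : ∀ k, ρ n (τ k) k ≠ 0 := fun k =>
    Finset.prod_ne_zero_iff.1 (right_ne_zero_of_mul hτ) k (Finset.mem_univ k)
  refine ⟨τ, h1, fun a d d' e e' k => ?_⟩
  have : diagonal d' * ρ n = ρ n * diagonal d := by rw [← e, ← e', ← map_mul, ← map_mul, inv_mul_cancel_right]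
  have := congrFun (congrFun this (τ k)) k
  rw [diagonal_mul, mul_diagonal, mul_comm] at this
  exact mul_left_cancel₀ (h1 k) this

theorem rank_diag (d : Fin 5 → K) [DecidableEq K] :
    (diagonal d - 1).rank = (Finset.univ.filter fun k => d k ≠ 1).card := by
  rw [← diagonal_one, diagonal_sub, rank_diagonal, Fintype.card_subtype]
  simp only [sub_ne_zero]

theorem rank_cnj (B : (M5 K)ˣ) (g : Γ) : (cnj ρ B g - 1).rank = (ρ g - 1).rank := by
  have : cnj ρ B g - 1 = B⁻¹.val * (ρ g - 1) * B.val := by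
    rw [cnj_apply, mul_sub, sub_mul, mul_one, Units.inv_mul]
  rw [this, rank_mul_eq_left_of_isUnit_det _ _ ((isUnit_iff_isUnit_det _).1 B.isUnit),
    rank_mul_eq_right_of_isUnit_det _ _ ((isUnit_iff_isUnit_det _).1 B⁻¹.isUnit)]

theorem wt_sgn_cnj (B : (M5 K)ˣ) : sgn (cnj ρ B) = cnj (sgn ρ) B :=
  MonoidHom.ext fun g => by simp [sgn_apply, cnj_apply]

theorem wt_sgn_dual : sgn (dual ρ) = dual (sgn ρ) :=
  MonoidHom.ext fun g => by simp [sgn_apply, dual_apply]

theorem NoRf.cnj (n : NoRf ρ) (B : (M5 K)ˣ) : NoRf (D5.cnj ρ B) := fun _ _ h =>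
  n _ _ ((D.cnj_iff B).1 (wt_sgn_cnj (ρ := ρ) B ▸ h))

theorem NoRf.dual (n : NoRf ρ) : NoRf (D5.dual ρ) := fun _ _ h =>
  n _ _ (D.dual_iff.1 (wt_sgn_dual (ρ := ρ) ▸ h))

theorem Hyp.inv_wt [DecidableEq K] (h : Hyp ρ π) (n : NoRf ρ) (h2 : (2 : K) ≠ 0) {g : Γ}
    {d : Fin 5 → K} (hd : ρ g = diagonal d) (hg : g * g = 1) (h1 : g ≠ 1) :
    (∀ k, d k = 1 ∨ d k = -1) ∧ (Finset.univ.filter fun k => d k = -1).card = 2 := by
  have e1 : ∀ k, d k = 1 ∨ d k = -1 := fun k => by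
    have := congrArg (fun g => ρ g k k) hg
    simp only [map_mul, hd, diagonal_mul_diagonal, diagonal_apply_eq, map_one, one_apply_eq] at this
    exact mul_self_eq_one_iff.1 this
  refine ⟨e1, ?_⟩
  have ne : (-1 : K) ≠ 1 := fun e => h2 (by linear_combination -e)
  have e2 : (-1 : K) ^ (Finset.univ.filter fun k => d k = -1).card = 1 := by
    refine Eq.trans ?_ (h.det g)
    rw [hd, det_diagonal, ← Finset.prod_const, Finset.prod_filter]
    refine Finset.prod_congr rfl fun k _ => ?_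
    rcases e1 k with e | e <;> simp [e, ne.symm]
  have e3 := Finset.card_filter_add_card_filter_not (s := Finset.univ) fun k => d k = -1
  rw [Finset.card_univ, Fintype.card_fin] at e3
  have e4 := (neg_one_pow_eq_one_iff_even ne).1 e2
  have e5 : (Finset.univ.filter fun k => d k = -1).card ≠ 0 := fun e => h1 (h.inj (by
    rw [hd, map_one, ← diagonal_one]
    congr 1
    exact funext fun k => (e1 k).resolve_right (Finset.filter_eq_empty_iff.1 (Finset.card_eq_zero.1 e)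
      (Finset.mem_univ k))))
  have e6 : (Finset.univ.filter fun k => ¬ d k = -1).card ≠ 1 := fun e => by
    obtain ⟨k0, hk⟩ := Finset.card_eq_one.1 e
    have hk' : ∀ k, ¬ d k = -1 ↔ k = k0 := fun k => by simpa using Finset.ext_iff.1 hk k
    refine n (Pi.single k0 1) (Pi.single k0 2) ⟨by simp, by simp, by simpa using h2, in_sgn.2 ⟨g, Or.inr ?_⟩⟩
    rw [hd]
    ext i j
    by_cases hij : i = j
    · subst hij
      by_cases hi : i = k0
      · subst hi
        simp [vecMulVec_apply, (e1 i).resolve_right ((hk' i).2 rfl)]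
        norm_num
      · simp [vecMulVec_apply, hi, not_not.1 (mt (hk' i).1 hi)]
    · by_cases hi : i = k0
      · subst hi
        simp [vecMulVec_apply, hij, Ne.symm hij]
      · simp [vecMulVec_apply, hij, hi]
  grind

theorem Hyp.rank_inv [IsAlgClosed K] (h : Hyp ρ π) (n : NoRf ρ) {g : Γ} (hg : g * g = 1) :
    (ρ g - 1).rank ≤ 2 := by
  classical
  by_cases h2 : (2 : K) = 0
  · have : (ρ g - 1) * (ρ g - 1) = 0 := by
      rw [sub_mul, mul_sub, ← map_mul, hg, map_one, mul_one, one_mul, sub_sub, ← add_sub_assoc, ← two_smul K, h2,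
        zero_smul, zero_sub, sub_neg_eq_add, ← two_smul K, h2, zero_smul]
    have := rank_add_rank_le_card_of_mul_eq_zero this
    rw [Fintype.card_fin] at this
    omega
  by_cases h1 : g = 1
  · simp [h1]
  obtain ⟨B, d, hd⟩ := exists_diag ρ (fun _ : Unit => g) (fun _ _ => rfl) fun _ => ⟨2, by simpa using h2, by rw [sq, hg]⟩
  obtain ⟨e1, e2⟩ := (h.cnj B).inv_wt (n.cnj B) h2 (hd ()) hg h1
  rw [← rank_cnj B, hd (), rank_diag, ← e2]
  exact Finset.card_le_card fun k hk => by simpa using (e1 k).resolve_left (by simpa using hk)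

theorem wt_perm_three : ∀ τ : Equiv.Perm (Fin 5),
    (Finset.univ.filter fun k => τ (τ (τ (τ k))) ≠ k ∧ τ (τ (τ (τ (τ k)))) ≠ k).card ≤ 3 := by
  decide +kernel

theorem rank_three [IsAlgClosed K] {g : Γ} {r m : ℕ} (hr : (r = 7 ∧ m = 2) ∨ (r = 13 ∧ m = 3))
    (hK : (r : K) ≠ 0) (hg : g ^ r = 1) (hc : IsConj g (g ^ m)) : (ρ g - 1).rank ≤ 3 := by
  classical
  obtain ⟨B, d, hd⟩ := exists_diag ρ (fun _ : Unit => g) (fun _ _ => rfl) fun _ => ⟨r, hK, hg⟩
  obtain ⟨n, hn⟩ := isConj_iff.1 hc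
  obtain ⟨τ, -, hτ⟩ := wt_perm (cnj ρ B) n
  have e1 := hτ g (d ()) (d () ^ m) (hd ()) (by rw [hn, map_pow, hd (), diagonal_pow])
  simp only [Pi.pow_apply] at e1
  have e2 : ∀ k, d () k ^ r = 1 := fun k => by
    have := congrArg (fun g => cnj ρ B g k k) hg
    simpa only [map_pow, hd (), diagonal_pow, diagonal_apply_eq, map_one, one_apply_eq, Pi.pow_apply] using this
  have key : ∀ (x : K) s, x ^ r = 1 → x ^ (s + 1) = x → Nat.Coprime s r → x = 1 := fun x s h1 h2 h3 => by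
    have x0 : x ≠ 0 := by
      rintro rfl
      rcases hr with ⟨rfl, -⟩ | ⟨rfl, -⟩ <;> simp at h1
    exact (pow_eq_one_iff_of_coprime h3).1 ⟨mul_right_cancel₀ x0 (by rw [← pow_succ, h2, one_mul]), h1⟩
  rw [← rank_cnj B, hd (), rank_diag]
  refine (Finset.card_le_card fun k hk => ?_).trans (wt_perm_three τ)
  rw [Finset.mem_filter] at hk ⊢
  have e4 : d () (τ (τ (τ (τ k)))) ^ (m ^ 4) = d () k := by
    rw [show m ^ 4 = m * m * m * m by ring, pow_mul, pow_mul, pow_mul, e1, e1, e1, e1]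
  have e5 : d () (τ (τ (τ (τ (τ k))))) ^ (m ^ 5) = d () k := by
    rw [pow_succ', pow_mul, e1, e4]
  refine ⟨hk.1, fun e => hk.2 ?_, fun e => hk.2 ?_⟩
  · rw [e] at e4
    rcases hr with ⟨rfl, rfl⟩ | ⟨rfl, rfl⟩
    · exact key _ 15 (e2 k) e4 (by norm_num)
    · exact key _ 80 (e2 k) e4 (by norm_num)
  · rw [e] at e5
    rcases hr with ⟨rfl, rfl⟩ | ⟨rfl, rfl⟩
    · exact key _ 31 (e2 k) e5 (by norm_num)
    · exact key _ 242 (e2 k) e5 (by norm_num)

end Cfsg.Agent.D5
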